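import Mathlib
import Cfsg.Prelude.Def_GeometricClasses
import Cfsg.Prelude.Def_Classical
import Cfsg.Prelude.Def_ClassicalGeometry
import Cfsg.Agent.H42.SpdDefs
import Cfsg.Agent.H49.Plus
import Cfsg.Agent.H49.Refl
import Cfsg.Agent.H77.TqDefs

/-!
# S5977 team project (helper96): definitions and piece statements

`PΩ⁺_{2d}(q)`, `q` odd, and the normalizer `N(K)` of a subalgebra `K` of the matrix algebra that
is a field of degree `2` over `F` with self-adjoint elements for the polar form (type `O_d(q²)`).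
All elements of order `r` (modulo scalars) of `Ω` are `Ω`-conjugate into `N(K)` iff `r = 2`.

The plus-type twin of helper77's S5978 project: the generic pieces of `Cfsg.Agent.H77.TqDefs`
(`KO`, `KCoord`, `StDiag`, `StStruct`, `StLin`, `StLift`, `StNormSq`, `StPlane`, `StOrdDiagOdd`,
`StArithCC`, `StAutG`, `StRankTwo`, `StKBound`, `StSqMem`, `StOddMem`, `StARank`, `StAModel`,
`StAConjO`, `StAdjA`, `StTypeA`, `StBAdapt`, `StBConjO`) are reused as they are; this file adds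
the pieces that depend on the form `Cfsg.quadFormPlus d F = ⇑(Cfsg.Agent.H49.QP d F)` on
`F^(Fin d ⊕ Fin d)` and a treatment of the elements of square `-1` that is valid for any form.
-/

set_option autoImplicit false
open scoped MatrixGroups
open scoped Matrix

namespace Cfsg.Agent.Lib.Helper96.TqP

open Module
open Cfsg.Agent.H77.Tq

universe u

/-! ## Elements of square `-1` (generic part) -/

/-- S5977-SEMIPL: if all `α_l` are nonsquares (and `0 < n`), some `K`-semilinear isometry `y` of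
`Q` has square `-1` and leaves invariant a nondegenerate `F`-plane `P` that is a `K`-line. -/
def StSemiPl : Prop :=
  ∀ (F : Type u) [Field F] [Fintype F] (ι : Type) [Fintype ι] [DecidableEq ι]
    (Q : QuadraticForm F (ι → F)) (K : Subalgebra F (Matrix ι ι F)) (L : Type u) [Field L]
    [Fintype L] [Algebra F L] (n : ℕ) (ψ : L →ₐ[F] Matrix ι ι F)
    (φ : (Fin n → L) ≃ₗ[F] (ι → F)) (α : Fin n → L), KO Q K → KCoord Q K n ψ φ α → 0 < n →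
    (∀ l, ¬ IsSquare (α l)) →
    ∃ (y : GL ι F) (P : Submodule F (ι → F)), y ∈ Cfsg.isometryGroup F ⇑Q ∧
      y ∈ Cfsg.Geo.subalgebraNormalizer K ∧
      (y : Matrix ι ι F) * (y : Matrix ι ι F) = -1 ∧
      Module.finrank F P = 2 ∧
      (∀ a ∈ P, (∀ b ∈ P, QuadraticMap.polar (⇑Q) a b = 0) → a = 0) ∧
      (∀ v ∈ P, (y : Matrix ι ι F) *ᵥ v ∈ P) ∧
      (∀ a ∈ K, ∀ v ∈ P, a *ᵥ v ∈ P)

/-- S5977-REFLN: let `y ∈ O(Q) ∩ N(K)` have square `-1` and let `P` be a `y`-invariant `F`-plane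
that is a `K`-line.  For nonsingular `u₁, u₂ ∈ P` the conjugates of `y` under the reflection
`r_{u₁}` and under `r_{u₁} r_{u₂}` normalize `K`. -/
def StReflN : Prop :=
  ∀ (F : Type u) [Field F] [Fintype F] (ι : Type) [Fintype ι] [DecidableEq ι]
    (Q : QuadraticForm F (ι → F)) (K : Subalgebra F (Matrix ι ι F)), KO Q K →
    ∀ (y : GL ι F) (P : Submodule F (ι → F)), y ∈ Cfsg.isometryGroup F ⇑Q →
    y ∈ Cfsg.Geo.subalgebraNormalizer K →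
    (y : Matrix ι ι F) * (y : Matrix ι ι F) = -1 →
    Module.finrank F P = 2 →
    (∀ v ∈ P, (y : Matrix ι ι F) *ᵥ v ∈ P) →
    (∀ a ∈ K, ∀ v ∈ P, a *ᵥ v ∈ P) →
    ∀ u₁ ∈ P, ∀ u₂ ∈ P, Q u₁ ≠ 0 → Q u₂ ≠ 0 →
      ((Cfsg.Agent.H49.reflG Q u₁ : ↥(Cfsg.isometryGroup F ⇑Q)) : GL ι F) * y *
          ((Cfsg.Agent.H49.reflG Q u₁ : ↥(Cfsg.isometryGroup F ⇑Q)) : GL ι F)⁻¹ ∈
        Cfsg.Geo.subalgebraNormalizer K ∧
      (((Cfsg.Agent.H49.reflG Q u₁ : ↥(Cfsg.isometryGroup F ⇑Q)) : GL ι F) *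
          ((Cfsg.Agent.H49.reflG Q u₂ : ↥(Cfsg.isometryGroup F ⇑Q)) : GL ι F)) * y *
          (((Cfsg.Agent.H49.reflG Q u₁ : ↥(Cfsg.isometryGroup F ⇑Q)) : GL ι F) *
            ((Cfsg.Agent.H49.reflG Q u₂ : ↥(Cfsg.isometryGroup F ⇑Q)) : GL ι F))⁻¹ ∈
        Cfsg.Geo.subalgebraNormalizer K

/-- S5977-COSETS: for nonsingular `u₁, u₂` with `Q u₁ * Q u₂` a nonsquare, the elements
`1, r_{u₁}, r_{u₂}, r_{u₁} r_{u₂}` represent all cosets of `Ω` in the isometry group. -/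
def StCosets : Prop :=
  ∀ (F : Type u) [Field F] [Fintype F] (ι : Type) [Fintype ι] [DecidableEq ι]
    (Q : QuadraticForm F (ι → F)), (2 : F) ≠ 0 → (QuadraticMap.polarBilin Q).Nondegenerate →
    ∀ (u₁ u₂ : ι → F), Q u₁ ≠ 0 → Q u₂ ≠ 0 → ¬ IsSquare (Q u₁ * Q u₂) →
    ∀ g : GL ι F, g ∈ Cfsg.isometryGroup F ⇑Q →
      g ∈ Cfsg.Geo.omegaGL ⇑Q ∨
      ((Cfsg.Agent.H49.reflG Q u₁ : ↥(Cfsg.isometryGroup F ⇑Q)) : GL ι F) * g ∈
        Cfsg.Geo.omegaGL ⇑Q ∨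
      ((Cfsg.Agent.H49.reflG Q u₂ : ↥(Cfsg.isometryGroup F ⇑Q)) : GL ι F) * g ∈
        Cfsg.Geo.omegaGL ⇑Q ∨
      ((Cfsg.Agent.H49.reflG Q u₁ : ↥(Cfsg.isometryGroup F ⇑Q)) : GL ι F) *
          ((Cfsg.Agent.H49.reflG Q u₂ : ↥(Cfsg.isometryGroup F ⇑Q)) : GL ι F) * g ∈
        Cfsg.Geo.omegaGL ⇑Q

/-! ## Elements of square `-1` (plus type) -/

/-- S5977-DISC: for the plus-type form, if all `α_l` but the last are nonsquares, the last one is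
a square iff `(-1)^n` is a nonsquare of `F`. -/
def StDiscP : Prop :=
  ∀ (F : Type u) [Field F] [Fintype F] (d : ℕ)
    (K : Subalgebra F (Matrix (Fin d ⊕ Fin d) (Fin d ⊕ Fin d) F)) (L : Type u) [Field L]
    [Fintype L] [Algebra F L] (n : ℕ) (ψ : L →ₐ[F] Matrix (Fin d ⊕ Fin d) (Fin d ⊕ Fin d) F)
    (φ : (Fin n → L) ≃ₗ[F] (Fin d ⊕ Fin d → F)) (α : Fin n → L), (2 : F) ≠ 0 →
    KCoord (Cfsg.Agent.H49.QP d F) K n ψ φ α →
    (∀ l : Fin n, (l : ℕ) + 1 < n → ¬ IsSquare (α l)) →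
    ∀ l : Fin n, (l : ℕ) + 1 = n → (IsSquare (α l) ↔ ¬ IsSquare ((-1 : F) ^ n))

/-- S5977-BCOND: if the plus-type form in dimension `2 d` has an isometry of square `-1` then
`(-1)^d` is a square of `F`. -/
def StBCondP : Prop :=
  ∀ (F : Type u) [Field F] [Fintype F] (d : ℕ), (2 : F) ≠ 0 →
    ∀ x : GL (Fin d ⊕ Fin d) F, x ∈ Cfsg.isometryGroup F (Cfsg.quadFormPlus d F) →
    (x : Matrix (Fin d ⊕ Fin d) (Fin d ⊕ Fin d) F) *
      (x : Matrix (Fin d ⊕ Fin d) (Fin d ⊕ Fin d) F) = -1 →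
    IsSquare ((-1 : F) ^ d)

/-- S5977-TYPEB: every element of `Ω⁺` of square `-1` is `Ω`-conjugate into `N(K)`. -/
def StTypeBP : Prop :=
  ∀ (F : Type u) [Field F] [Fintype F] (d : ℕ)
    (K : Subalgebra F (Matrix (Fin d ⊕ Fin d) (Fin d ⊕ Fin d) F)), 0 < d →
    KO (Cfsg.Agent.H49.QP d F) K →
    ∀ x : GL (Fin d ⊕ Fin d) F, x ∈ Cfsg.Geo.omegaGL (Cfsg.quadFormPlus d F) →
    (x : Matrix (Fin d ⊕ Fin d) (Fin d ⊕ Fin d) F) *
      (x : Matrix (Fin d ⊕ Fin d) (Fin d ⊕ Fin d) F) = -1 →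
    ∃ g ∈ Cfsg.Geo.omegaGL (Cfsg.quadFormPlus d F),
      g⁻¹ * x * g ∈ Cfsg.Geo.subalgebraNormalizer K

/-! ## Orders -/

/-- S5977-ORDDIAGEVEN: the order of the isometry group of a diagonal form of plus type in even
dimension. -/
def StOrdDiagEvenP : Prop :=
  ∀ (L : Type u) [Field L] [Fintype L] (n : ℕ) (α : Fin n → L), (2 : L) ≠ 0 → (∀ l, α l ≠ 0) →
    Even n → 0 < n → IsSquare ((-1 : L) ^ (n / 2) * ∏ l, α l) →
    Nat.card ↥(Cfsg.isometryGroup L (fun w : Fin n → L => ∑ l, α l * w l ^ 2)) =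
      2 * Fintype.card L ^ ((n / 2) * (n / 2 - 1)) * (Fintype.card L ^ (n / 2) - 1) *
        ∏ j ∈ Finset.range (n / 2 - 1), (Fintype.card L ^ (2 * (j + 1)) - 1)

/-- S5977-CENTORD: `N(K) ∩ O(Q)` contains a subgroup of the order of `O_d(q²)` (plus type for `d`
even). -/
def StCentOrdP : Prop :=
  ∀ (F : Type u) [Field F] [Fintype F] (d : ℕ)
    (K : Subalgebra F (Matrix (Fin d ⊕ Fin d) (Fin d ⊕ Fin d) F)), 0 < d →
    KO (Cfsg.Agent.H49.QP d F) K →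
    ∃ H : Subgroup (GL (Fin d ⊕ Fin d) F),
      H ≤ Cfsg.isometryGroup F (Cfsg.quadFormPlus d F) ∧
      H ≤ Cfsg.Geo.subalgebraNormalizer K ∧
      Nat.card ↥H = (if Even d then
          2 * (Fintype.card F ^ 2) ^ ((d / 2) * (d / 2 - 1)) *
            ((Fintype.card F ^ 2) ^ (d / 2) - 1) *
            ∏ j ∈ Finset.range (d / 2 - 1), ((Fintype.card F ^ 2) ^ (2 * (j + 1)) - 1)
        else
          2 * (Fintype.card F ^ 2) ^ ((d / 2) ^ 2) *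
            ∏ j ∈ Finset.range (d / 2), ((Fintype.card F ^ 2) ^ (2 * (j + 1)) - 1))

/-- S5977-ARITHORD: for `4 ∣ ord_r(q)` the `r`-part of `|O⁺_{2d}(q)|` is that of `|O_d(q²)|`
(plus type for `d` even). -/
def StArithOrdP : Prop :=
  ∀ (q d r : ℕ), 2 ≤ q → r.Prime → r ≠ 2 → ¬ r ∣ q → 4 ∣ orderOf (q : ZMod r) →
    ∃ M : ℕ, ¬ r ∣ M ∧
      2 * q ^ (d * (d - 1)) * (q ^ d - 1) *
          ∏ j ∈ Finset.range (d - 1), (q ^ (2 * (j + 1)) - 1) ∣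
        M * (if Even d then
          2 * (q ^ 2) ^ ((d / 2) * (d / 2 - 1)) * ((q ^ 2) ^ (d / 2) - 1) *
            ∏ j ∈ Finset.range (d / 2 - 1), ((q ^ 2) ^ (2 * (j + 1)) - 1)
        else
          2 * (q ^ 2) ^ ((d / 2) ^ 2) *
            ∏ j ∈ Finset.range (d / 2), ((q ^ 2) ^ (2 * (j + 1)) - 1))

/-- S5977-KORD: for `4 ∣ ord_r(q)` the prime `r` does not divide the index of `N(K) ∩ Ω`. -/
def StKOrdP : Prop :=
  ∀ (F : Type u) [Field F] [Fintype F] (p : ℕ) [Fact p.Prime] [CharP F p] (d : ℕ)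
    (K : Subalgebra F (Matrix (Fin d ⊕ Fin d) (Fin d ⊕ Fin d) F)), 0 < d →
    KO (Cfsg.Agent.H49.QP d F) K →
    ∀ r : ℕ, r.Prime → r ≠ 2 → r ≠ p → 4 ∣ orderOf (Fintype.card F : ZMod r) →
    ¬ r ∣ (Cfsg.Geo.subalgebraNormalizer K).relIndex
      (Cfsg.Geo.omegaGL (Cfsg.quadFormPlus d F))

/-- S5977-IDX: the arithmetic consequences of `r ∣ |Ω : N(K) ∩ Ω|`, `r ≠ 2, p`. -/
def StIdxP : Prop :=
  ∀ (F : Type u) [Field F] [Fintype F] (p : ℕ) [Fact p.Prime] [CharP F p] (d : ℕ)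
    (K : Subalgebra F (Matrix (Fin d ⊕ Fin d) (Fin d ⊕ Fin d) F)), 0 < d →
    KO (Cfsg.Agent.H49.QP d F) K →
    ∀ r : ℕ, r.Prime → r ≠ 2 → r ≠ p →
    r ∣ (Cfsg.Geo.subalgebraNormalizer K).relIndex
      (Cfsg.Geo.omegaGL (Cfsg.quadFormPlus d F)) →
    (Odd (orderOf (Fintype.card F : ZMod r)) → orderOf (Fintype.card F : ZMod r) ≤ d) ∧
    (Even (orderOf (Fintype.card F : ZMod r)) →
      orderOf (Fintype.card F : ZMod r) + 2 ≤ 2 * d) ∧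
    ¬ 4 ∣ orderOf (Fintype.card F : ZMod r)

/-! ## Elements of odd prime order -/

/-- S5977-SIEGEL: a long root element of `Ω⁺`: order `p`, non-scalar, `x - 1` of rank two. -/
def StSiegelP : Prop :=
  ∀ (F : Type u) [Field F] [Fintype F] (p : ℕ) [Fact p.Prime] [CharP F p] (d : ℕ),
    (2 : F) ≠ 0 → 2 ≤ d →
    ∃ x : GL (Fin d ⊕ Fin d) F, x ∈ Cfsg.Geo.omegaGL (Cfsg.quadFormPlus d F) ∧ x ^ p = 1 ∧
      (∀ z : F, (x : Matrix (Fin d ⊕ Fin d) (Fin d ⊕ Fin d) F) ≠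
        z • (1 : Matrix (Fin d ⊕ Fin d) (Fin d ⊕ Fin d) F)) ∧
      ((x : Matrix (Fin d ⊕ Fin d) (Fin d ⊕ Fin d) F) - 1).rank = 2

/-- S5977-MINELODD: for `i = ord_r(q)` odd, `i ≤ d`: an element of `Ω⁺` of order `r` with
`rank (x - 1) = 2 i`. -/
def StMinElOddP : Prop :=
  ∀ (F : Type u) [Field F] [Fintype F] (p : ℕ) [Fact p.Prime] [CharP F p] (d : ℕ),
    (2 : F) ≠ 0 → ∀ r : ℕ, r.Prime → r ≠ 2 → r ≠ p →
    Odd (orderOf (Fintype.card F : ZMod r)) → orderOf (Fintype.card F : ZMod r) ≤ d →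
    ∃ x : GL (Fin d ⊕ Fin d) F, x ∈ Cfsg.Geo.omegaGL (Cfsg.quadFormPlus d F) ∧ x ^ r = 1 ∧
      (∀ z : F, (x : Matrix (Fin d ⊕ Fin d) (Fin d ⊕ Fin d) F) ≠
        z • (1 : Matrix (Fin d ⊕ Fin d) (Fin d ⊕ Fin d) F)) ∧
      ((x : Matrix (Fin d ⊕ Fin d) (Fin d ⊕ Fin d) F) - 1).rank = Cfsg.Agent.H42.Spd.cc F r

/-- S5977-EMB: the isometry group of a minus-type form in dimension `2 k + 2` embeds into that
of the plus-type form in dimension `2 d`, `k + 2 ≤ d`, preserving `rank (x - 1)` (it acts on a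
nondegenerate subspace of minus type and trivially on the orthogonal complement). -/
def StEmbMP : Prop :=
  ∀ (F : Type u) [Field F] [Fintype F] (k d : ℕ) (a b : F), (2 : F) ≠ 0 → Aniso a b →
    k + 2 ≤ d →
    ∃ Θ : ↥(Cfsg.isometryGroup F (Cfsg.quadFormMinus k F a b)) →* GL (Fin d ⊕ Fin d) F,
      (∀ g, Θ g ∈ Cfsg.isometryGroup F (Cfsg.quadFormPlus d F)) ∧
      ∀ g : ↥(Cfsg.isometryGroup F (Cfsg.quadFormMinus k F a b)),
        (((Θ g : GL (Fin d ⊕ Fin d) F) : Matrix (Fin d ⊕ Fin d) (Fin d ⊕ Fin d) F) - 1).rank =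
          (((g : GL (MI k) F) : Matrix (MI k) (MI k) F) - 1).rank

/-- S5977-MINELEVEN: for `i = ord_r(q)` even, `i + 2 ≤ 2 d`: an element of `Ω⁺` of order `r` with
`rank (x - 1) = i`. -/
def StMinElEvenP : Prop :=
  ∀ (F : Type u) [Field F] [Fintype F] (p : ℕ) [Fact p.Prime] [CharP F p] (d : ℕ),
    (2 : F) ≠ 0 → ∀ r : ℕ, r.Prime → r ≠ 2 → r ≠ p →
    Even (orderOf (Fintype.card F : ZMod r)) → orderOf (Fintype.card F : ZMod r) + 2 ≤ 2 * d →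
    ∃ x : GL (Fin d ⊕ Fin d) F, x ∈ Cfsg.Geo.omegaGL (Cfsg.quadFormPlus d F) ∧ x ^ r = 1 ∧
      (∀ z : F, (x : Matrix (Fin d ⊕ Fin d) (Fin d ⊕ Fin d) F) ≠
        z • (1 : Matrix (Fin d ⊕ Fin d) (Fin d ⊕ Fin d) F)) ∧
      ((x : Matrix (Fin d ⊕ Fin d) (Fin d ⊕ Fin d) F) - 1).rank = Cfsg.Agent.H42.Spd.cc F r

/-- S5977-FWD: for an odd prime `r` dividing the index, some element of order `r` of `Ω⁺` is not
conjugate into `N(K)`. -/
def StFwdP : Prop :=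
  ∀ (F : Type u) [Field F] [Fintype F] (p : ℕ) [Fact p.Prime] [CharP F p] (d : ℕ)
    (K : Subalgebra F (Matrix (Fin d ⊕ Fin d) (Fin d ⊕ Fin d) F)), 2 ≤ d →
    KO (Cfsg.Agent.H49.QP d F) K → ∀ r : ℕ, r.Prime → r ≠ 2 →
    r ∣ (Cfsg.Geo.subalgebraNormalizer K).relIndex
      (Cfsg.Geo.omegaGL (Cfsg.quadFormPlus d F)) →
    ∃ x : GL (Fin d ⊕ Fin d) F, x ∈ Cfsg.Geo.omegaGL (Cfsg.quadFormPlus d F) ∧ x ^ r = 1 ∧
      (∀ z : F, (x : Matrix (Fin d ⊕ Fin d) (Fin d ⊕ Fin d) F) ≠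
        z • (1 : Matrix (Fin d ⊕ Fin d) (Fin d ⊕ Fin d) F)) ∧
      ∀ g ∈ Cfsg.Geo.omegaGL (Cfsg.quadFormPlus d F),
        g⁻¹ * x * g ∉ Cfsg.Geo.subalgebraNormalizer K

end Cfsg.Agent.Lib.Helper96.TqP
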