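import Mathlib
import Cfsg.Agent.H89.OField
import Cfsg.Agent.Lib.Helper30.PsuF1

set_option autoImplicit false

/-! Piece S2415 M-FIELD (helper96): the finite-field data for the minus-type orthogonal groups,
all `q`.  `B` = multiplication by a generator `ζ` of `Eˣ`, `E` the extension of degree `k` of
`F`, `G` = the Gram matrix of the trace form (as in helper89's `OField`). -/

namespace Cfsg.Agent.Lib.Helper96.M

open Matrix

/-- The order of `ζ ^ (2 (q + 1))` is large. -/
theorem mfield_arith (q k : ℕ) (hq : 2 ≤ q) (hk : 3 ≤ k) :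
    q ^ k < ((q ^ k - 1) / Nat.gcd (q ^ k - 1) (2 * (q + 1)) + 1) ^ 2 := by
  obtain ⟨Q', hQ'⟩ : ∃ Q', q ^ k = Q' + 1 :=
    ⟨q ^ k - 1, by have := Nat.one_le_pow k q (by omega); omega⟩
  rw [hQ', Nat.add_sub_cancel]
  obtain ⟨g, hg⟩ : ∃ g, g = Nat.gcd Q' (2 * (q + 1)) := ⟨_, rfl⟩
  rw [← hg]
  have hgpos : 0 < g := by rw [hg]; exact Nat.gcd_pos_of_pos_right _ (by omega)
  have hgQ : g ∣ Q' := by rw [hg]; exact Nat.gcd_dvd_left _ _
  have hg2 : g ∣ 2 * (q + 1) := by rw [hg]; exact Nat.gcd_dvd_right _ _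
  obtain ⟨n, hn⟩ := hgQ
  have hdiv : Q' / g = n := by rw [hn]; exact Nat.mul_div_cancel_left n hgpos
  rw [hdiv]
  have hgle : g ∣ Nat.gcd Q' 2 * Nat.gcd Q' (q + 1) := by
    rw [hg]; exact Nat.gcd_mul_right_dvd_mul_gcd _ _ _
  rcases Nat.even_or_odd k with hke | hko
  · obtain ⟨j, hj⟩ := hke
    have hj2 : 2 ≤ j := by omega
    obtain ⟨x, hx⟩ : ∃ x, x = q ^ j := ⟨_, rfl⟩
    have hQx : Q' + 1 = x * x := by rw [← hQ', hj, pow_add, hx]
    have hxq : q * q ≤ x := by
      rw [hx]
      calc q * q = q ^ 2 := (sq q).symm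
        _ ≤ q ^ j := Nat.pow_le_pow_right (by omega) hj2
    have hgx : g + 1 ≤ x := by
      rcases Nat.lt_or_ge q 3 with h2 | h3
      · have hq2 : q = 2 := by omega
        subst hq2
        have hQodd : Q' % 2 = 1 := by
          have h2k : (2 ^ k) % 2 = 0 := by
            obtain ⟨k', rfl⟩ : ∃ k', k = k' + 1 := ⟨k - 1, by omega⟩
            rw [pow_succ]; exact Nat.mul_mod_left _ _
          omega
        have hg6 : g ≤ 6 := Nat.le_of_dvd (by norm_num) hg2
        have hgodd : g % 2 = 1 := by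
          by_contra hne
          have h2g : 2 ∣ g := by omega
          have h2Q : 2 ∣ Q' := by rw [hn]; exact Dvd.dvd.mul_right h2g n
          omega
        have hg3 : g ≤ 3 := by
          by_contra hne
          have h5 : g = 5 := by omega
          rw [h5] at hg2
          norm_num at hg2
        omega
      · have h1 : g ≤ 2 * (q + 1) := Nat.le_of_dvd (by omega) hg2
        nlinarith
    have hnx : x ≤ n := by
      by_contra hne
      have h1 : n + 1 ≤ x := by omega
      have h2 : (g + 1) * (n + 1) ≤ x * x := Nat.mul_le_mul hgx h1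
      nlinarith
    nlinarith
  · have h1 : q + 1 ∣ q ^ k + 1 := by
      simpa using Odd.nat_add_dvd_pow_add_pow q 1 hko
    have h2 : Nat.gcd Q' (q + 1) ∣ Q' + 2 := by
      have h : Nat.gcd Q' (q + 1) ∣ q ^ k + 1 := (Nat.gcd_dvd_right _ _).trans h1
      rwa [hQ'] at h
    have h3 : Nat.gcd Q' (q + 1) ∣ 2 := (Nat.dvd_add_right (Nat.gcd_dvd_left _ _)).mp h2
    have h4 : g ∣ 4 := hgle.trans (Nat.mul_dvd_mul (Nat.gcd_dvd_right _ _) h3)
    have hg4 : g ≤ 4 := Nat.le_of_dvd (by norm_num) h4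
    by_cases h8 : Q' = 7
    · have h5 : g ∣ 7 := by rw [← h8, hn]; exact Dvd.intro n rfl
      have h6 : g ∣ Nat.gcd 7 4 := Nat.dvd_gcd h5 h4
      have h7 : g = 1 := by
        have : Nat.gcd 7 4 = 1 := by norm_num
        rw [this] at h6
        exact Nat.dvd_one.mp h6
      rw [h7, one_mul] at hn
      rw [← hn, h8]
      norm_num
    · have hQ9 : 9 ≤ Q' := by
        rcases Nat.lt_or_ge q 3 with hq3 | hq3
        · have hq2 : q = 2 := by omega
          subst hq2
          have hk4 : 4 ≤ k := by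
            by_contra hne
            have hk3 : k = 3 := by omega
            rw [hk3] at hQ'
            norm_num at hQ'
            omega
          have : 2 ^ 4 ≤ 2 ^ k := Nat.pow_le_pow_right (by norm_num) hk4
          omega
        · have h27 : 3 ^ 3 ≤ q ^ k := calc 3 ^ 3 ≤ q ^ 3 := Nat.pow_le_pow_left hq3 3
            _ ≤ q ^ k := Nat.pow_le_pow_right (by omega) hk
          omega
      have hn3 : 3 ≤ n := by
        by_contra hne
        have hn2 : n ≤ 2 := by omega
        have : g * n ≤ 4 * 2 := Nat.mul_le_mul hg4 hn2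
        omega
      have h4n : Q' ≤ 4 * n := by rw [hn]; exact Nat.mul_le_mul_right n hg4
      nlinarith

theorem field_M_aux {F : Type*} [Field F] [Fintype F] (k : ℕ) (hk : 3 ≤ k)
    {E : Type*} [Field E] [Algebra F E] [Finite E] (hfin : Module.finrank F E = k) :
    ∃ B B' G G' : Matrix (Fin k) (Fin k) F, B * B' = 1 ∧ B' * B = 1 ∧ G * G' = 1 ∧ G' * G = 1 ∧
      G * B = Bᵀ * G ∧ ((2 : F) ≠ 0 → ¬ IsSquare B.det) ∧
      B ^ (Fintype.card F ^ k - 1) = 1 ∧
      B ∈ AddSubgroup.closure (Set.range fun i : ℕ => (B ^ (2 * (Fintype.card F + 1))) ^ i) ∧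
      (∀ v : Fin k → F, (B ^ (2 * (Fintype.card F + 1))) *ᵥ v = v → v = 0) ∧
      (∀ w₀ w : Fin k → F, w₀ ≠ 0 → w ≠ 0 → ∃ i : ℕ, w = (B ^ i) *ᵥ w₀) := by
  classical
  let _ : Fintype E := Fintype.ofFinite E
  have : Module.Finite F E := Module.Finite.of_finite
  have hcard : Fintype.card E = Fintype.card F ^ k := by
    rw [Module.card_eq_pow_finrank (K := F), hfin]
  have hq2 : 2 ≤ Fintype.card F := Fintype.one_lt_card
  have hE8 : 8 ≤ Fintype.card F ^ k := calc 8 = 2 ^ 3 := by norm_num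
    _ ≤ Fintype.card F ^ 3 := Nat.pow_le_pow_left hq2 3
    _ ≤ Fintype.card F ^ k := Nat.pow_le_pow_right (by omega) hk
  obtain ⟨b⟩ : Nonempty (Module.Basis (Fin k) F E) := ⟨Module.finBasisOfFinrankEq F E hfin⟩
  obtain ⟨ζ, hζ⟩ := IsCyclic.exists_generator (α := Eˣ)
  have hord : orderOf ζ = Fintype.card E - 1 := by
    rw [orderOf_eq_card_of_forall_mem_zpowers hζ, Nat.card_units, Nat.card_eq_fintype_card]
  have hGdet : (Algebra.traceMatrix F b).det ≠ 0 := by
    rw [Algebra.traceMatrix_of_basis]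
    exact det_traceForm_ne_zero b
  have hGunit : IsUnit (Algebra.traceMatrix F b).det := isUnit_iff_ne_zero.mpr hGdet
  have hAA' : Algebra.leftMulMatrix b (ζ : E) * Algebra.leftMulMatrix b ((ζ⁻¹ : Eˣ) : E) = 1 := by
    rw [← map_mul, Units.mul_inv, map_one]
  have hA'A : Algebra.leftMulMatrix b ((ζ⁻¹ : Eˣ) : E) * Algebra.leftMulMatrix b (ζ : E) = 1 := by
    rw [← map_mul, Units.inv_mul, map_one]
  have hBpow : ∀ i : ℕ, (Algebra.leftMulMatrix b (ζ : E)) ^ i =
      Algebra.leftMulMatrix b ((ζ : E) ^ i) := fun i => (map_pow _ _ _).symm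
  have hmv : ∀ (x : E) (v : Fin k → F),
      Algebra.leftMulMatrix b x *ᵥ v = b.equivFun (x * b.equivFun.symm v) := by
    intro x v
    have h1 : b.equivFun (x * b.equivFun.symm v) =
        Algebra.leftMulMatrix b x *ᵥ (b.equivFun (b.equivFun.symm v)) :=
      (Algebra.leftMulMatrix_mulVec_repr b x _).symm
    rw [h1, LinearEquiv.apply_symm_apply]
  have hζpow : ∀ m : ℕ, (ζ : E) ^ m = 1 → Fintype.card E - 1 ∣ m := by
    intro m h
    have h3 : ζ ^ m = 1 := Units.ext (by rw [Units.val_pow_eq_pow_val, h]; rfl)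
    have h4 := orderOf_dvd_of_pow_eq_one h3
    rwa [hord] at h4
  have hζm : (ζ : E) ^ (2 * (Fintype.card F + 1)) ≠ 1 := by
    intro h
    have h4 := Nat.le_of_dvd (by omega) (hζpow _ h)
    rw [hcard] at h4
    have h5 : Fintype.card F ^ 3 ≤ Fintype.card F ^ k := Nat.pow_le_pow_right (by omega) hk
    have h6 : 4 * Fintype.card F ≤ Fintype.card F ^ 3 := by
      have : Fintype.card F ^ 3 = Fintype.card F * Fintype.card F * Fintype.card F := by ring
      rw [this]
      nlinarith
    omega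
  refine ⟨Algebra.leftMulMatrix b (ζ : E), Algebra.leftMulMatrix b ((ζ⁻¹ : Eˣ) : E),
    Algebra.traceMatrix F b, (Algebra.traceMatrix F b)⁻¹, hAA', hA'A,
    Matrix.mul_nonsing_inv _ hGunit, Matrix.nonsing_inv_mul _ hGunit,
    Cfsg.Agent.H89.O.traceMatrix_mul_leftMul b _, ?_, ?_, ?_, ?_, ?_⟩
  · intro h2
    have hch : ringChar F ≠ 2 := by
      intro h
      have : CharP F 2 := ringChar.of_eq h
      exact h2 (CharTwo.two_eq_zero)
    have hodd : Odd (Fintype.card F) := Nat.odd_iff.mpr (FiniteField.odd_card_of_char_ne_two hch)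
    rintro ⟨s, hs⟩
    have hnorm : Algebra.norm F (ζ : E) = s * s := by rw [Algebra.norm_eq_matrix_det b, hs]
    have hs0 : s ≠ 0 := by
      rintro rfl
      rw [mul_zero] at hnorm
      exact (Units.ne_zero ζ) (Algebra.norm_eq_zero_iff.mp hnorm)
    have h1 := FiniteField.algebraMap_norm_eq_pow (K := F) (K' := E) (x := (ζ : E))
    rw [hnorm, Nat.card_eq_fintype_card, Nat.card_eq_fintype_card] at h1
    have hs1 : s ^ (Fintype.card F - 1) = 1 := FiniteField.pow_card_sub_one_eq_one s hs0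
    obtain ⟨t, ht⟩ := hodd
    have hdvd : Fintype.card F - 1 ∣ Fintype.card E - 1 := by
      rw [hcard]
      simpa only [one_pow] using Nat.sub_dvd_pow_sub_pow (Fintype.card F) 1 k
    obtain ⟨M, hM⟩ : ∃ M, M = (Fintype.card E - 1) / (Fintype.card F - 1) := ⟨_, rfl⟩
    rw [← hM] at h1
    have hMq : M * (Fintype.card F - 1) = Fintype.card E - 1 := by
      rw [hM]; exact Nat.div_mul_cancel hdvd
    have hq : Fintype.card F - 1 = 2 * t := by omega
    have h2' : (ζ : E) ^ (M * t) = 1 := by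
      rw [pow_mul, ← h1, ← map_pow, ← pow_two, ← pow_mul, ← hq, hs1, map_one]
    have h4 := hζpow _ h2'
    obtain ⟨N, hN⟩ : ∃ N, N = M * t := ⟨_, rfl⟩
    rw [← hN] at h4
    have h5 : N * 2 = Fintype.card E - 1 := by
      rw [← hMq, hq, hN]; ring
    have h6 := Nat.le_of_dvd (by rw [hcard] at h5; omega) h4
    rw [hcard] at h5 h6
    omega
  · rw [hBpow, ← hcard]
    have h1 : (ζ : E) ^ (Fintype.card E - 1) = 1 := by
      rw [← hord, ← Units.val_pow_eq_pow_val, pow_orderOf_eq_one]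
      rfl
    rw [h1, map_one]
  · have hgen : AddSubmonoid.closure
        (Set.range (fun i : ℕ => ((ζ : E) ^ (2 * (Fintype.card F + 1))) ^ i)) = ⊤ := by
      apply Cfsg.Agent.Lib.Helper30.Psu.add_closure_pow_top_of_lt _
        (pow_ne_zero _ (Units.ne_zero ζ))
      have ho : orderOf ((ζ : E) ^ (2 * (Fintype.card F + 1))) =
          orderOf (ζ ^ (2 * (Fintype.card F + 1))) := by
        rw [← Units.val_pow_eq_pow_val, orderOf_units]
      rw [ho, orderOf_pow' ζ (by omega), hord, hcard]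
      exact mfield_arith (Fintype.card F) k hq2 hk
    have hcl : ∀ y ∈ AddSubmonoid.closure
        (Set.range (fun i : ℕ => ((ζ : E) ^ (2 * (Fintype.card F + 1))) ^ i)),
        Algebra.leftMulMatrix b y ∈ AddSubgroup.closure (Set.range fun i : ℕ =>
          ((Algebra.leftMulMatrix b (ζ : E)) ^ (2 * (Fintype.card F + 1))) ^ i) := by
      intro y hy
      induction hy using AddSubmonoid.closure_induction with
      | mem z hz =>
        obtain ⟨i, rfl⟩ := hz
        apply AddSubgroup.subset_closure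
        refine ⟨i, ?_⟩
        show ((Algebra.leftMulMatrix b (ζ : E)) ^ (2 * (Fintype.card F + 1))) ^ i = _
        rw [map_pow, map_pow]
      | zero => rw [map_zero]; exact AddSubgroup.zero_mem _
      | add a b' _ _ ha hb => rw [map_add]; exact AddSubgroup.add_mem _ ha hb
    apply hcl
    rw [hgen]
    trivial
  · intro v hv
    rw [hBpow, hmv] at hv
    have h1 : (ζ : E) ^ (2 * (Fintype.card F + 1)) * b.equivFun.symm v = b.equivFun.symm v := by
      have h0 := congrArg b.equivFun.symm hv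
      rwa [LinearEquiv.symm_apply_apply] at h0
    have h2 : ((ζ : E) ^ (2 * (Fintype.card F + 1)) - 1) * b.equivFun.symm v = 0 := by
      rw [sub_mul, h1, one_mul, sub_self]
    have h3 : b.equivFun.symm v = 0 := by
      rcases mul_eq_zero.mp h2 with h | h
      · exact absurd (sub_eq_zero.mp h) hζm
      · exact h
    have h4 := congrArg b.equivFun h3
    rwa [LinearEquiv.apply_symm_apply, map_zero] at h4
  · intro w₀ w hw₀ hw
    have hy₀ : b.equivFun.symm w₀ ≠ 0 := by
      intro h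
      apply hw₀
      have h4 := congrArg b.equivFun h
      rwa [LinearEquiv.apply_symm_apply, map_zero] at h4
    have hy : b.equivFun.symm w ≠ 0 := by
      intro h
      apply hw
      have h4 := congrArg b.equivFun h
      rwa [LinearEquiv.apply_symm_apply, map_zero] at h4
    have hu := hζ (Units.mk0 (b.equivFun.symm w / b.equivFun.symm w₀) (div_ne_zero hy hy₀))
    rw [← mem_powers_iff_mem_zpowers] at hu
    obtain ⟨i, hi⟩ := hu
    refine ⟨i, ?_⟩
    rw [hBpow, hmv]
    have h1 : (ζ : E) ^ i = b.equivFun.symm w / b.equivFun.symm w₀ := by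
      have := congrArg Units.val hi
      rw [Units.val_pow_eq_pow_val] at this
      exact this
    rw [h1, div_mul_cancel₀ _ hy₀, LinearEquiv.apply_symm_apply]

/-- **S2415 M-FIELD** -/
theorem field_M {F : Type*} [Field F] [Fintype F] (k : ℕ) (hk : 3 ≤ k) :
    ∃ B B' G G' : Matrix (Fin k) (Fin k) F, B * B' = 1 ∧ B' * B = 1 ∧ G * G' = 1 ∧ G' * G = 1 ∧
      G * B = Bᵀ * G ∧ ((2 : F) ≠ 0 → ¬ IsSquare B.det) ∧
      B ^ (Fintype.card F ^ k - 1) = 1 ∧
      B ∈ AddSubgroup.closure (Set.range fun i : ℕ => (B ^ (2 * (Fintype.card F + 1))) ^ i) ∧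
      (∀ v : Fin k → F, (B ^ (2 * (Fintype.card F + 1))) *ᵥ v = v → v = 0) ∧
      (∀ w₀ w : Fin k → F, w₀ ≠ 0 → w ≠ 0 → ∃ i : ℕ, w = (B ^ i) *ᵥ w₀) := by
  obtain ⟨p, hp⟩ := CharP.exists F
  have : CharP F p := hp
  have : Fact p.Prime := ⟨CharP.char_is_prime F p⟩
  have : NeZero k := ⟨by omega⟩
  exact field_M_aux k hk (E := FiniteField.Extension F p k)
    (FiniteField.finrank_extension F p k)

end Cfsg.Agent.Lib.Helper96.M
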