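import Mathlib
import Cfsg.Agent.H17.MnDefs
import Cfsg.Agent.H77.MnBas1
import Cfsg.Agent.H77.MnBas2
import Cfsg.Agent.H27.MnNM

set_option autoImplicit false

/-! Pieces S5634-GLA and S5634-GLB (helper96): a group containing the full monomial group in
which every element with a coordinate row or column is monomial, is monomial. -/

namespace Cfsg.Agent.Lib.Helper96.Mn

open Cfsg Cfsg.Geo Cfsg.Agent.H17.Mn
open scoped MatrixGroups Matrix

variable {ι : Type} [Fintype ι] [DecidableEq ι] {F : Type*} [Field F]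

/-- Conjugating the homology `d_k(a)`. -/
theorem conj_dk (G Γ : Matrix ι ι F) (hGΓ : G * Γ = 1) (k : ι) (a : F) (i l : ι) :
    (G * Matrix.diagonal (fun m => if m = k then a else 1) * Γ) i l =
      (1 : Matrix ι ι F) i l + (a - 1) * G i k * Γ k l := by
  rw [Matrix.mul_apply]
  simp_rw [Matrix.mul_diagonal]
  have h : ∀ m, G i m * (if m = k then a else 1) * Γ m l =
      G i m * Γ m l + (if m = k then (a - 1) * G i k * Γ k l else 0) := by
    intro m
    split_ifs with hm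
    · subst hm; ring
    · ring
  rw [Finset.sum_congr rfl (fun m _ => h m), Finset.sum_add_distrib, ← Matrix.mul_apply, hGΓ]
  simp

/-- `nm_bound` for a homology: the row `k` of `γ` has at most two non-zero entries. -/
theorem card_supp_le (G Γ : Matrix ι ι F) (hGΓ : G * Γ = 1) (k : ι) (a : F) (ha1 : a ≠ 1)
    (π : Equiv.Perm ι)
    (hπ : ∀ i l, i ≠ π l →
      (G * Matrix.diagonal (fun m => if m = k then a else 1) * Γ) i l = 0) :
    Nat.card {l : ι // Γ k l ≠ 0} ≤ 2 := by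
  have h := Cfsg.Agent.H27.Mn.nm_bound G Γ hGΓ (fun m => if m = k then a else 1) π hπ
  have e1 : Nat.card {k' : ι // (fun m => if m = k then a else (1 : F)) k' ≠ 1} = 1 := by
    have hiff : ∀ k', ((fun m => if m = k then a else (1 : F)) k' ≠ 1) ↔ k' = k := by
      intro k'
      show (if k' = k then a else (1 : F)) ≠ 1 ↔ k' = k
      split_ifs with h <;> simp [h, ha1]
    rw [Nat.card_congr (Equiv.subtypeEquivRight hiff)]
    simp
  have e2 : Nat.card {l : ι // ∃ k', (fun m => if m = k then a else (1 : F)) k' ≠ 1 ∧ Γ k' l ≠ 0} =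
      Nat.card {l : ι // Γ k l ≠ 0} := by
    apply Nat.card_congr
    apply Equiv.subtypeEquivRight
    intro l
    constructor
    · rintro ⟨k', hk', hγ⟩
      have hkk : k' = k := by
        by_contra hne
        exact hk' (if_neg hne)
      rw [← hkk]
      exact hγ
    · intro hγ
      refine ⟨k, ?_, hγ⟩
      show (if k = k then a else (1 : F)) ≠ 1
      rw [if_pos rfl]
      exact ha1
  rw [e1, e2] at h
  simpa using h

/-- **S5634-GLA** -/
theorem gl_no_zero [Fintype F] (hι : 2 ≤ Fintype.card ι) (hq : 4 ≤ Fintype.card F) (M : Subgroup (GL ι F)) (hM : mono ι F ≤ M) (hstarc : ∀ m ∈ M, (∃ i j, ∀ i', i' ≠ i → (m : Matrix ι ι F) i' j = 0) → m ∈ mono ι F) (hstarr : ∀ m ∈ M, (∃ i j, ∀ j', j' ≠ j → (m : Matrix ι ι F) i j' = 0) → m ∈ mono ι F) (γ : GL ι F) (hγM : γ ∈ M) (hγ : γ ∉ mono ι F) (i j : ι) : (γ : Matrix ι ι F) i j ≠ 0 := by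
  classical
  intro h0
  have hgM : γ⁻¹ ∈ M := M.inv_mem hγM
  have hg : γ⁻¹ ∉ mono ι F := fun h => hγ (by simpa using (mono ι F).inv_mem h)
  obtain ⟨G, hG⟩ : ∃ G : Matrix ι ι F, G = ((γ⁻¹ : GL ι F) : Matrix ι ι F) := ⟨_, rfl⟩
  obtain ⟨Γ, hΓ⟩ : ∃ Γ : Matrix ι ι F, Γ = (γ : Matrix ι ι F) := ⟨_, rfl⟩
  have hGΓ : G * Γ = 1 := by rw [hG, hΓ, ← Units.val_mul, inv_mul_cancel, Units.val_one]
  have hΓG : Γ * G = 1 := by rw [hG, hΓ, ← Units.val_mul, mul_inv_cancel, Units.val_one]
  rw [← hΓ] at h0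
  -- the scalar `a`
  obtain ⟨a, ha0, ha1, ham⟩ : ∃ a : F, a ≠ 0 ∧ a ≠ 1 ∧ a ≠ -1 := by
    have hcard : ({0, 1, -1} : Finset F).card < (Finset.univ : Finset F).card := by
      rw [Finset.card_univ]
      exact lt_of_le_of_lt Finset.card_le_three (by omega)
    obtain ⟨a, -, ha⟩ := Finset.exists_mem_notMem_of_card_lt_card hcard
    simp only [Finset.mem_insert, Finset.mem_singleton, not_or] at ha
    exact ⟨a, ha.1, ha.2.1, ha.2.2⟩
  obtain ⟨dk, hdk, hdkm, -⟩ := Cfsg.Agent.H77.Mn.exists_diag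
    (fun m => if m = i then a else (1 : F)) (by
      intro m
      show (if m = i then a else (1 : F)) ≠ 0
      split_ifs
      · exact ha0
      · exact one_ne_zero)
  have hxM : γ⁻¹ * dk * γ ∈ M := M.mul_mem (M.mul_mem hgM (hM hdkm)) hγM
  have hxv : ((γ⁻¹ * dk * γ : GL ι F) : Matrix ι ι F) =
      G * Matrix.diagonal (fun m => if m = i then a else 1) * Γ := by
    rw [Units.val_mul, Units.val_mul, hdk, hG, hΓ]
  have hX : ∀ p l, ((γ⁻¹ * dk * γ : GL ι F) : Matrix ι ι F) p l =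
      (1 : Matrix ι ι F) p l + (a - 1) * G p i * Γ i l := by
    intro p l
    rw [hxv, conj_dk G Γ hGΓ]
  -- `x` fixes `e_j`
  have hxmono : γ⁻¹ * dk * γ ∈ mono ι F := by
    apply hstarc _ hxM
    refine ⟨j, j, fun i' hi' => ?_⟩
    rw [hX, h0, Matrix.one_apply_ne hi']
    ring
  obtain ⟨π, hπ⟩ := Cfsg.Agent.H77.Mn.exists_perm_of_mem_mono _ hxmono
  have hπ0 : ∀ p l, p ≠ π l →
      (G * Matrix.diagonal (fun m => if m = i then a else 1) * Γ) p l = 0 := by
    intro p l hpl
    rw [← hxv]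
    by_contra hne
    exact hpl ((hπ p l).mp hne)
  have hL2 := card_supp_le G Γ hGΓ i a ha1 π hπ0
  -- the row `i` of `γ` is not a coordinate row
  have hrow : ∀ j0, ∃ j', j' ≠ j0 ∧ Γ i j' ≠ 0 := by
    intro j0
    by_contra hcon
    push Not at hcon
    exact hγ (hstarr γ hγM ⟨i, j0, fun j' hj' => by rw [← hΓ]; exact hcon j' hj'⟩)
  obtain ⟨r, -, hr⟩ := hrow j
  obtain ⟨s, hsr, hs⟩ := hrow r
  have hsupp : ∀ l, Γ i l ≠ 0 → l = r ∨ l = s := by
    intro l hl
    by_contra hcon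
    push Not at hcon
    have h3 : ({r, s, l} : Finset ι) ⊆ Finset.univ.filter (fun l => Γ i l ≠ 0) := by
      intro x hx
      simp only [Finset.mem_insert, Finset.mem_singleton] at hx
      rcases hx with rfl | rfl | rfl
      · exact Finset.mem_filter.mpr ⟨Finset.mem_univ _, hr⟩
      · exact Finset.mem_filter.mpr ⟨Finset.mem_univ _, hs⟩
      · exact Finset.mem_filter.mpr ⟨Finset.mem_univ _, hl⟩
    have h4 : ({r, s, l} : Finset ι).card = 3 := by
      rw [Finset.card_insert_of_notMem, Finset.card_insert_of_notMem, Finset.card_singleton]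
      · simp only [Finset.mem_singleton]
        exact fun h => hcon.2 h.symm
      · simp only [Finset.mem_insert, Finset.mem_singleton, not_or]
        exact ⟨hsr.symm, fun h => hcon.1 h.symm⟩
    have h5 := Finset.card_le_card h3
    rw [Nat.card_eq_fintype_card, Fintype.card_subtype] at hL2
    omega
  -- `π` moves the support
  have hfix : ∀ l, Γ i l ≠ 0 → π l ≠ l := by
    intro l hl hπl
    apply hg
    apply hstarc _ hgM
    refine ⟨l, i, fun i' hi' => ?_⟩
    have hz : ((γ⁻¹ * dk * γ : GL ι F) : Matrix ι ι F) i' l = 0 := by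
      by_contra hne
      exact hi' (by rw [(hπ i' l).mp hne, hπl])
    rw [hX, Matrix.one_apply_ne hi', zero_add] at hz
    rcases mul_eq_zero.mp hz with h | h
    · rcases mul_eq_zero.mp h with h | h
      · exact absurd (sub_eq_zero.mp h) ha1
      · rw [← hG]; exact h
    · exact absurd h hl
  have hdiag : ∀ l, Γ i l ≠ 0 → 1 + (a - 1) * G l i * Γ i l = 0 := by
    intro l hl
    have hz : ((γ⁻¹ * dk * γ : GL ι F) : Matrix ι ι F) l l = 0 := by
      by_contra hne
      exact hfix l hl ((hπ l l).mp hne).symm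
    rw [hX, Matrix.one_apply_eq] at hz
    exact hz
  have hsum : Γ i r * G r i + Γ i s * G s i = 1 := by
    have h1 := congrFun (congrFun hΓG i) i
    rw [Matrix.mul_apply, Matrix.one_apply_eq] at h1
    rw [← h1]
    symm
    apply Finset.sum_eq_add r s hsr.symm
    · intro c _ hc
      by_contra hne
      rcases hsupp c (left_ne_zero_of_mul hne) with h | h
      · exact hc.1 h
      · exact hc.2 h
    · intro h; exact absurd (Finset.mem_univ r) h
    · intro h; exact absurd (Finset.mem_univ s) h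
  have h1 := hdiag r hr
  have h2 := hdiag s hs
  apply ham
  linear_combination h1 + h2 - (a - 1) * hsum

/-- (♠): in a group all of whose non-monomial elements have no zero entry, every non-monomial
element satisfies `g j k * g⁻¹ k j = 1`. -/
theorem gl_spade (hι : 3 ≤ Fintype.card ι) (M : Subgroup (GL ι F))
    (hM : mono ι F ≤ M)
    (hnz : ∀ γ ∈ M, γ ∉ mono ι F → ∀ i j, (γ : Matrix ι ι F) i j ≠ 0)
    (g : GL ι F) (hgM : g ∈ M) (hg : g ∉ mono ι F) (j k : ι) :
    (g : Matrix ι ι F) j k * ((g⁻¹ : GL ι F) : Matrix ι ι F) k j = 1 := by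
  classical
  by_contra hne
  have hγM : g⁻¹ ∈ M := M.inv_mem hgM
  have hγ : g⁻¹ ∉ mono ι F := fun h => hg (by simpa using (mono ι F).inv_mem h)
  obtain ⟨G, hG⟩ : ∃ G : Matrix ι ι F, G = (g : Matrix ι ι F) := ⟨_, rfl⟩
  obtain ⟨Γ, hΓ⟩ : ∃ Γ : Matrix ι ι F, Γ = ((g⁻¹ : GL ι F) : Matrix ι ι F) := ⟨_, rfl⟩
  have hGΓ : G * Γ = 1 := by rw [hG, hΓ, ← Units.val_mul, mul_inv_cancel, Units.val_one]
  have hG0 : ∀ i l, G i l ≠ 0 := by rw [hG]; exact hnz g hgM hg
  have hΓ0 : ∀ i l, Γ i l ≠ 0 := by rw [hΓ]; exact hnz g⁻¹ hγM hγ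
  rw [← hG, ← hΓ] at hne
  obtain ⟨p, hp⟩ : ∃ p : F, p = G j k * Γ k j := ⟨_, rfl⟩
  rw [← hp] at hne
  have hp0 : p ≠ 0 := by rw [hp]; exact mul_ne_zero (hG0 j k) (hΓ0 k j)
  obtain ⟨a, ha⟩ : ∃ a : F, a = 1 - p⁻¹ := ⟨_, rfl⟩
  have ha0 : a ≠ 0 := by
    intro h
    rw [ha, sub_eq_zero] at h
    apply hne
    have := inv_eq_one.mp h.symm
    exact this
  have ha1 : a ≠ 1 := by
    intro h
    rw [ha] at h
    have : p⁻¹ = 0 := by linear_combination -h
    exact inv_ne_zero hp0 this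
  obtain ⟨dk, hdk, hdkm, -⟩ := Cfsg.Agent.H77.Mn.exists_diag
    (fun m => if m = k then a else (1 : F)) (by
      intro m
      show (if m = k then a else (1 : F)) ≠ 0
      split_ifs
      · exact ha0
      · exact one_ne_zero)
  have hxM : g * dk * g⁻¹ ∈ M := M.mul_mem (M.mul_mem hgM (hM hdkm)) hγM
  have hxv : ((g * dk * g⁻¹ : GL ι F) : Matrix ι ι F) =
      G * Matrix.diagonal (fun m => if m = k then a else 1) * Γ := by
    rw [Units.val_mul, Units.val_mul, hdk, hG, hΓ]
  have hX : ∀ r l, ((g * dk * g⁻¹ : GL ι F) : Matrix ι ι F) r l =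
      (1 : Matrix ι ι F) r l + (a - 1) * G r k * Γ k l := by
    intro r l
    rw [hxv, conj_dk G Γ hGΓ]
  have hxjj : ((g * dk * g⁻¹ : GL ι F) : Matrix ι ι F) j j = 0 := by
    rw [hX, Matrix.one_apply_eq, ha]
    have h1 : p⁻¹ * p = 1 := inv_mul_cancel₀ hp0
    linear_combination (-1 : F) * h1 + p⁻¹ * hp
  have hxmono : g * dk * g⁻¹ ∈ mono ι F := by
    by_contra h
    exact hnz _ hxM h j j hxjj
  obtain ⟨π, hπ⟩ := Cfsg.Agent.H77.Mn.exists_perm_of_mem_mono _ hxmono
  have hπ0 : ∀ r l, r ≠ π l →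
      (G * Matrix.diagonal (fun m => if m = k then a else 1) * Γ) r l = 0 := by
    intro r l hrl
    rw [← hxv]
    by_contra hne'
    exact hrl ((hπ r l).mp hne')
  have hL2 := card_supp_le G Γ hGΓ k a ha1 π hπ0
  have hall : Nat.card {l : ι // Γ k l ≠ 0} = Fintype.card ι := by
    rw [Nat.card_eq_fintype_card]
    exact Fintype.card_congr (Equiv.subtypeUnivEquiv (fun l => hΓ0 k l))
  omega

/-- **S5634-GLB** -/
theorem gl_fin [Fintype F] (hι : 3 ≤ Fintype.card ι) (hq : 5 ≤ Fintype.card F) (M : Subgroup (GL ι F)) (hM : mono ι F ≤ M) (hnz : ∀ γ ∈ M, γ ∉ mono ι F → ∀ i j, (γ : Matrix ι ι F) i j ≠ 0) : M ≤ mono ι F := by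
  classical
  intro g hgM
  by_contra hg
  have hγM : g⁻¹ ∈ M := M.inv_mem hgM
  have hγ : g⁻¹ ∉ mono ι F := fun h => hg (by simpa using (mono ι F).inv_mem h)
  obtain ⟨G, hG⟩ : ∃ G : Matrix ι ι F, G = (g : Matrix ι ι F) := ⟨_, rfl⟩
  obtain ⟨Γ, hΓ⟩ : ∃ Γ : Matrix ι ι F, Γ = ((g⁻¹ : GL ι F) : Matrix ι ι F) := ⟨_, rfl⟩
  have hGΓ : G * Γ = 1 := by rw [hG, hΓ, ← Units.val_mul, mul_inv_cancel, Units.val_one]
  have hΓG : Γ * G = 1 := by rw [hG, hΓ, ← Units.val_mul, inv_mul_cancel, Units.val_one]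
  have hG0 : ∀ i l, G i l ≠ 0 := by rw [hG]; exact hnz g hgM hg
  have hΓ0 : ∀ i l, Γ i l ≠ 0 := by rw [hΓ]; exact hnz g⁻¹ hγM hγ
  have hsp : ∀ j k, G j k * Γ k j = 1 := by
    intro j k
    rw [hG, hΓ]
    exact gl_spade hι M hM hnz g hgM hg j k
  obtain ⟨l1, l2, l3, h12, h13, h23⟩ : ∃ l1 l2 l3 : ι, l1 ≠ l2 ∧ l1 ≠ l3 ∧ l2 ≠ l3 :=
    Fintype.two_lt_card_iff.mp (by omega)
  -- `n = 1` in `F`
  have hn : (Fintype.card ι : F) = 1 := by
    have h1 := congrFun (congrFun hGΓ l1) l1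
    rw [Matrix.mul_apply, Matrix.one_apply_eq] at h1
    rw [← h1, Finset.sum_congr rfl (fun k _ => hsp l1 k)]
    simp
  -- scalars
  obtain ⟨u, hu0, hu1⟩ : ∃ u : F, u ≠ 0 ∧ u ≠ 1 := by
    have hcard : ({0, 1} : Finset F).card < (Finset.univ : Finset F).card := by
      rw [Finset.card_univ]
      exact lt_of_le_of_lt Finset.card_le_two (by omega)
    obtain ⟨a, -, ha⟩ := Finset.exists_mem_notMem_of_card_lt_card hcard
    simp only [Finset.mem_insert, Finset.mem_singleton, not_or] at ha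
    exact ⟨a, ha.1, ha.2⟩
  obtain ⟨w, hw0, hw1, hwu, hwu'⟩ : ∃ w : F, w ≠ 0 ∧ w ≠ 1 ∧ w ≠ -u ∧ w ≠ 1 - u := by
    have hcard : ({0, 1, -u, 1 - u} : Finset F).card < (Finset.univ : Finset F).card := by
      rw [Finset.card_univ]
      exact lt_of_le_of_lt Finset.card_le_four (by omega)
    obtain ⟨a, -, ha⟩ := Finset.exists_mem_notMem_of_card_lt_card hcard
    simp only [Finset.mem_insert, Finset.mem_singleton, not_or] at ha
    exact ⟨a, ha.1, ha.2.1, ha.2.2.1, ha.2.2.2⟩
  -- the weights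
  obtain ⟨z, hz⟩ : ∃ z : ι → F, z = fun l => if l = l1 then u else if l = l2 then w else 1 :=
    ⟨_, rfl⟩
  have hz1 : z l1 = u := by rw [hz]; simp
  have hz2 : z l2 = w := by rw [hz]; simp [h12.symm]
  have hz3 : z l3 = 1 := by rw [hz]; simp [h13.symm, h23.symm]
  have hz0 : ∀ l, z l ≠ 0 := by
    intro l
    rw [hz]
    show (if l = l1 then u else if l = l2 then w else 1) ≠ 0
    split_ifs
    · exact hu0
    · exact hw0
    · exact one_ne_zero
  have hsumz : ∑ l, z l = u + w - 1 := by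
    have h : ∀ l, z l = 1 + ((if l = l1 then u - 1 else 0) + (if l = l2 then w - 1 else 0)) := by
      intro l
      rw [hz]
      show (if l = l1 then u else if l = l2 then w else 1) = _
      by_cases h1 : l = l1
      · have h2 : l ≠ l2 := by rw [h1]; exact h12
        rw [if_pos h1, if_pos h1, if_neg h2]; ring
      · by_cases h2 : l = l2
        · rw [if_neg h1, if_pos h2, if_neg h1, if_pos h2]; ring
        · rw [if_neg h1, if_neg h2, if_neg h1, if_neg h2]; ring
    rw [Finset.sum_congr rfl (fun l _ => h l), Finset.sum_add_distrib, Finset.sum_add_distrib]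
    simp only [Finset.sum_const, Finset.card_univ, nsmul_eq_mul, mul_one, Finset.sum_ite_eq',
      Finset.mem_univ, if_true]
    rw [hn]; ring
  have hsumzi : ∑ l, (z l)⁻¹ = u⁻¹ + w⁻¹ - 1 := by
    have h : ∀ l, (z l)⁻¹ =
        1 + ((if l = l1 then u⁻¹ - 1 else 0) + (if l = l2 then w⁻¹ - 1 else 0)) := by
      intro l
      rw [hz]
      show (if l = l1 then u else if l = l2 then w else 1)⁻¹ = _
      by_cases h1 : l = l1
      · have h2 : l ≠ l2 := by rw [h1]; exact h12
        rw [if_pos h1, if_pos h1, if_neg h2]; ring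
      · by_cases h2 : l = l2
        · rw [if_neg h1, if_pos h2, if_neg h1, if_pos h2]; ring
        · rw [if_neg h1, if_neg h2, if_neg h1, if_neg h2, inv_one]; ring
    rw [Finset.sum_congr rfl (fun l _ => h l), Finset.sum_add_distrib, Finset.sum_add_distrib]
    simp only [Finset.sum_const, Finset.card_univ, nsmul_eq_mul, mul_one, Finset.sum_ite_eq',
      Finset.mem_univ, if_true]
    rw [hn]; ring
  -- the diagonal element
  obtain ⟨j, hj⟩ : ∃ j : ι, j = l1 := ⟨_, rfl⟩
  obtain ⟨d, hd⟩ : ∃ d : ι → F, d = fun l => z l / (G j l * G l j) := ⟨_, rfl⟩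
  have hd0 : ∀ l, d l ≠ 0 := by
    intro l
    rw [hd]
    exact div_ne_zero (hz0 l) (mul_ne_zero (hG0 j l) (hG0 l j))
  obtain ⟨dd, hdd, hddm, -⟩ := Cfsg.Agent.H77.Mn.exists_diag d hd0
  obtain ⟨dd', hdd', hddm', -⟩ := Cfsg.Agent.H77.Mn.exists_diag (fun l => (d l)⁻¹)
    (fun l => inv_ne_zero (hd0 l))
  have hinv : dd⁻¹ = dd' := by
    apply inv_eq_of_mul_eq_one_right
    apply Units.ext
    rw [Units.val_mul, hdd, hdd', Matrix.diagonal_mul_diagonal, Units.val_one]
    rw [← Matrix.diagonal_one]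
    congr 1
    funext l
    exact mul_inv_cancel₀ (hd0 l)
  have hAM : g * dd * g ∈ M := M.mul_mem (M.mul_mem hgM (hM hddm)) hgM
  have hAv : ((g * dd * g : GL ι F) : Matrix ι ι F) = G * Matrix.diagonal d * G := by
    rw [Units.val_mul, Units.val_mul, hdd, hG]
  have hAiv : (((g * dd * g)⁻¹ : GL ι F) : Matrix ι ι F) =
      Γ * Matrix.diagonal (fun l => (d l)⁻¹) * Γ := by
    rw [mul_inv_rev, mul_inv_rev, hinv, ← mul_assoc, Units.val_mul, Units.val_mul, hdd', hΓ]
  have hAjj : ((g * dd * g : GL ι F) : Matrix ι ι F) j j = u + w - 1 := by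
    rw [hAv, Matrix.mul_apply, ← hsumz]
    apply Finset.sum_congr rfl
    intro l _
    rw [Matrix.mul_diagonal, hd]
    show G j l * (z l / (G j l * G l j)) * G l j = z l
    field_simp [hG0 j l, hG0 l j]
  have hAjj0 : ((g * dd * g : GL ι F) : Matrix ι ι F) j j ≠ 0 := by
    rw [hAjj]
    intro h
    apply hwu'
    linear_combination h
  have hAijj : (((g * dd * g)⁻¹ : GL ι F) : Matrix ι ι F) j j = u⁻¹ + w⁻¹ - 1 := by
    rw [hAiv, Matrix.mul_apply, ← hsumzi]
    apply Finset.sum_congr rfl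
    intro l _
    rw [Matrix.mul_diagonal, hd]
    show Γ j l * (z l / (G j l * G l j))⁻¹ * Γ l j = (z l)⁻¹
    have e1 := hsp j l
    have e2 := hsp l j
    have hzl := hz0 l
    have hg1 := hG0 j l
    have hg2 := hG0 l j
    rw [inv_div]
    field_simp
    linear_combination (G l j * Γ j l) * e1 + e2
  by_cases hA : g * dd * g ∈ mono ι F
  · obtain ⟨π, hπ⟩ := Cfsg.Agent.H77.Mn.exists_perm_of_mem_mono _ hA
    have hjπ : j = π j := (hπ j j).mp hAjj0
    have hrow : ∀ k', k' ≠ j → ((g * dd * g : GL ι F) : Matrix ι ι F) j k' = 0 := by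
      intro k' hk'
      by_contra hne
      have h1 := (hπ j k').mp hne
      exact hk' (π.injective (h1.symm.trans hjπ))
    have hkey : ∀ l, G j l * d l = ((g * dd * g : GL ι F) : Matrix ι ι F) j j * Γ j l := by
      intro l
      have h1 : (((g * dd * g : GL ι F) : Matrix ι ι F) * Γ) j l = G j l * d l := by
        rw [hAv, Matrix.mul_assoc, hGΓ, Matrix.mul_one, Matrix.mul_diagonal]
      rw [← h1, Matrix.mul_apply]
      apply Finset.sum_eq_single j
      · intro b _ hb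
        rw [hrow b hb, zero_mul]
      · intro h; exact absurd (Finset.mem_univ j) h
    have hconst : ∀ l, z l = u + w - 1 := by
      intro l
      have h1 := hkey l
      rw [hAjj, hd] at h1
      have e2 := hsp l j
      have hg1 := hG0 j l
      have hg2 := hG0 l j
      have h2 : G j l * (z l / (G j l * G l j)) = z l / G l j := by
        field_simp
      rw [h2] at h1
      have h3 : z l = (u + w - 1) * (G l j * Γ j l) := by
        field_simp at h1
        linear_combination h1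
      rw [h3, e2, mul_one]
    have e1 := hconst l1
    have e3 := hconst l3
    rw [hz1] at e1
    rw [hz3] at e3
    apply hu1
    linear_combination e1 - e3
  · have h1 := gl_spade hι M hM hnz _ hAM hA j j
    rw [hAjj, hAijj] at h1
    have hu1' : u - 1 ≠ 0 := sub_ne_zero.mpr hu1
    have hw1' : w - 1 ≠ 0 := sub_ne_zero.mpr hw1
    have huw : u + w ≠ 0 := fun h => hwu (by linear_combination h)
    have h2 : (u + w) * (u - 1) * (w - 1) = 0 := by
      have hu2 : u⁻¹ * u = 1 := inv_mul_cancel₀ hu0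
      have hw2 : w⁻¹ * w = 1 := inv_mul_cancel₀ hw0
      linear_combination (-u * w) * h1 + (u + w - 1) * w * hu2 + (u + w - 1) * u * hw2
    exact mul_ne_zero (mul_ne_zero huw hu1') hw1' h2

end Cfsg.Agent.Lib.Helper96.Mn
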