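import Cfsg.Agent.H17.PmLift

set_option autoImplicit false

/-!
Pieces N3EVEN and N3ODD of the team project S2140 (helper17): in dimension 3 the case B1
(`G = Q_c H`, `H` without transvections) is impossible.
-/

namespace Cfsg.Agent.Lib.Helper96.Pm

open Cfsg Cfsg.Geo Cfsg.Agent.H17.Mn Cfsg.Agent.H17.Pm
open scoped MatrixGroups Matrix

variable {ι : Type} [Fintype ι] [DecidableEq ι] {F : Type*} [Field F]

/-- In dimension 3 a non-zero vector is the first vector of a basis. -/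
theorem exists_basis3 (hn : Fintype.card ι = 3) (c : ι → F) (hc : c ≠ 0) :
    ∃ b : Module.Basis (Fin 3) F (ι → F), b 0 = c := by
  have hfr : Module.finrank F (ι → F) = 3 := by
    rw [Module.finrank_fintype_fun_eq_card, hn]
  have h1 : LinearIndependent F (![c] : Fin 1 → (ι → F)) :=
    LinearIndependent.of_subsingleton (i := 0) (by simpa using hc)
  obtain ⟨e, he⟩ := exists_linearIndependent_snoc_of_lt_finrank h1 (by rw [hfr]; norm_num)
  obtain ⟨u, hu⟩ := exists_linearIndependent_snoc_of_lt_finrank he (by rw [hfr]; norm_num)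
  refine ⟨basisOfLinearIndependentOfCardEqFinrank hu (by rw [hfr]; simp), ?_⟩
  rw [coe_basisOfLinearIndependentOfCardEqFinrank]
  rfl

/-- Private copy of the cocycle rule (piece COCY). -/
theorem lift_cocycle' (H : Subgroup (GL ι F)) (c e : ι → F) (hc : c ≠ 0)
    (hNT : ∀ (x : ι → F) (φ : (ι → F) →ₗ[F] F) (hφ : φ x = 0),
      H95.tvGL x φ hφ ∈ H → H95.tvGL x φ hφ = 1)
    (θ θ' : (ι → F) →ₗ[F] F) (hθc : θ c = 0) (hθe : θ e = 0) (hθ'c : θ' c = 0) (hθ'e : θ' e = 0)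
    (hs : (θ + θ') e = 0) (ρ ρ' ρs : (ι → F) →ₗ[F] F)
    (h : IsLift H c (H95.tvGL e θ hθe) ρ) (h' : IsLift H c (H95.tvGL e θ' hθ'e) ρ')
    (hs' : IsLift H c (H95.tvGL e (θ + θ') hs) ρs) : ρs = ρ + ρ' - ρ' e • θ := by
  have hg : ((H95.tvGL e θ hθe : GL ι F) : Matrix ι ι F) *ᵥ c = (1 : F) • c := by
    rw [H95.tvGL_mulVec, hθc, zero_smul, add_zero, one_smul]
  have hm := isLift_mul H c (1 : F) hg h h'
  rw [tvGL_mul_form e θ θ' hθe hθ'e hs, comp_tvGL_inv e θ hθe ρ', one_smul] at hm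
  rw [isLift_unique H c hc hNT hs' hm]
  abel

/-- Private copy of piece NOSM. -/
theorem lift_not_smul' (H : Subgroup (GL ι F)) (c e : ι → F) (hindep : ∀ t : F, t • c + e ≠ 0)
    (hNT : ∀ (x : ι → F) (φ : (ι → F) →ₗ[F] F) (hφ : φ x = 0),
      H95.tvGL x φ hφ ∈ H → H95.tvGL x φ hφ = 1)
    (θ : (ι → F) →ₗ[F] F) (hθ0 : θ ≠ 0) (hθc : θ c = 0) (hθe : θ e = 0) (t : F)
    (h : IsLift H c (H95.tvGL e θ hθe) (t • θ)) : False := by
  obtain ⟨h1, h2⟩ := h
  have e1 : θ (t • c) = 0 := by rw [map_smul, hθc, smul_zero]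
  have e2 : θ (t • c + e) = 0 := by rw [map_add, e1, hθe, add_zero]
  have h3 : H95.tvGL c (t • θ) h1 * H95.tvGL e θ hθe = H95.tvGL (t • c + e) θ e2 := by
    rw [← tvGL_smul t c θ e1 h1, tvGL_mul_centre (t • c) e θ e1 hθe e2]
  rw [h3] at h2
  exact hθ0 ((tvGL_eq_one_iff _ (hindep t) θ e2).mp (hNT _ _ _ h2))

/-- The coordinate data of a basis `c, e, u` of a 3-dimensional space. -/
theorem basis3_data (b : Module.Basis (Fin 3) F (ι → F)) :
    (b.coord 0 (b 0) = 1 ∧ b.coord 0 (b 1) = 0 ∧ b.coord 0 (b 2) = 0) ∧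
    (b.coord 1 (b 0) = 0 ∧ b.coord 1 (b 1) = 1 ∧ b.coord 1 (b 2) = 0) ∧
    (b.coord 2 (b 0) = 0 ∧ b.coord 2 (b 1) = 0 ∧ b.coord 2 (b 2) = 1) := by
  simp [Module.Basis.coord_apply, Module.Basis.repr_self, Finsupp.single_apply]

/-- A form vanishing at `c = b 0` and `e = b 1` is a multiple of the third coordinate. -/
theorem eq_smul_coord (b : Module.Basis (Fin 3) F (ι → F)) (ψ : (ι → F) →ₗ[F] F)
    (h0 : ψ (b 0) = 0) (h1 : ψ (b 1) = 0) : ψ = ψ (b 2) • b.coord 2 := by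
  obtain ⟨-, -, h20, h21, h22⟩ := basis3_data b
  apply b.ext
  intro i
  fin_cases i
  · simp [h0, h20]
  · simp [h1, h21]
  · simp [h22]

theorem indep_of_basis3 (b : Module.Basis (Fin 3) F (ι → F)) (t : F) : t • b 0 + b 1 ≠ 0 := by
  obtain ⟨-, ⟨h10, h11, -⟩, -⟩ := basis3_data b
  intro h
  have := congrArg (b.coord 1) h
  simp [h10, h11] at this

/-- S2140-N3EVEN. -/
theorem b1_three_even (hn : Fintype.card ι = 3) (h2 : (2 : F) = 0) (H : Subgroup (GL ι F))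
    (c : ι → F) (hc : c ≠ 0)
    (hL : ∀ g ∈ specialLinear ι F, ∃ φ, IsLift H c g φ)
    (hNT : ∀ (x : ι → F) (φ : (ι → F) →ₗ[F] F) (hφ : φ x = 0),
      H95.tvGL x φ hφ ∈ H → H95.tvGL x φ hφ = 1) : False := by
  obtain ⟨b, hb0⟩ := exists_basis3 hn c hc
  obtain ⟨-, -, h20, h21, h22⟩ := basis3_data b
  have hθc : b.coord 2 c = 0 := by rw [← hb0]; exact h20
  have hθ0 : b.coord 2 ≠ 0 := by
    intro h; rw [h] at h22; simp at h22
  have he0 : b 1 ≠ 0 := b.ne_zero 1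
  obtain ⟨ρ, hρ⟩ := hL _ (H95.tvGL_mem_specialLinear (b 1) (b.coord 2) h21)
  have hs : (b.coord 2 + b.coord 2) (b 1) = 0 := by simp [h21]
  have hθθ : b.coord 2 + b.coord 2 = 0 := by rw [← two_smul F (b.coord 2), h2, zero_smul]
  have hone : H95.tvGL (b 1) (b.coord 2 + b.coord 2) hs = 1 :=
    (tvGL_eq_one_iff (b 1) he0 _ hs).mpr hθθ
  have hs' : IsLift H c (H95.tvGL (b 1) (b.coord 2 + b.coord 2) hs) 0 := by
    rw [hone]; exact isLift_one H c
  have hco := lift_cocycle' H c (b 1) hc hNT (b.coord 2) (b.coord 2) hθc h21 hθc h21 hs ρ ρ 0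
    hρ hρ hs'
  have hρe : ρ (b 1) = 0 := by
    have h3 := congrArg (fun f : (ι → F) →ₗ[F] F => f (b 2)) hco
    simp only [LinearMap.zero_apply, LinearMap.sub_apply, LinearMap.add_apply,
      LinearMap.smul_apply, h22, smul_eq_mul, mul_one] at h3
    have h4 : ρ (b 2) + ρ (b 2) = 0 := by rw [← two_mul, h2, zero_mul]
    rw [h4, zero_sub] at h3
    exact neg_eq_zero.mp h3.symm
  have hρc : ρ (b 0) = 0 := by rw [hb0]; exact hρ.1
  have hρeq := eq_smul_coord b ρ hρc hρe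
  rw [hρeq] at hρ
  exact lift_not_smul' H c (b 1) (fun t => by rw [← hb0]; exact indep_of_basis3 b t) hNT
    (b.coord 2) hθ0 hθc h21 _ hρ

/-- S2140-N3ODD. -/
theorem b1_three_odd (hn : Fintype.card ι = 3) (h2 : (2 : F) ≠ 0) (H : Subgroup (GL ι F))
    (c : ι → F) (hc : c ≠ 0)
    (hL : ∀ g ∈ specialLinear ι F, ∃ φ, IsLift H c g φ)
    (hNT : ∀ (x : ι → F) (φ : (ι → F) →ₗ[F] F) (hφ : φ x = 0),
      H95.tvGL x φ hφ ∈ H → H95.tvGL x φ hφ = 1) : False := by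
  obtain ⟨b, hb0⟩ := exists_basis3 hn c hc
  obtain ⟨⟨h00, h01, h02⟩, ⟨h10, h11, h12⟩, h20, h21, h22⟩ := basis3_data b
  have hθc : b.coord 2 c = 0 := by rw [← hb0]; exact h20
  have hθ0 : b.coord 2 ≠ 0 := by
    intro h; rw [h] at h22; simp at h22
  have he0 : b 1 ≠ 0 := b.ne_zero 1
  -- the element `D = w²`, `w = τ(c, θ_e) τ(e, -θ_c) τ(c, θ_e)`
  have k1 : (-(b.coord 0)) (b 1) = 0 := by simp [h01]
  set w : GL ι F := H95.tvGL (b 0) (b.coord 1) h10 * H95.tvGL (b 1) (-(b.coord 0)) k1 *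
    H95.tvGL (b 0) (b.coord 1) h10 with hw
  have hwSL : w ∈ specialLinear ι F :=
    (specialLinear ι F).mul_mem ((specialLinear ι F).mul_mem
      (H95.tvGL_mem_specialLinear _ _ _) (H95.tvGL_mem_specialLinear _ _ _))
      (H95.tvGL_mem_specialLinear _ _ _)
  have hwv : ∀ v : ι → F, (w : Matrix ι ι F) *ᵥ v =
      v + (b.coord 1 v - b.coord 0 v) • b 0 + (- (b.coord 0 v) - b.coord 1 v) • b 1 := by
    intro v
    rw [hw, mulVec_mul, mulVec_mul, H95.tvGL_mulVec, H95.tvGL_mulVec, H95.tvGL_mulVec]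
    simp only [map_add, map_smul, LinearMap.neg_apply, h00, h01, h10, h11, smul_eq_mul, mul_one,
      mul_zero, add_zero, zero_smul]
    module
  have hwc : (w : Matrix ι ι F) *ᵥ b 0 = - b 1 := by
    rw [hwv]; simp only [h00, h10]; module
  have hwe : (w : Matrix ι ι F) *ᵥ b 1 = b 0 := by
    rw [hwv]; simp only [h01, h11]; module
  have hwθ : ∀ v : ι → F, b.coord 2 ((w : Matrix ι ι F) *ᵥ v) = b.coord 2 v := by
    intro v
    rw [hwv]
    simp only [map_add, map_smul, h20, h21, smul_eq_mul, mul_zero, add_zero]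
  have hDSL : w * w ∈ specialLinear ι F := (specialLinear ι F).mul_mem hwSL hwSL
  have hDc : ((w * w : GL ι F) : Matrix ι ι F) *ᵥ c = (-1 : F) • c := by
    rw [← hb0, mulVec_mul, hwc, Matrix.mulVec_neg, hwe]; simp
  have hDe : ((w * w : GL ι F) : Matrix ι ι F) *ᵥ b 1 = - b 1 := by
    rw [mulVec_mul, hwe, hwc]
  have hDθ : ∀ v : ι → F, b.coord 2 (((w * w : GL ι F) : Matrix ι ι F) *ᵥ v) = b.coord 2 v := by
    intro v; rw [mulVec_mul, hwθ, hwθ]
  have hDinv : (((w * w)⁻¹ : GL ι F) : Matrix ι ι F) *ᵥ b 1 = - b 1 := by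
    have h3 := inv_mulVec_mulVec (w * w) (b 1)
    rw [hDe, Matrix.mulVec_neg] at h3
    exact neg_eq_iff_eq_neg.mp h3
  -- the relation `τ(e, -θ) D = D τ(e, θ)`
  have k2 : (-(b.coord 2)) (b 1) = 0 := by simp [h21]
  have hrel : H95.tvGL (b 1) (-(b.coord 2)) k2 * (w * w) =
      (w * w) * H95.tvGL (b 1) (b.coord 2) h21 := by
    apply H95.gl_ext
    intro v
    have hl : ((H95.tvGL (b 1) (-(b.coord 2)) k2 * (w * w) : GL ι F) : Matrix ι ι F) *ᵥ v =
        ((w * w : GL ι F) : Matrix ι ι F) *ᵥ v + (-(b.coord 2 v)) • b 1 := by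
      rw [mulVec_mul (H95.tvGL (b 1) (-(b.coord 2)) k2) (w * w) v, H95.tvGL_mulVec,
        LinearMap.neg_apply, hDθ]
    have hr : (((w * w) * H95.tvGL (b 1) (b.coord 2) h21 : GL ι F) : Matrix ι ι F) *ᵥ v =
        ((w * w : GL ι F) : Matrix ι ι F) *ᵥ v + (b.coord 2 v) • (- b 1) := by
      rw [mulVec_mul (w * w) (H95.tvGL (b 1) (b.coord 2) h21) v, H95.tvGL_mulVec,
        Matrix.mulVec_add, Matrix.mulVec_smul, hDe]
    rw [hl, hr]
    module
  -- lifts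
  obtain ⟨ρ, hρ⟩ := hL _ (H95.tvGL_mem_specialLinear (b 1) (b.coord 2) h21)
  obtain ⟨ρ', hρ'⟩ := hL _ (H95.tvGL_mem_specialLinear (b 1) (-(b.coord 2)) k2)
  obtain ⟨κ, hκ⟩ := hL _ hDSL
  have L1 := isLift_mul H c (-1 : F) hDc hκ hρ
  have hg' : ((H95.tvGL (b 1) (-(b.coord 2)) k2 : GL ι F) : Matrix ι ι F) *ᵥ c = (1 : F) • c := by
    rw [H95.tvGL_mulVec, LinearMap.neg_apply, hθc, neg_zero, zero_smul, add_zero, one_smul]
  have L2 := isLift_mul H c (1 : F) hg' hρ' hκ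
  rw [hrel, comp_tvGL_inv (b 1) (-(b.coord 2)) k2 κ] at L2
  have huniq := isLift_unique H c hc hNT L1 L2
  have hρρ' : ρ (b 1) = ρ' (b 1) := by
    have h3 := congrArg (fun f : (ι → F) →ₗ[F] F => f (b 1)) huniq
    simp only [LinearMap.add_apply, LinearMap.smul_apply, LinearMap.comp_apply,
      Matrix.toLin'_apply, hDinv, map_neg, LinearMap.sub_apply, LinearMap.neg_apply, h21,
      smul_eq_mul, mul_neg, mul_zero, neg_zero, sub_zero, one_mul, neg_mul, neg_neg] at h3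
    linear_combination h3
  -- cocycle for (θ, -θ)
  have hs : (b.coord 2 + -(b.coord 2)) (b 1) = 0 := by simp
  have hone : H95.tvGL (b 1) (b.coord 2 + -(b.coord 2)) hs = 1 :=
    (tvGL_eq_one_iff (b 1) he0 _ hs).mpr (by simp)
  have hs' : IsLift H c (H95.tvGL (b 1) (b.coord 2 + -(b.coord 2)) hs) 0 := by
    rw [hone]; exact isLift_one H c
  have hθ'c : (-(b.coord 2)) c = 0 := by simp [hθc]
  have hco := lift_cocycle' H c (b 1) hc hNT (b.coord 2) (-(b.coord 2)) hθc h21 hθ'c k2 hs ρ ρ' 0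
    hρ hρ' hs'
  have hρe : ρ (b 1) = 0 := by
    have h3 := congrArg (fun f : (ι → F) →ₗ[F] F => f (b 1)) hco
    simp only [LinearMap.zero_apply, LinearMap.sub_apply, LinearMap.add_apply,
      LinearMap.smul_apply, h21, smul_eq_mul, mul_zero, sub_zero] at h3
    have h4 : (2 : F) * ρ (b 1) = 0 := by linear_combination -h3 + hρρ'
    rcases mul_eq_zero.mp h4 with h5 | h5
    · exact absurd h5 h2
    · exact h5
  have hρc : ρ (b 0) = 0 := by rw [hb0]; exact hρ.1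
  have hρeq := eq_smul_coord b ρ hρc hρe
  rw [hρeq] at hρ
  exact lift_not_smul' H c (b 1) (fun t => by rw [← hb0]; exact indep_of_basis3 b t) hNT
    (b.coord 2) hθ0 hθc h21 _ hρ

end Cfsg.Agent.Lib.Helper96.Pm
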