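import Mathlib
import Cfsg.Agent.H42.SpnDefs
import Cfsg.Agent.H45.IsoStd

/-!
# SPN-UEX (helper96, for helper42's S5956): symplectic matrices of order `p` with prescribed
Jordan type.
-/

set_option autoImplicit false

namespace Cfsg.Agent.Lib.Helper96.Spn

open Cfsg.Agent.H45 Cfsg.Agent.H42.Spd Cfsg.Agent.H42.Spn Module Matrix

universe u

/-- the kernel of a conjugated endomorphism. -/
theorem ker_conj {F : Type*} [Field F] {V V' : Type*} [AddCommGroup V] [Module F V]
    [AddCommGroup V'] [Module F V'] (e : V ≃ₗ[F] V') (M : Module.End F V) :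
    LinearMap.ker (e.conj M) = (LinearMap.ker M).map e.toLinearMap := by
  ext z
  rw [LinearMap.mem_ker, Submodule.mem_map, LinearEquiv.conj_apply_apply]
  constructor
  · intro hz
    refine ⟨e.symm z, ?_, e.apply_symm_apply z⟩
    rw [LinearMap.mem_ker]
    apply e.injective
    rw [hz, map_zero]
  · rintro ⟨w, hw, rfl⟩
    rw [LinearMap.mem_ker] at hw
    show e (M (e.symm (e w))) = 0
    rw [e.symm_apply_apply, hw, map_zero]

theorem uniEx (hA : StModAll.{u}) (hC : StCay.{u, u}) : StUniEx.{u} := by
  classical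
  intro F _ _ p _ _ hp2 d μ hμ hpar hsum
  have hp : p.Prime := Fact.out
  obtain ⟨V, _, _, _, B, N, halt, hnd, hskew, hfr, hker⟩ :=
    hA F μ (fun a ha => (hμ a ha).1) hpar
  -- `N ^ p = 0`
  have hNp : N ^ p = 0 := by
    have h1 : μ.map (fun s => min p s) = μ := by
      rw [Multiset.map_congr rfl (fun s hs => Nat.min_eq_right (hμ s hs).2)]
      exact Multiset.map_id' μ
    have h2 : Module.finrank F ↥(LinearMap.ker (N ^ p)) = Module.finrank F V := by
      rw [hker p, h1, hfr]
    have h3 : LinearMap.ker (N ^ p) = ⊤ := Submodule.eq_top_of_finrank_eq h2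
    exact LinearMap.ker_eq_top.1 h3
  have h2F : (2 : F) ≠ 0 := by
    intro h
    have h' : ((2 : ℕ) : F) = 0 := by exact_mod_cast h
    rw [CharP.cast_eq_zero_iff F p] at h'
    exact hp2 ((Nat.prime_dvd_prime_iff_eq hp Nat.prime_two).1 h')
  obtain ⟨g, hgiso, hgker, hgnil⟩ := hC F V B N h2F ⟨p, hNp⟩ hskew
  have hg1 : (g - 1) ^ p = 0 := hgnil p hNp
  have hgp : g ^ p = 1 := by
    by_cases hV : Subsingleton V
    · exact LinearMap.ext fun v => Subsingleton.elim _ _
    · rw [not_subsingleton_iff_nontrivial] at hV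
      obtain ⟨v, hv⟩ := exists_ne (0 : V)
      have hinj : Function.Injective (algebraMap F (Module.End F V)) := by
        intro a b hab
        have h0 := congrArg (fun f : Module.End F V => f v) hab
        simp only [Module.algebraMap_end_apply] at h0
        have h1 : (a - b) • v = 0 := by rw [sub_smul, h0, sub_self]
        rcases smul_eq_zero.1 h1 with h | h
        · exact sub_eq_zero.1 h
        · exact absurd h hv
      have : CharP (Module.End F V) p := charP_of_injective_algebraMap hinj p
      have h := sub_pow_char_of_commute (Commute.one_right g) (p := p)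
      rw [hg1, one_pow] at h
      exact sub_eq_zero.1 h.symm
  -- transport to the standard space
  have hskewB : ∀ x y, B y x = - B x y := by
    intro x y
    have h := halt (x + y)
    simp only [map_add, LinearMap.add_apply, halt, zero_add, add_zero] at h
    exact eq_neg_of_add_eq_zero_left h
  have hgood : Good (RingHom.id F) (-1) B (1 : Module.End F V) :=
    ⟨fun x y => by rw [RingHom.id_apply, hskewB x y]; ring, hnd, fun _ => halt,
      fun _ _ => rfl, Module.End.isSemisimple_id⟩
  have hstd : Good (RingHom.id F) (-1) (stdB d F) (1 : Module.End F (Fin d ⊕ Fin d → F)) :=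
    stdB_good d p 1 (fun h => hp.one_lt.ne' (Nat.dvd_one.1 h)) 1 (fun x y => rfl) (one_pow 1)
  have hfr' : Module.finrank F V = Module.finrank F (Fin d ⊕ Fin d → F) := by
    rw [hfr, hsum, Module.finrank_fintype_fun_eq_card, Fintype.card_sum, Fintype.card_fin]
    ring
  obtain ⟨e, _, hiso⟩ := isoConj_of_charpoly_eq (RingHom.id F) (fun a => rfl) (-1) _ B
    (stdB d F) 1 1 rfl hgood hstd
    (by rw [LinearMap.charpoly_one, LinearMap.charpoly_one, hfr'])
  obtain ⟨g', hg'⟩ : ∃ g' : Module.End F (Fin d ⊕ Fin d → F), g' = e.conj g := ⟨_, rfl⟩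
  have hg'iso : ∀ x y, stdB d F (g' x) (g' y) = stdB d F x y := by
    intro x y
    rw [hg', LinearEquiv.conj_apply_apply, LinearEquiv.conj_apply_apply, hiso, hgiso, ← hiso,
      e.apply_symm_apply, e.apply_symm_apply]
  have hg'p : g' ^ p = 1 := by
    have h1 : e.conj (g ^ p) = (e.conj g) ^ p := map_pow e.conjRingEquiv g p
    rw [hg', ← h1, hgp]
    exact LinearEquiv.conj_id e
  have h2 : ∀ z, g' z = LinearMap.toMatrix' g' *ᵥ z := by
    intro z
    rw [← Matrix.toLin'_apply, Matrix.toLin'_toMatrix']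
  have hmem : LinearMap.toMatrix' g' ∈ Matrix.symplecticGroup (Fin d) F := by
    rw [SymplecticGroup.mem_iff']
    apply (Matrix.toLinearMap₂' F (S₁ := F) (S₂ := F) (N₂ := F) (n := Fin d ⊕ Fin d)
      (m := Fin d ⊕ Fin d)).injective
    apply LinearMap.ext
    intro x
    apply LinearMap.ext
    intro y
    have h1 := hg'iso x y
    unfold stdB at h1
    rw [Matrix.toLinearMap₂'_apply', Matrix.toLinearMap₂'_apply'] at h1
    rw [h2, h2] at h1
    rw [Matrix.toLinearMap₂'_apply', Matrix.toLinearMap₂'_apply', ← h1, form_mulVec]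
  refine ⟨⟨LinearMap.toMatrix' g', hmem⟩, ?_, ?_⟩
  · apply Subtype.ext
    rw [SubmonoidClass.coe_pow]
    apply Matrix.toLin'.injective
    rw [Matrix.toLin'_pow, Matrix.toLin'_toMatrix', hg'p]
    show (1 : Module.End F (Fin d ⊕ Fin d → F)) =
      Matrix.toLin' (1 : Matrix (Fin d ⊕ Fin d) (Fin d ⊕ Fin d) F)
    rw [Matrix.toLin'_one]
    rfl
  · intro j
    show Module.finrank F ↥(LinearMap.ker
      ((Matrix.toLin' (LinearMap.toMatrix' g') - 1) ^ j)) = _
    rw [Matrix.toLin'_toMatrix']
    have hconj : (g' - 1) ^ j = e.conj ((g - 1) ^ j) := by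
      have h1 : e.conj ((g - 1) ^ j) = (e.conj (g - 1)) ^ j := map_pow e.conjRingEquiv (g - 1) j
      have h3 : e.conj (g - 1) = e.conj g - 1 := by
        have h4 := map_sub e.conjRingEquiv g 1
        rw [map_one] at h4
        exact h4
      rw [h1, h3, hg']
    rw [hconj, ker_conj, ← hker j, ← hgker j]
    exact LinearEquiv.finrank_eq
      (Submodule.equivMapOfInjective e.toLinearMap e.injective _).symm

example (hA : StModAll.{u}) (hC : StCay.{u, u}) : Cfsg.Agent.H42.Spn.StUniEx.{u} :=
  uniEx hA hC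

end Cfsg.Agent.Lib.Helper96.Spn
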