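import Mathlib
import Cfsg.Prelude.Def_GeometricClasses

set_option autoImplicit false

/-! S5707 team project (helper96): definitions and EXACT statements of the pieces.

Setting: `F` a field with `2 = 0`, `k ∈ {2, 4}`, `t` tensor factors, index type
`Idx k t = Fin t → Fin k`; quadratic form `Q` on `F^(Idx k t)` whose polar form is
`c * ∑ a, x a * y (revI a)` and which vanishes on the standard basis (structure `SM`).
`loc j A` is the local operator `1 ⊗ … ⊗ A ⊗ … ⊗ 1` (`A` in position `j`), `C F k` the Clifford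
space of `k × k` matrices (`k = 2`: trace zero; `k = 4`: `J A` alternating and `A²` scalar),
`Lsp F k t` the span of the `loc j A`, `A ∈ C F k`, and `NL F k t` its normalizer in `GL`.
The intermediate subgroup is `NL F k t ⊓ omegaGL Q`. -/

namespace Cfsg.Agent.Lib.Helper96.TW

open Cfsg Cfsg.Geo Matrix
open scoped MatrixGroups

universe u

/-- multi-indices -/
abbrev Idx (k t : ℕ) : Type := Fin t → Fin k

/-- the matrix of the pure tensor `gs 0 ⊗ … ⊗ gs (t-1)` -/
def pureM {F : Type u} [Field F] {k t : ℕ} (gs : Fin t → Matrix (Fin k) (Fin k) F) :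
    Matrix (Idx k t) (Idx k t) F :=
  fun x y => ∏ i, gs i (x i) (y i)

/-- the matrix permuting the tensor factors -/
def permM (F : Type u) [Field F] (k t : ℕ) (σ : Equiv.Perm (Fin t)) :
    Matrix (Idx k t) (Idx k t) F :=
  fun x y => if y = x ∘ σ then 1 else 0

/-- the local operator: `A` in position `j`, identity elsewhere -/
def loc {F : Type u} [Field F] {k t : ℕ} (j : Fin t) (A : Matrix (Fin k) (Fin k) F) :
    Matrix (Idx k t) (Idx k t) F :=
  fun x y => if (∀ i, i ≠ j → x i = y i) then A (x j) (y j) else 0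

/-- the antidiagonal (exchange) matrix -/
def Jm (F : Type u) [Field F] (k : ℕ) : Matrix (Fin k) (Fin k) F :=
  fun p q => if q = p.rev then 1 else 0

/-- the Clifford space -/
def C (F : Type u) [Field F] (k : ℕ) : Set (Matrix (Fin k) (Fin k) F) :=
  {A | (∀ p q, A p.rev q = A q.rev p) ∧ (k = 4 → ∀ p, A p.rev p = 0) ∧
    ∃ s : F, A * A = s • (1 : Matrix (Fin k) (Fin k) F)}

/-- the span of the local Clifford operators -/
def Lsp (F : Type u) [Field F] (k t : ℕ) : Submodule F (Matrix (Idx k t) (Idx k t) F) :=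
  Submodule.span F {M | ∃ (j : Fin t) (A : Matrix (Fin k) (Fin k) F), A ∈ C F k ∧ M = loc j A}

/-- the normalizer of `Lsp` in `GL` -/
def NL (F : Type u) [Field F] (k t : ℕ) : Subgroup (GL (Idx k t) F) where
  carrier := {g | ∀ M : Matrix (Idx k t) (Idx k t) F, M ∈ Lsp F k t ↔
    (g : Matrix (Idx k t) (Idx k t) F) * M * ((g⁻¹ : GL (Idx k t) F) : Matrix (Idx k t) (Idx k t) F)
      ∈ Lsp F k t}
  mul_mem' := by
    intro g h hg hh M
    rw [hh M, hg _]
    have e : ((g * h : GL (Idx k t) F) : Matrix (Idx k t) (Idx k t) F) * M *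
        (((g * h)⁻¹ : GL (Idx k t) F) : Matrix (Idx k t) (Idx k t) F) =
        (g : Matrix (Idx k t) (Idx k t) F) * ((h : Matrix (Idx k t) (Idx k t) F) * M *
          ((h⁻¹ : GL (Idx k t) F) : Matrix (Idx k t) (Idx k t) F)) *
          ((g⁻¹ : GL (Idx k t) F) : Matrix (Idx k t) (Idx k t) F) := by
      rw [_root_.mul_inv_rev, Units.val_mul, Units.val_mul]
      simp only [mul_assoc]
    rw [e]
  one_mem' := by
    intro M
    simp
  inv_mem' := by
    intro g hg M
    rw [hg (((g⁻¹ : GL (Idx k t) F) : Matrix (Idx k t) (Idx k t) F) * M *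
      (((g⁻¹)⁻¹ : GL (Idx k t) F) : Matrix (Idx k t) (Idx k t) F))]
    have e : (g : Matrix (Idx k t) (Idx k t) F) *
        (((g⁻¹ : GL (Idx k t) F) : Matrix (Idx k t) (Idx k t) F) * M *
          (((g⁻¹)⁻¹ : GL (Idx k t) F) : Matrix (Idx k t) (Idx k t) F)) *
        ((g⁻¹ : GL (Idx k t) F) : Matrix (Idx k t) (Idx k t) F) = M := by
      rw [inv_inv]
      have h1 : (g : Matrix (Idx k t) (Idx k t) F) *
          ((g⁻¹ : GL (Idx k t) F) : Matrix (Idx k t) (Idx k t) F) = 1 := by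
        rw [← Units.val_mul, mul_inv_cancel, Units.val_one]
      calc (g : Matrix (Idx k t) (Idx k t) F) *
            (((g⁻¹ : GL (Idx k t) F) : Matrix (Idx k t) (Idx k t) F) * M *
              (g : Matrix (Idx k t) (Idx k t) F)) *
            ((g⁻¹ : GL (Idx k t) F) : Matrix (Idx k t) (Idx k t) F)
          = ((g : Matrix (Idx k t) (Idx k t) F) *
              ((g⁻¹ : GL (Idx k t) F) : Matrix (Idx k t) (Idx k t) F)) * M *
              ((g : Matrix (Idx k t) (Idx k t) F) *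
              ((g⁻¹ : GL (Idx k t) F) : Matrix (Idx k t) (Idx k t) F)) := by
            simp only [mul_assoc]
        _ = M := by rw [h1, one_mul, mul_one]
    rw [e]

/-- `g` is a similarity of the exchange form -/
def IsSim {F : Type u} [Field F] {k : ℕ} (g : Matrix (Fin k) (Fin k) F) : Prop :=
  ∃ μ : F, μ ≠ 0 ∧ gᵀ * Jm F k * g = μ • Jm F k

/-- the half shift `p ↦ p + k/2 (mod k)` -/
def sh {k : ℕ} (p : Fin k) : Fin k := ⟨(p.val + k / 2) % k, Nat.mod_lt _ p.pos⟩

/-- `X` (`k = 2`) resp. `X ⊗ 1` (`k = 4`): the permutation matrix of the half shift -/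
def Xm (F : Type u) [Field F] (k : ℕ) : Matrix (Fin k) (Fin k) F :=
  fun p q => if q = sh p then 1 else 0

/-- `E₀₁` (`k = 2`) resp. `E₀₁ ⊗ 1` (`k = 4`) -/
def Nm (F : Type u) [Field F] (k : ℕ) : Matrix (Fin k) (Fin k) F :=
  fun p q => if p.val < k / 2 ∧ q.val = p.val + k / 2 then 1 else 0

/-- `1 + Nm` -/
def Um (F : Type u) [Field F] (k : ℕ) : Matrix (Fin k) (Fin k) F := 1 + Nm F k

/-- the complementary multi-index -/
def revI {k t : ℕ} (a : Idx k t) : Idx k t := fun i => (a i).rev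

/-- half shift in position `l` -/
def shI {k t : ℕ} (l : Fin t) (a : Idx k t) : Idx k t := Function.update a l (sh (a l))

/-- the permutation of the multi-indices induced by the second element -/
def piG {k t : ℕ} (a₁ : Idx k t) (l : Fin t) : Equiv.Perm (Idx k t) :=
  Equiv.swap a₁ (revI a₁) * Equiv.swap (shI l a₁) (revI (shI l a₁))

/-- the two cases -/
def Cases (k t : ℕ) : Prop := (k = 2 ∧ 4 ≤ t) ∨ (k = 4 ∧ 2 ≤ t)

/-- the standard model -/
structure SM {F : Type u} [Field F] (k t : ℕ) (Q : (Idx k t → F) → F) (c : F) : Prop where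
  nd : IsNondegenerateQuadraticForm Q
  two : (2 : F) = 0
  c_ne : c ≠ 0
  polar : ∀ x y : Idx k t → F, QuadraticMap.polar Q x y = c * ∑ a, x a * y (revI a)
  basis : ∀ a : Idx k t, Q (Pi.single a 1) = 0

/-! ### The pieces -/

/-- ALG: algebra of `loc`, `pureM`, `permM`. -/
def StAlg : Prop :=
  ∀ (F : Type u) [Field F] (k t : ℕ),
    (∀ j : Fin t, (loc j (1 : Matrix (Fin k) (Fin k) F) : Matrix (Idx k t) (Idx k t) F) = 1) ∧
    (∀ (j : Fin t) (A B : Matrix (Fin k) (Fin k) F),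
      (loc j (A * B) : Matrix (Idx k t) (Idx k t) F) = loc j A * loc j B) ∧
    (∀ (j : Fin t) (A B : Matrix (Fin k) (Fin k) F),
      (loc j (A + B) : Matrix (Idx k t) (Idx k t) F) = loc j A + loc j B) ∧
    (∀ (j : Fin t) (s : F) (A : Matrix (Fin k) (Fin k) F),
      (loc j (s • A) : Matrix (Idx k t) (Idx k t) F) = s • loc j A) ∧
    (∀ (i j : Fin t) (A B : Matrix (Fin k) (Fin k) F), i ≠ j →
      (loc i A : Matrix (Idx k t) (Idx k t) F) * loc j B = loc j B * loc i A) ∧
    (∀ (gs : Fin t → Matrix (Fin k) (Fin k) F) (j : Fin t) (A B : Matrix (Fin k) (Fin k) F),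
      gs j * A = B * gs j → pureM gs * loc j A = loc j B * pureM gs) ∧
    (∀ (σ : Equiv.Perm (Fin t)) (j : Fin t) (A : Matrix (Fin k) (Fin k) F),
      permM F k t σ * loc j A = loc (σ j) A * permM F k t σ) ∧
    (∀ gs hs : Fin t → Matrix (Fin k) (Fin k) F,
      pureM gs * pureM hs = pureM (fun i => gs i * hs i)) ∧
    (pureM (fun _ : Fin t => (1 : Matrix (Fin k) (Fin k) F)) =
      (1 : Matrix (Idx k t) (Idx k t) F)) ∧
    (∀ σ τ : Equiv.Perm (Fin t), permM F k t σ * permM F k t τ = permM F k t (σ * τ)) ∧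
    (permM F k t 1 = 1) ∧
    (∀ (σ : Equiv.Perm (Fin t)) (gs : Fin t → Matrix (Fin k) (Fin k) F),
      permM F k t σ * pureM gs = pureM (fun i => gs (σ.symm i)) * permM F k t σ)

/-- NF: wreath normal form of the elements of the standard tensor-wreath subgroup. -/
def StNF : Prop :=
  StAlg.{u} → ∀ (F : Type u) [Field F] (k t : ℕ) (g : GL (Idx k t) F),
    g ∈ tensorWreathStandard k t F →
    ∃ (gs : Fin t → GL (Fin k) F) (σ : Equiv.Perm (Fin t)),
      (g : Matrix (Idx k t) (Idx k t) F) =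
        pureM (fun i => ((gs i : GL (Fin k) F) : Matrix (Fin k) (Fin k) F)) * permM F k t σ

/-- SIM: if `pureM gs * permM σ` preserves the polar form, every factor is a similarity. -/
def StSim : Prop :=
  StAlg.{u} → ∀ (F : Type u) [Field F] (k t : ℕ) (Q : (Idx k t → F) → F) (c : F),
    Cases k t → SM k t Q c →
    ∀ (gs : Fin t → GL (Fin k) F) (σ : Equiv.Perm (Fin t)),
      (∀ x y : Idx k t → F,
        QuadraticMap.polar Q
          ((pureM (fun i => ((gs i : GL (Fin k) F) : Matrix (Fin k) (Fin k) F)) * permM F k t σ) *ᵥ x)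
          ((pureM (fun i => ((gs i : GL (Fin k) F) : Matrix (Fin k) (Fin k) F)) * permM F k t σ) *ᵥ y)
          = QuadraticMap.polar Q x y) →
      ∀ i, IsSim ((gs i : GL (Fin k) F) : Matrix (Fin k) (Fin k) F)

/-- CCONJ: similarities normalize the Clifford space. -/
def StCConj : Prop :=
  ∀ (F : Type u) [Field F] (k : ℕ), (2 : F) = 0 → (k = 2 ∨ k = 4) → ∀ g : GL (Fin k) F,
    IsSim ((g : GL (Fin k) F) : Matrix (Fin k) (Fin k) F) → ∀ A ∈ C F k,
      (g : Matrix (Fin k) (Fin k) F) * A * ((g⁻¹ : GL (Fin k) F) : Matrix (Fin k) (Fin k) F) ∈ C F k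

/-- NLGEN: the tensor-wreath elements of `Ω` normalize `Lsp`. -/
def StNLGen : Prop :=
  StAlg.{u} → StNF.{u} → StSim.{u} → StCConj.{u} →
    ∀ (F : Type u) [Field F] (k t : ℕ) (Q : (Idx k t → F) → F) (c : F), Cases k t → SM k t Q c →
      tensorWreathStandard k t F ⊓ omegaGL Q ≤ NL F k t

/-- CLIFF: the Clifford space is a subspace with scalar squares, containing the explicit matrices. -/
def StCliff : Prop :=
  ∀ (F : Type u) [Field F] (k : ℕ), (2 : F) = 0 → (k = 2 ∨ k = 4) →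
    (1 : Matrix (Fin k) (Fin k) F) ∈ C F k ∧ (0 : Matrix (Fin k) (Fin k) F) ∈ C F k ∧
    (∀ A ∈ C F k, ∀ B ∈ C F k, A + B ∈ C F k) ∧
    (∀ A ∈ C F k, ∀ B ∈ C F k, ∃ s : F, A * B + B * A = s • (1 : Matrix (Fin k) (Fin k) F)) ∧
    Xm F k ∈ C F k ∧ Nm F k ∈ C F k ∧ Um F k ∈ C F k ∧
    Xm F k * Xm F k = 1 ∧ Nm F k * Nm F k = 0 ∧ Um F k * Um F k = 1

/-- GAMMA: a sum of two local Clifford operators of total square one normalizes `Lsp`. -/
def StGamma : Prop :=
  StAlg.{u} → StCliff.{u} → ∀ (F : Type u) [Field F] (k t : ℕ), (2 : F) = 0 → (k = 2 ∨ k = 4) →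
    ∀ (i j : Fin t), i ≠ j → ∀ A ∈ C F k, ∀ A' ∈ C F k, A * A + A' * A' = 1 →
      ∀ g : GL (Idx k t) F, (g : Matrix (Idx k t) (Idx k t) F) = loc i A + loc j A' → g ∈ NL F k t

/-- ISO: isometry criterion on the standard basis. -/
def StIso : Prop :=
  ∀ (F : Type u) [Field F] (k t : ℕ) (Q : (Idx k t → F) → F) (c : F), SM k t Q c →
    ∀ g : GL (Idx k t) F,
      (∀ a b : Idx k t, QuadraticMap.polar Q
          ((g : Matrix (Idx k t) (Idx k t) F) *ᵥ Pi.single a 1)
          ((g : Matrix (Idx k t) (Idx k t) F) *ᵥ Pi.single b 1) = if b = revI a then c else 0) →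
      (∀ a : Idx k t, Q ((g : Matrix (Idx k t) (Idx k t) F) *ᵥ Pi.single a 1) = 0) →
      g ∈ isometryGroup F Q

/-- G1ISO: the Clifford element `γ` and the local unipotent `b` are isometries. -/
def StG1Iso : Prop :=
  StAlg.{u} → StCliff.{u} → StIso.{u} →
    ∀ (F : Type u) [Field F] (k t : ℕ) (Q : (Idx k t → F) → F) (c : F), Cases k t → SM k t Q c →
    ∀ (i j : Fin t), i ≠ j → ∃ γ b : GL (Idx k t) F,
      (γ : Matrix (Idx k t) (Idx k t) F) = loc i (Xm F k) + loc j (Nm F k) ∧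
      (b : Matrix (Idx k t) (Idx k t) F) = loc i (Um F k) ∧
      γ ∈ isometryGroup F Q ∧ b ∈ isometryGroup F Q

/-- G1NOT: the commutator of `γ` and `b` is not in the tensor-wreath subgroup. -/
def StG1Not : Prop :=
  StAlg.{u} → StCliff.{u} → StNF.{u} → ∀ (F : Type u) [Field F] (k t : ℕ), (2 : F) = 0 → Cases k t →
    ∀ (i j : Fin t), i ≠ j → ∀ γ b : GL (Idx k t) F,
      (γ : Matrix (Idx k t) (Idx k t) F) = loc i (Xm F k) + loc j (Nm F k) →
      (b : Matrix (Idx k t) (Idx k t) F) = loc i (Um F k) →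
      γ * b * γ⁻¹ * b⁻¹ ∉ tensorWreathStandard k t F

/-- G2PERM: a product of two commuting reflections in `Ω`, acting as a double transposition. -/
def StG2Perm : Prop :=
  StAlg.{u} → StCliff.{u} → StIso.{u} →
    ∀ (F : Type u) [Field F] (k t : ℕ) (Q : (Idx k t → F) → F) (c : F), Cases k t → SM k t Q c →
    ∀ (a₁ : Idx k t) (l : Fin t), ∃ g : GL (Idx k t) F, g ∈ omegaGL Q ∧
      ∀ a : Idx k t, (g : Matrix (Idx k t) (Idx k t) F) *ᵥ Pi.single a 1 = Pi.single (piG a₁ l a) 1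

/-- G2NOT: that double transposition does not normalize `Lsp`. -/
def StG2Not : Prop :=
  StCliff.{u} → ∀ (F : Type u) [Field F] (k t : ℕ), (2 : F) = 0 → Cases k t →
    ∀ (a₁ : Idx k t) (l : Fin t), (a₁ l).val = 0 → ∀ g : GL (Idx k t) F,
      (∀ a : Idx k t, (g : Matrix (Idx k t) (Idx k t) F) *ᵥ Pi.single a 1 =
        Pi.single (piG a₁ l a) 1) → g ∉ NL F k t

/-- TRANSPORT: from tensor coordinates to `Fin n`. -/
def StTransport : Prop :=
  ∀ (F : Type u) [Field F] {n k t : ℕ} (Q : (Fin n → F) → F), IsNondegenerateQuadraticForm Q →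
    ∀ (e : Fin n ≃ Idx k t) (P : GL (Fin n) F),
      IsNondegenerateQuadraticForm
        (fun x : Idx k t → F => Q ((P : Matrix (Fin n) (Fin n) F) *ᵥ (x ∘ e))) ∧
      Function.Injective ((MulAut.conj P).toMonoidHom.comp (glReindex (F := F) e.symm).toMonoidHom) ∧
      (omegaGL (fun x : Idx k t → F => Q ((P : Matrix (Fin n) (Fin n) F) *ᵥ (x ∘ e)))).map
        ((MulAut.conj P).toMonoidHom.comp (glReindex (F := F) e.symm).toMonoidHom) = omegaGL Q ∧
      (tensorWreathStandard k t F).map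
        ((MulAut.conj P).toMonoidHom.comp (glReindex (F := F) e.symm).toMonoidHom) =
        tensorWreathSubgroup k t e P

/-- SYMPB: a symplectic form on `F^k`, `1 ≤ k ≤ 4`, characteristic 2, has `k ∈ {2, 4}` and an
exchange basis. -/
def StSympB : Prop :=
  ∀ (F : Type u) [Field F] (k : ℕ), (2 : F) = 0 → 1 ≤ k → k ≤ 4 →
    ∀ (f₁ : (Fin k → F) → (Fin k → F) → F), IsSymplecticForm f₁ →
    (k = 2 ∨ k = 4) ∧ ∃ R : GL (Fin k) F,
      (R : Matrix (Fin k) (Fin k) F)ᵀ * gramMatrix f₁ * (R : Matrix (Fin k) (Fin k) F) = Jm F k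

/-- STD: standardization of the frozen hypotheses. -/
def StStd : Prop :=
  StAlg.{u} → StSympB.{u} → ∀ (F : Type u) [Field F] [Fintype F] {n : ℕ}, 13 ≤ n →
    ∀ (Q : (Fin n → F) → F), IsNondegenerateQuadraticForm Q → ¬ Odd (Fintype.card F) →
    ∀ (k t : ℕ), 2 ≤ t → k ≤ 4 → ∀ (e : Fin n ≃ Idx k t) (P : GL (Fin n) F)
      (f₁ : (Fin k → F) → (Fin k → F) → F), IsSymplecticForm f₁ →
      IsTensorPowerFormStructure id (QuadraticMap.polar Q) f₁ e P →
      (∀ xs : Fin t → (Fin k → F), Q ((P : Matrix (Fin n) (Fin n) F) *ᵥ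
        ((fun a : Fin t → Fin k => ∏ i, xs i (a i)) ∘ e)) = 0) →
      Cases k t ∧ (2 : F) = 0 ∧ ∃ (P' : GL (Fin n) F) (c : F), c ≠ 0 ∧
        tensorWreathSubgroup k t e P' = tensorWreathSubgroup k t e P ∧
        (∀ x y : Idx k t → F, QuadraticMap.polar Q ((P' : Matrix (Fin n) (Fin n) F) *ᵥ (x ∘ e))
          ((P' : Matrix (Fin n) (Fin n) F) *ᵥ (y ∘ e)) = c * ∑ a, x a * y (revI a)) ∧
        (∀ a : Idx k t, Q ((P' : Matrix (Fin n) (Fin n) F) *ᵥ
          ((Pi.single a 1 : Idx k t → F) ∘ e)) = 0)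

end Cfsg.Agent.Lib.Helper96.TW
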