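import Cfsg.Agent.H87.CrDefs
import Cfsg.Agent.H15.CrIMG
import Cfsg.Agent.H86.GrpStab
import Cfsg.Agent.H86.GrpLemmas

set_option autoImplicit false

/-!
# S5141 (Craven's theorem), piece CR-STEPFN (helper96, for helper87)

A map of `F` on `P C_S(T)` fixing the `E`-centric subgroup `P` elementwise extends, when
`P C_S(T)` is fully normalized, to `N_T(P) C_S(T)`, moving `N_T(P)` by elements of `P`.
-/

namespace Cfsg.Agent.Lib.Helper96.Cr

open Cfsg Cfsg.FusionSystem Cfsg.Agent.H86 Cfsg.Agent.H87 Cfsg.Agent.H87.Cr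

variable {Ω : Type*} [Group Ω] {S T : Subgroup Ω}

/-- the two-step chain `⊥ ≤ Q ≤ Y`. -/
def chain2 {Y : Type*} [Group Y] (Q : Subgroup Y) : ℕ → Subgroup Y :=
  fun i => if i = 0 then ⊥ else Q

theorem chain2_zero {Y : Type*} [Group Y] (Q : Subgroup Y) : chain2 Q 0 = ⊥ := by
  simp [chain2]

theorem chain2_one {Y : Type*} [Group Y] (Q : Subgroup Y) : chain2 Q 1 = Q := by
  simp [chain2]

theorem chain2_mono {Y : Type*} [Group Y] (Q : Subgroup Y) : Monotone (chain2 Q) := by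
  intro i j hij
  unfold chain2
  by_cases hi : i = 0
  · simp [hi]
  · have hj : j ≠ 0 := by omega
    simp [hi, hj]

/-- the core of CR-STEPFN, with `k (P C_S(T)) = P C_S(T)` (a consequence of CR-IMG) as a
hypothesis. -/
theorem fix_step_fn_core [Finite S] {p : ℕ} [Fact p.Prime] (hS : IsPGroup p S)
    {F : FusionSystem S} {E : FusionSystem T} (hE : E.IsWeaklyNormalIn F p) {P : Subgroup Ω}
    (hP : E.IsCentric P) (hfn : F.IsFullyNormalized (P ⊔ centralizerIn S T)) {k : Ω → Ω}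
    (hk : Mor F (P ⊔ centralizerIn S T) k) (hkP : ∀ x ∈ P, k x = x)
    (himg : imgS (P ⊔ centralizerIn S T) k = P ⊔ centralizerIn S T) :
    ∃ k₁, Mor F (normalizerIn T P ⊔ centralizerIn S T) k₁ ∧
      (∀ y ∈ P ⊔ centralizerIn S T, k₁ y = k y) ∧ ∀ n ∈ normalizerIn T P, n⁻¹ * k₁ n ∈ P := by
  classical
  have hTS : T ≤ S := hE.2.2.2.1.1
  obtain ⟨hsub, hsc, hai, hfr⟩ := (isInvariantIn_iff hTS).1 hE.2.2
  have hPT : P ≤ T := hP.1
  have hYS : P ⊔ centralizerIn S T ≤ S := hk.le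
  have hXY : centralizerIn S T ≤ P ⊔ centralizerIn S T := le_sup_right
  have hPY : P ≤ P ⊔ centralizerIn S T := le_sup_left
  obtain ⟨hfc, hfa⟩ := saturated_fullyNormalized hS hE.2.1 hfn
  have hrec : F.IsReceptive (P ⊔ centralizerIn S T) :=
    saturated_receptive_of_fullyCentralized hS hE.2.1 hfc
  obtain ⟨-, R, hR⟩ := hfa
  have : Finite ↥(P ⊔ centralizerIn S T) := finite_of_le hYS
  have hpY : IsPGroup p ↥(P ⊔ centralizerIn S T) := hS.to_le hYS
  have hkY : ∀ y ∈ P ⊔ centralizerIn S T, k y ∈ P ⊔ centralizerIn S T := by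
    intro y hy
    have h := hk.mem_imgS_of_mem hy
    rwa [himg] at h
  have hkinv : Mor F (P ⊔ centralizerIn S T) (invOn (P ⊔ centralizerIn S T) k) := by
    have h := hk.inv
    rwa [himg] at h
  have hinvY : ∀ y ∈ P ⊔ centralizerIn S T,
      invOn (P ⊔ centralizerIn S T) k y ∈ P ⊔ centralizerIn S T := by
    intro y hy
    exact hk.invOn_mem (by rw [himg]; exact hy)
  have hkinvk : ∀ y ∈ P ⊔ centralizerIn S T, k (invOn (P ⊔ centralizerIn S T) k y) = y := by
    intro y hy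
    exact hk.apply_invOn (by rw [himg]; exact hy)
  -- elements of `N_T(P)`
  have hN : ∀ n ∈ normalizerIn T P, n ∈ T ∧ (∀ x ∈ P, n * x * n⁻¹ ∈ P) ∧
      (∀ x ∈ P, n⁻¹ * x * n ∈ P) ∧ (∀ c ∈ centralizerIn S T, n * c * n⁻¹ = c) ∧
      (∀ c ∈ centralizerIn S T, n⁻¹ * c * n = c) := by
    intro n hn
    obtain ⟨hnT, hnN⟩ := mem_normalizerIn_iff.1 hn
    refine ⟨hnT, fun x hx => conj_mem_of_mem_normalizer hnN hx,
      fun x hx => conj_inv_mem_of_mem_normalizer hnN hx, fun c hc => ?_, fun c hc => ?_⟩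
    · have h := (mem_centralizerIn_iff.1 hc).2 n hnT
      rw [h, mul_inv_cancel_right]
    · have h := (mem_centralizerIn_iff.1 hc).2 n hnT
      rw [mul_assoc, ← h, inv_mul_cancel_left]
  have hnY : ∀ n ∈ normalizerIn T P, ∀ y ∈ P ⊔ centralizerIn S T,
      n * y * n⁻¹ ∈ P ⊔ centralizerIn S T ∧ n⁻¹ * y * n ∈ P ⊔ centralizerIn S T := by
    intro n hn y hy
    obtain ⟨hnT, h1, h2, h3, h4⟩ := hN n hn
    obtain ⟨x, hx, c, hc, rfl⟩ := mem_sup_cent hPT hy
    constructor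
    · have e : n * (x * c) * n⁻¹ = (n * x * n⁻¹) * (n * c * n⁻¹) := by group
      rw [e, h3 c hc]
      exact Subgroup.mul_mem _ (hPY (h1 x hx)) (hXY hc)
    · have e : n⁻¹ * (x * c) * n = (n⁻¹ * x * n) * (n⁻¹ * c * n) := by group
      rw [e, h4 c hc]
      exact Subgroup.mul_mem _ (hPY (h2 x hx)) (hXY hc)
  -- every automorphism of `P C_S(T)` in `F` stabilizes the chain `1 ≤ P ≤ P C_S(T)`
  have hA : ∀ a ∈ F.autGroup (P ⊔ centralizerIn S T), ∀ i ≤ 1,
      ∀ y ∈ chain2 (P.subgroupOf (P ⊔ centralizerIn S T)) i,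
        a y ∈ chain2 (P.subgroupOf (P ⊔ centralizerIn S T)) i := by
    intro a ha i hi y hy
    have hi' : i = 0 ∨ i = 1 := by omega
    rcases hi' with rfl | rfl
    · rw [chain2_zero, Subgroup.mem_bot] at hy ⊢
      rw [hy, map_one]
    · rw [chain2_one, Subgroup.mem_subgroupOf] at hy ⊢
      have hm : Mor F (P ⊔ centralizerIn S T) (autFun (P ⊔ centralizerIn S T) a) :=
        (mem_autGroup_iff hYS a).1 ha
      have h1 : ((a y : ↥(P ⊔ centralizerIn S T)) : Ω) ∈ T := by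
        rw [← autFun_apply a y]
        exact Cfsg.Agent.H88.map_mem_stronglyClosed hsc hm y.2 (hPT hy)
      have h2 : ((a y : ↥(P ⊔ centralizerIn S T)) : Ω) ∈ T ⊓ (P ⊔ centralizerIn S T) :=
        ⟨h1, (a y).2⟩
      rwa [inf_sup_cent hP] at h2
  have hMnormal := stabSub_subgroupOf_normal (chain2 (P.subgroupOf (P ⊔ centralizerIn S T)))
    (chain2_mono _) 1 (F.autGroup (P ⊔ centralizerIn S T)) hA
  have hMp : IsPGroup p ↥((stabSub (chain2 (P.subgroupOf (P ⊔ centralizerIn S T)))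
      (chain2_mono _) 1).subgroupOf (F.autGroup (P ⊔ centralizerIn S T))) :=
    (stabSub_isPGroup hpY _ (chain2_zero _) (chain2_mono _) 1).comap_of_injective _
      (Subgroup.subtype_injective _)
  have hMle : (stabSub (chain2 (P.subgroupOf (P ⊔ centralizerIn S T)))
      (chain2_mono _) 1).subgroupOf (F.autGroup (P ⊔ centralizerIn S T)) ≤
      (autInducedBy S (P ⊔ centralizerIn S T)).subgroupOf (F.autGroup (P ⊔ centralizerIn S T)) := by
    rw [← hR]
    exact (Cfsg.Agent.H86.le_pCore hMnormal hMp).trans (Cfsg.Agent.H86.pCore_le_sylow R)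
  -- the key claim
  have hext : ∀ n ∈ normalizerIn T P, n ∈ extSub S (P ⊔ centralizerIn S T) k := by
    intro n hn
    obtain ⟨hnT, h1, h2, h3, h4⟩ := hN n hn
    have hnS : n ∈ S := hTS hnT
    -- the commutator map
    have m1 : Mor F (P ⊔ centralizerIn S T) (fun y => n⁻¹ * y * n) :=
      (Mor.conj F hYS (S.inv_mem hnS)).congr (fun y _ => by rw [inv_inv])
    have m3 : Mor F (P ⊔ centralizerIn S T) (fun y => n * y * n⁻¹) := Mor.conj F hYS hnS
    have hφ : Mor F (P ⊔ centralizerIn S T)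
        (fun y => k (n * invOn (P ⊔ centralizerIn S T) k (n⁻¹ * y * n) * n⁻¹)) :=
      ((m1.comp hkinv (fun y hy => (hnY n hn y hy).2)).comp m3
        (fun y hy => hinvY _ (hnY n hn y hy).2)).comp hk
        (fun y hy => (hnY n hn _ (hinvY _ (hnY n hn y hy).2)).1)
    have hφY : ∀ y ∈ P ⊔ centralizerIn S T,
        k (n * invOn (P ⊔ centralizerIn S T) k (n⁻¹ * y * n) * n⁻¹) ∈ P ⊔ centralizerIn S T :=
      fun y hy => hkY _ (hnY n hn _ (hinvY _ (hnY n hn y hy).2)).1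
    have himgφ := imgS_eq_of_maps hφ hφY
    -- the map fixes `P`
    have hφP : ∀ x ∈ P, k (n * invOn (P ⊔ centralizerIn S T) k (n⁻¹ * x * n) * n⁻¹) = x := by
      intro x hx
      have hz : n⁻¹ * x * n ∈ P := h2 x hx
      have e1 : invOn (P ⊔ centralizerIn S T) k (n⁻¹ * x * n) = n⁻¹ * x * n := by
        have h := invOn_apply hk.injOn (hPY hz)
        rwa [hkP _ hz] at h
      have e2 : n * (n⁻¹ * x * n) * n⁻¹ = x := by group
      rw [e1, e2, hkP x hx]
    -- the map is trivial modulo `P`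
    have hφmod : ∀ y ∈ P ⊔ centralizerIn S T,
        y⁻¹ * k (n * invOn (P ⊔ centralizerIn S T) k (n⁻¹ * y * n) * n⁻¹) ∈ P := by
      intro y hy
      obtain ⟨x, hx, c, hc, rfl⟩ := mem_sup_cent hPT hy
      have e0 : k (n * invOn (P ⊔ centralizerIn S T) k (n⁻¹ * (x * c) * n) * n⁻¹) =
          k (n * invOn (P ⊔ centralizerIn S T) k (n⁻¹ * x * n) * n⁻¹) *
            k (n * invOn (P ⊔ centralizerIn S T) k (n⁻¹ * c * n) * n⁻¹) :=
        hφ.map_mul (hPY hx) (hXY hc)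
      rw [e0, hφP x hx, h4 c hc]
      have hc'Y := hinvY c (hXY hc)
      have hkc' := hkinvk c (hXY hc)
      obtain ⟨x', hx', c'', hc'', hc'eq⟩ := mem_sup_cent hPT hc'Y
      have e1 : k (x' * c'') = x' * k c'' := by
        rw [hk.map_mul (hPY hx') (hXY hc''), hkP x' hx']
      have e2 : k c'' = x'⁻¹ * c := by
        rw [← hkc', hc'eq, e1]
        group
      have e3 : n * (x' * c'') * n⁻¹ = (n * x' * n⁻¹) * c'' := by
        have e : n * (x' * c'') * n⁻¹ = (n * x' * n⁻¹) * (n * c'' * n⁻¹) := by group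
        rw [e, h3 c'' hc'']
      have hw : n * x' * n⁻¹ * x'⁻¹ ∈ P := P.mul_mem (h1 x' hx') (P.inv_mem hx')
      have hcomm := (mem_centralizerIn_iff.1 hc).2 _ (hPT hw)
      rw [hc'eq, e3, hk.map_mul (hPY (h1 x' hx')) (hXY hc''), hkP _ (h1 x' hx'), e2]
      have e4 : (x * c)⁻¹ * (x * (n * x' * n⁻¹ * (x'⁻¹ * c))) =
          c⁻¹ * ((n * x' * n⁻¹ * x'⁻¹) * c) := by group
      rw [e4, hcomm, inv_mul_cancel_left]
      exact hw
    -- so it is induced by an element of `S`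
    have hμmem : mkAut hφ himgφ ∈ stabSub (chain2 (P.subgroupOf (P ⊔ centralizerIn S T)))
        (chain2_mono _) 1 := by
      rw [mem_stabSub_iff]
      refine ⟨fun y => ?_, fun i hi x hx => ?_⟩
      · rw [chain2_one, Subgroup.mem_subgroupOf]
        exact hφmod y y.2
      · have hi0 : i = 0 := by omega
        subst hi0
        rw [zero_add, chain2_one, Subgroup.mem_subgroupOf] at hx
        rw [chain2_zero, Subgroup.mem_bot]
        have e : mkAut hφ himgφ x = x := Subtype.ext (hφP x hx)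
        rw [e, inv_mul_cancel]
    have hμ2 : (⟨mkAut hφ himgφ, mkAut_mem hφ himgφ⟩ : F.autGroup (P ⊔ centralizerIn S T)) ∈
        (autInducedBy S (P ⊔ centralizerIn S T)).subgroupOf
          (F.autGroup (P ⊔ centralizerIn S T)) := hMle hμmem
    rw [Subgroup.mem_subgroupOf] at hμ2
    obtain ⟨s, hs, hsμ⟩ := (mem_autInducedBy_iff S _ _).1 hμ2
    rw [mem_extSub_iff hk]
    refine ⟨hnS, ?_, s * n, S.mul_mem hs hnS, fun y hy => ?_⟩
    · rw [Subgroup.mem_normalizer_iff]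
      intro y
      constructor
      · exact fun hy => (hnY n hn y hy).1
      · intro hy
        have e : y = n⁻¹ * (n * y * n⁻¹) * n := by group
        rw [e]
        exact (hnY n hn _ hy).2
    · have hy₁ : n * k y * n⁻¹ ∈ P ⊔ centralizerIn S T := (hnY n hn _ (hkY y hy)).1
      have e1 := hsμ ⟨n * k y * n⁻¹, hy₁⟩
      have e2 : ((mkAut hφ himgφ ⟨n * k y * n⁻¹, hy₁⟩ : ↥(P ⊔ centralizerIn S T)) : Ω) =
          k (n * y * n⁻¹) := by
        show k (n * invOn (P ⊔ centralizerIn S T) k (n⁻¹ * (n * k y * n⁻¹) * n) * n⁻¹) = _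
        have e3 : n⁻¹ * (n * k y * n⁻¹) * n = k y := by group
        rw [e3, invOn_apply hk.injOn hy]
      rw [e2] at e1
      rw [e1]
      group
  -- extension by receptivity
  have hR₀ : normalizerIn T P ⊔ centralizerIn S T ≤ extSub S (P ⊔ centralizerIn S T) k :=
    sup_le hext (hXY.trans (le_extSub hk))
  obtain ⟨f', hf', hf'k⟩ := receptive_extend' hrec hk himg
  have hm : Mor F (normalizerIn T P ⊔ centralizerIn S T) f' := hf'.restrict hR₀
  refine ⟨f', hm, hf'k, fun n hn => ?_⟩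
  obtain ⟨hnT, h1, h2, h3, h4⟩ := hN n hn
  have hnR : n ∈ normalizerIn T P ⊔ centralizerIn S T := Subgroup.mem_sup_left hn
  have hPR : P ≤ normalizerIn T P ⊔ centralizerIn S T := (Cfsg.Agent.H86.le_normalizerIn hPT).trans le_sup_left
  have hfT : f' n ∈ T := Cfsg.Agent.H88.map_mem_stronglyClosed hsc hm hnR hnT
  apply isCentric_self_le hP
  rw [mem_centralizerIn_iff]
  refine ⟨T.mul_mem (T.inv_mem hnT) hfT, fun x hx => ?_⟩
  have e1 : f' (n * x * n⁻¹) = f' n * f' x * (f' n)⁻¹ := by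
    rw [hm.map_mul (Subgroup.mul_mem _ hnR (hPR hx)) (Subgroup.inv_mem _ hnR),
      hm.map_mul hnR (hPR hx), hm.map_inv hnR]
  rw [hf'k _ (hPY (h1 x hx)), hkP _ (h1 x hx), hf'k x (hPY hx), hkP x hx] at e1
  have e2 : f' n * x = n * x * n⁻¹ * f' n := by rw [e1]; group
  calc x * (n⁻¹ * f' n) = n⁻¹ * (n * x * n⁻¹ * f' n) := by group
    _ = n⁻¹ * (f' n * x) := by rw [e2]
    _ = n⁻¹ * f' n * x := by group

/-- **CR-STEPFN** (exact posted statement). -/
theorem fix_step_fn [Finite S] {p : ℕ} [Fact p.Prime] (hS : IsPGroup p S) {F : FusionSystem S}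
    {E : FusionSystem T} (hE : E.IsWeaklyNormalIn F p) {P : Subgroup Ω} (hP : E.IsCentric P)
    (hfn : F.IsFullyNormalized (P ⊔ centralizerIn S T)) {k : Ω → Ω}
    (hk : Mor F (P ⊔ centralizerIn S T) k) (hkP : ∀ x ∈ P, k x = x) :
    ∃ k₁, Mor F (normalizerIn T P ⊔ centralizerIn S T) k₁ ∧
      (∀ y ∈ P ⊔ centralizerIn S T, k₁ y = k y) ∧ ∀ n ∈ normalizerIn T P, n⁻¹ * k₁ n ∈ P := by
  have himg : imgS (P ⊔ centralizerIn S T) k = P ⊔ centralizerIn S T := by
    rw [(Cfsg.Agent.H15.Cr.img_cent hS hE hP hk).2]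
    have h1 : imgS P k = P := by
      rw [Mor.imgS_congr (hk.restrict le_sup_left) hkP, Mor.imgS_id]
    rw [h1]
  exact fix_step_fn_core hS hE hP hfn hk hkP himg

example [Finite S] {p : ℕ} [Fact p.Prime] (hS : IsPGroup p S) {F : FusionSystem S} {E : FusionSystem T} (hE : E.IsWeaklyNormalIn F p) {P : Subgroup Ω} (hP : E.IsCentric P) (hfn : F.IsFullyNormalized (P ⊔ centralizerIn S T)) {k : Ω → Ω} (hk : Mor F (P ⊔ centralizerIn S T) k) (hkP : ∀ x ∈ P, k x = x) : ∃ k₁, Mor F (normalizerIn T P ⊔ centralizerIn S T) k₁ ∧ (∀ y ∈ P ⊔ centralizerIn S T, k₁ y = k y) ∧ ∀ n ∈ normalizerIn T P, n⁻¹ * k₁ n ∈ P :=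
  fix_step_fn hS hE hP hfn hk hkP

end Cfsg.Agent.Lib.Helper96.Cr
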