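import Mathlib
import Cfsg.Agent.Lib.Helper96.Berger3

/-!
# The fiber product construction for Berger's theorem (helper96)

For a maximal subgroup `H` of `Γ` with core `L` and a chief factor `K/L`, the subgroup
`fiberProd H K = {(g, h) : h ∈ H, g h⁻¹ ∈ K}` of `Γ × Γ` (isomorphic to `K ⋊ H`) projects onto
`Γ` (`fp1`) and onto `H` (`fp2`).  If `χ = ϑ^Γ` is irreducible and homogeneous on `L`, with
irreducible constituent `η`, then `η × η̄` extends to a character `E` of `fp1⁻¹(H)`, the induced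
character `E^X` is irreducible, and `χ ∘ fp1` is the part of `E^X · (ϑ ∘ fp2)` which is trivial on
`ker fp1`.  Applying `not_quasiprimitive_of_induced` to `E^X` and the Clifford correspondence shows
that `χ ∘ fp1` is induced from a proper subgroup containing `fp1⁻¹(K)` (`berger_core`).
-/

set_option autoImplicit false
set_option linter.style.haveILetI false
set_option linter.unusedSectionVars false
open Cfsg
open scoped ComplexConjugate

namespace Cfsg.Agent.Lib.Helper96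

open Cfsg.Agent Cfsg.Agent.H4 Cfsg.Agent.Clifford

universe u

section FP

variable {Γ : Type u} [Group Γ]

/-- The fiber product `{(g, h) : h ∈ H, g h⁻¹ ∈ K}`, isomorphic to `K ⋊ H`. -/
def fiberProd (H K : Subgroup Γ) [hK : K.Normal] : Subgroup (Γ × Γ) where
  carrier := {x | x.2 ∈ H ∧ x.1 * x.2⁻¹ ∈ K}
  one_mem' := ⟨H.one_mem, by simp⟩
  mul_mem' := by
    rintro x y ⟨hx1, hx2⟩ ⟨hy1, hy2⟩
    refine ⟨H.mul_mem hx1 hy1, ?_⟩
    have e : (x * y).1 * (x * y).2⁻¹ = (x.1 * x.2⁻¹) * (x.2 * (y.1 * y.2⁻¹) * x.2⁻¹) := by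
      simp only [Prod.fst_mul, Prod.snd_mul]
      group
    rw [e]
    exact K.mul_mem hx2 (hK.conj_mem _ hy2 _)
  inv_mem' := by
    rintro x ⟨hx1, hx2⟩
    refine ⟨H.inv_mem hx1, ?_⟩
    have e : (x⁻¹).1 * ((x⁻¹).2)⁻¹ = x.2⁻¹ * (x.1 * x.2⁻¹)⁻¹ * x.2⁻¹⁻¹ := by
      simp only [Prod.fst_inv, Prod.snd_inv]
      group
    rw [e]
    exact hK.conj_mem _ (K.inv_mem hx2) _

variable (H K : Subgroup Γ) [hK : K.Normal]

/-- First projection of the fiber product. -/
def fp1 : ↥(fiberProd H K) →* Γ := (MonoidHom.fst Γ Γ).comp (fiberProd H K).subtype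

/-- Second projection of the fiber product, into `H`. -/
def fp2 : ↥(fiberProd H K) →* ↥H :=
  ((MonoidHom.snd Γ Γ).comp (fiberProd H K).subtype).codRestrict H (fun x => x.2.1)

theorem fp1_apply (x : ↥(fiberProd H K)) : fp1 H K x = x.1.1 := rfl

theorem fp2_apply (x : ↥(fiberProd H K)) : (fp2 H K x : Γ) = x.1.2 := rfl

theorem fp1_surjective (hsup : H ⊔ K = ⊤) : Function.Surjective (fp1 H K) := by
  intro g
  obtain ⟨k, hk, h, hh, rfl⟩ := exists_mul_of_sup_eq_top H K hsup g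
  exact ⟨⟨(k * h, h), ⟨hh, by simpa using hk⟩⟩, rfl⟩

end FP

section Generic

variable {Γ : Type u} [Group Γ] {X : Type u} [Group X]

theorem isCoatom_comap (f : X →* Γ) (hf : Function.Surjective f) {H : Subgroup Γ}
    (hH : IsCoatom H) : IsCoatom (H.comap f) := by
  constructor
  · intro h
    apply hH.1
    rw [← Subgroup.map_comap_eq_self_of_surjective hf H, h, ← MonoidHom.range_eq_map,
      MonoidHom.range_eq_top.mpr hf]
  · intro X' hlt
    have hker : f.ker ≤ X' := by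
      refine le_trans ?_ hlt.le
      intro x hx
      rw [Subgroup.mem_comap, MonoidHom.mem_ker.mp hx]
      exact H.one_mem
    have h1 : H ≤ X'.map f := by
      rw [← Subgroup.map_comap_eq_self_of_surjective hf H]
      exact Subgroup.map_mono hlt.le
    have h2 : H ≠ X'.map f := by
      intro h
      apply hlt.ne
      rw [h, Subgroup.comap_map_eq_self hker]
    have h3 := hH.2 _ (lt_of_le_of_ne h1 h2)
    rw [← Subgroup.comap_map_eq_self hker, h3, Subgroup.comap_top]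

theorem solvable_quotient_comap (f : X →* Γ) (N : Subgroup Γ) [N.Normal]
    (hs : Group.IsSolvable (Γ ⧸ N)) : Group.IsSolvable (X ⧸ N.comap f) := by
  haveI := hs
  apply Group.isSolvable_of_isSolvable_injective (f := QuotientGroup.map (N.comap f) N f le_rfl)
  rw [injective_iff_map_eq_one]
  intro x hx
  obtain ⟨y, rfl⟩ := QuotientGroup.mk_surjective x
  rw [QuotientGroup.map_mk, QuotientGroup.eq_one_iff] at hx
  exact (QuotientGroup.eq_one_iff y).mpr hx

theorem quasiprimitive_comp (f : X →* Γ) (hf : Function.Surjective f) {χ : Γ → ℂ}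
    (hqp : ∀ M : Subgroup Γ, M.Normal → ∃ (φ : M → ℂ) (e : ℕ), IsIrrCharacter M φ ∧
      (fun m : M => χ m) = (e : ℂ) • φ) :
    ∀ M : Subgroup X, M.Normal → ∃ (φ : M → ℂ) (e : ℕ), IsIrrCharacter M φ ∧
      (fun m : M => χ (f m)) = (e : ℂ) • φ := by
  intro M hM
  obtain ⟨φ, e, hφ, he⟩ := hqp (M.map f) (Subgroup.Normal.map hM f hf)
  refine ⟨fun m => φ (f.subgroupMap M m), e,
    isIrrCharacter_comp_surjective (f.subgroupMap M) (f.subgroupMap_surjective M) hφ, ?_⟩
  funext m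
  exact congrFun he (f.subgroupMap M m)

end Generic

section Core

variable {Γ : Type u} [Group Γ] [Fintype Γ]

/-- The existence of the extension `E` of `η × η̄` to `fp1⁻¹(H)` inside `(ϑ ∘ fst) (ϑ ∘ snd)‾`. -/
theorem fp_exists_extension (H K L : Subgroup Γ) [hK : K.Normal] [hL : L.Normal]
    [Fintype ↥(H.comap (fp1 H K))]
    (hLH : L ≤ H) (hLK : L ≤ K) (hinf : H ⊓ K ≤ L)
    (η : L → ℂ) (hη : IsIrrCharacter L η)
    (ϑ : H → ℂ) (hϑ : IsIrrCharacter H ϑ) (a : ℕ)
    (hϑL : ∀ (x : Γ) (hx : x ∈ L), ϑ ⟨x, hLH hx⟩ = (a : ℂ) * η ⟨x, hx⟩) :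
    ∃ E : ↥(H.comap (fp1 H K)) → ℂ, IsIrrCharacter ↥(H.comap (fp1 H K)) E ∧
      (∀ y : ↥(H.comap (fp1 H K)), (y : ↥(fiberProd H K)).1.1 ∈ L →
        E y = extendByZero L η (y : ↥(fiberProd H K)).1.1 *
          conj (extendByZero L η (y : ↥(fiberProd H K)).1.2)) ∧
      classInner (fun y : ↥(H.comap (fp1 H K)) =>
        extendByZero H ϑ (y : ↥(fiberProd H K)).1.1 *
          conj (extendByZero H ϑ (y : ↥(fiberProd H K)).1.2)) E ≠ 0 := by
  classical
  letI : Fintype ↥H := Fintype.ofFinite _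
  letI : Fintype ↥L := Fintype.ofFinite _
  have hϑch := isCharacter_of_isIrrCharacter hϑ
  have hηch := isCharacter_of_isIrrCharacter hη
  have hsndL : ∀ x : ↥(fiberProd H K), x.1.1 ∈ L → x.1.2 ∈ L := by
    intro x hx
    apply hinf
    refine ⟨x.2.1, ?_⟩
    have h1 := K.mul_mem (K.inv_mem x.2.2) (hLK hx)
    have e : (x.1.1 * x.1.2⁻¹)⁻¹ * x.1.1 = x.1.2 := by group
    rwa [e] at h1
  -- the two coordinate homomorphisms on `Y = fp1⁻¹(H)`
  let r1 : ↥(H.comap (fp1 H K)) →* ↥H :=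
    ((fp1 H K).comp (Subgroup.subtype _)).codRestrict H (fun y => y.2)
  let r2 : ↥(H.comap (fp1 H K)) →* ↥H := (fp2 H K).comp (Subgroup.subtype _)
  -- the diagonal
  let D : Subgroup ↥(H.comap (fp1 H K)) :=
    MonoidHom.eqLocus (H.subtype.comp r1) (H.subtype.comp r2)
  have hDmem : ∀ y : ↥(H.comap (fp1 H K)), y ∈ D ↔
      (y : ↥(fiberProd H K)).1.1 = (y : ↥(fiberProd H K)).1.2 := fun y => Iff.rfl
  -- the normal subgroup `L'' = fp1⁻¹(L)` inside `Y`
  let L'' : Subgroup ↥(H.comap (fp1 H K)) :=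
    (L.comap (fp1 H K)).subgroupOf (H.comap (fp1 H K))
  have hL''mem : ∀ y : ↥(H.comap (fp1 H K)), y ∈ L'' ↔ (y : ↥(fiberProd H K)).1.1 ∈ L :=
    fun y => Iff.rfl
  haveI hL''n : L''.Normal := Subgroup.normal_subgroupOf
  letI : Fintype ↥D := Fintype.ofFinite _
  letI : Fintype ↥L'' := Fintype.ofFinite _
  letI : Fintype ↥(D ⊓ L'') := Fintype.ofFinite _
  -- the character `θ = η × η̄` of `L''`
  let s1 : ↥L'' →* ↥L :=
    ((H.subtype.comp r1).comp L''.subtype).codRestrict L (fun z => (hL''mem z.1).mp z.2)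
  let s2 : ↥L'' →* ↥L :=
    ((H.subtype.comp r2).comp L''.subtype).codRestrict L
      (fun z => hsndL _ ((hL''mem z.1).mp z.2))
  have hs_surj : Function.Surjective (s1.prod s2) := by
    rintro ⟨l₁, l₂⟩
    refine ⟨⟨⟨⟨(l₁.1, l₂.1), ⟨hLH l₂.2, K.mul_mem (hLK l₁.2) (K.inv_mem (hLK l₂.2))⟩⟩,
      hLH l₁.2⟩, l₁.2⟩, ?_⟩
    exact Prod.ext (Subtype.ext rfl) (Subtype.ext rfl)
  have hθirr : IsIrrCharacter ↥L'' (fun z : ↥L'' =>
      extendByZero L η (z : ↥(H.comap (fp1 H K))).1.1.1 *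
        conj (extendByZero L η (z : ↥(H.comap (fp1 H K))).1.1.2)) := by
    have h1 := Cfsg.Agent.S0188.prod_irr hη (isIrrCharacter_conj hη)
    have h2 := isIrrCharacter_comp_surjective (s1.prod s2) hs_surj h1
    have e : (fun z : ↥L'' => extendByZero L η (z : ↥(H.comap (fp1 H K))).1.1.1 *
        conj (extendByZero L η (z : ↥(H.comap (fp1 H K))).1.1.2)) =
        fun k => (fun x : ↥L × ↥L => η x.1 * (fun g => conj (η g)) x.2) ((s1.prod s2) k) := by
      funext z
      have e1 : extendByZero L η (z : ↥(H.comap (fp1 H K))).1.1.1 = η (s1 z) :=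
        extendByZero_of_mem L η (s1 z).2
      have e2 : extendByZero L η (z : ↥(H.comap (fp1 H K))).1.1.2 = η (s2 z) :=
        extendByZero_of_mem L η (s2 z).2
      rw [e1, e2]
      rfl
    rw [e]
    exact h2
  -- `D L'' = Y`
  have hsup' : D ⊔ L'' = ⊤ := by
    rw [eq_top_iff]
    intro y _
    have hgH : (y : ↥(fiberProd H K)).1.1 ∈ H := y.2
    have hhH : (y : ↥(fiberProd H K)).1.2 ∈ H := (y : ↥(fiberProd H K)).2.1
    have hq : (y : ↥(fiberProd H K)).1.1 * ((y : ↥(fiberProd H K)).1.2)⁻¹ ∈ L :=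
      hinf ⟨H.mul_mem hgH (H.inv_mem hhH), (y : ↥(fiberProd H K)).2.2⟩
    let d : ↥(H.comap (fp1 H K)) :=
      ⟨⟨((y : ↥(fiberProd H K)).1.2, (y : ↥(fiberProd H K)).1.2), ⟨hhH, by simp⟩⟩, hhH⟩
    let l : ↥(H.comap (fp1 H K)) :=
      ⟨⟨((y : ↥(fiberProd H K)).1.1 * ((y : ↥(fiberProd H K)).1.2)⁻¹, 1),
        ⟨H.one_mem, by simpa using hLK hq⟩⟩, hLH hq⟩
    have hd : d ∈ D := (hDmem d).mpr rfl
    have hl : l ∈ L'' := (hL''mem l).mpr hq
    have hyld : y = l * d := by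
      apply Subtype.ext
      apply Subtype.ext
      refine Prod.ext ?_ ?_
      · show (y : ↥(fiberProd H K)).1.1 = (y : ↥(fiberProd H K)).1.1 *
          ((y : ↥(fiberProd H K)).1.2)⁻¹ * (y : ↥(fiberProd H K)).1.2
        group
      · show (y : ↥(fiberProd H K)).1.2 = 1 * (y : ↥(fiberProd H K)).1.2
        group
    rw [hyld, sup_comm]
    exact Subgroup.mul_mem_sup hl hd
  -- the sum over the diagonal of `L''`
  have hηsum : ∑ l : L, η l * conj (η l) = (Nat.card L : ℂ) := by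
    have h1 := irr_inner_self ⟨η, hη⟩
    unfold classInner at h1
    have hne : (Nat.card L : ℂ) ≠ 0 := by exact_mod_cast (Nat.card_pos (α := ↥L)).ne'
    rw [inv_mul_eq_iff_eq_mul₀ hne, mul_one] at h1
    exact h1
  let eDL : ↥(D ⊓ L'') ≃ ↥L :=
    { toFun := fun x => ⟨(x : ↥(H.comap (fp1 H K))).1.1.1, (hL''mem x.1).mp x.2.2⟩
      invFun := fun l => ⟨⟨⟨(l.1, l.1), ⟨hLH l.2, by simp⟩⟩, hLH l.2⟩,
        ⟨(hDmem _).mpr rfl, (hL''mem _).mpr l.2⟩⟩
      left_inv := by
        intro x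
        apply Subtype.ext
        apply Subtype.ext
        apply Subtype.ext
        exact Prod.ext rfl ((hDmem x.1).mp x.2.1)
      right_inv := by
        intro l
        exact Subtype.ext rfl }
  have hθD : ∑ x : ↥(D ⊓ L''),
      conj ((fun z : ↥L'' => extendByZero L η (z : ↥(H.comap (fp1 H K))).1.1.1 *
        conj (extendByZero L η (z : ↥(H.comap (fp1 H K))).1.1.2))
        ⟨(x : ↥(H.comap (fp1 H K))), x.2.2⟩) = (Nat.card ↥(D ⊓ L'') : ℂ) := by
    rw [Nat.card_congr eDL, ← hηsum, ← Equiv.sum_comp eDL (fun l : L => η l * conj (η l))]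
    refine Finset.sum_congr rfl fun x _ => ?_
    have hx1 : (x : ↥(H.comap (fp1 H K))).1.1.1 ∈ L := (hL''mem x.1).mp x.2.2
    have hx2 : (x : ↥(H.comap (fp1 H K))).1.1.2 = (x : ↥(H.comap (fp1 H K))).1.1.1 :=
      ((hDmem x.1).mp x.2.1).symm
    show conj (extendByZero L η (x : ↥(H.comap (fp1 H K))).1.1.1 *
        conj (extendByZero L η (x : ↥(H.comap (fp1 H K))).1.1.2)) = η (eDL x) * conj (η (eDL x))
    rw [hx2, extendByZero_of_mem L η hx1, map_mul, Complex.conj_conj, mul_comm]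
    rfl
  -- the character `T`
  have hTeq : (fun y : ↥(H.comap (fp1 H K)) =>
      extendByZero H ϑ (y : ↥(fiberProd H K)).1.1 *
        conj (extendByZero H ϑ (y : ↥(fiberProd H K)).1.2)) =
      (fun y => ϑ (r1 y)) * (fun y => conj (ϑ (r2 y))) := by
    funext y
    have e1 : extendByZero H ϑ (y : ↥(fiberProd H K)).1.1 = ϑ (r1 y) :=
      extendByZero_of_mem H ϑ (r1 y).2
    have e2 : extendByZero H ϑ (y : ↥(fiberProd H K)).1.2 = ϑ (r2 y) :=
      extendByZero_of_mem H ϑ (r2 y).2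
    rw [e1, e2]
    rfl
  have hTch : IsCharacter ↥(H.comap (fp1 H K)) (fun y : ↥(H.comap (fp1 H K)) =>
      extendByZero H ϑ (y : ↥(fiberProd H K)).1.1 *
        conj (extendByZero H ϑ (y : ↥(fiberProd H K)).1.2)) := by
    rw [hTeq]
    exact isCharacter_mul (isCharacter_comp r1 hϑch) (isCharacter_conj (isCharacter_comp r2 hϑch))
  have hTL : ∀ z : ↥L'', (fun y : ↥(H.comap (fp1 H K)) =>
      extendByZero H ϑ (y : ↥(fiberProd H K)).1.1 *
        conj (extendByZero H ϑ (y : ↥(fiberProd H K)).1.2)) z = ((a * a : ℕ) : ℂ) *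
      (extendByZero L η (z : ↥(H.comap (fp1 H K))).1.1.1 *
        conj (extendByZero L η (z : ↥(H.comap (fp1 H K))).1.1.2)) := by
    intro z
    have hz1 : (z : ↥(H.comap (fp1 H K))).1.1.1 ∈ L := (hL''mem z.1).mp z.2
    have hz2 : (z : ↥(H.comap (fp1 H K))).1.1.2 ∈ L := hsndL _ hz1
    show extendByZero H ϑ (z : ↥(H.comap (fp1 H K))).1.1.1 *
        conj (extendByZero H ϑ (z : ↥(H.comap (fp1 H K))).1.1.2) = _
    rw [extendByZero_of_mem H ϑ (hLH hz1), extendByZero_of_mem H ϑ (hLH hz2),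
      extendByZero_of_mem L η hz1, extendByZero_of_mem L η hz2, hϑL _ hz1, hϑL _ hz2, map_mul,
      Complex.conj_natCast]
    push_cast
    ring
  have hTD : classInner (fun x : D => (fun y : ↥(H.comap (fp1 H K)) =>
      extendByZero H ϑ (y : ↥(fiberProd H K)).1.1 *
        conj (extendByZero H ϑ (y : ↥(fiberProd H K)).1.2)) x) (1 : D → ℂ) ≠ 0 := by
    have hψch : IsCharacter ↥D (fun x : D => ϑ ((r1.comp D.subtype) x)) :=
      isCharacter_comp (r1.comp D.subtype) hϑch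
    have e1 : (fun x : D => (fun y : ↥(H.comap (fp1 H K)) =>
        extendByZero H ϑ (y : ↥(fiberProd H K)).1.1 *
          conj (extendByZero H ϑ (y : ↥(fiberProd H K)).1.2)) x) =
        (fun x : D => ϑ ((r1.comp D.subtype) x)) *
          (fun x : D => conj (ϑ ((r1.comp D.subtype) x))) := by
      funext x
      have hx : (x : ↥(H.comap (fp1 H K))).1.1.2 = (x : ↥(H.comap (fp1 H K))).1.1.1 :=
        ((hDmem x.1).mp x.2).symm
      show extendByZero H ϑ (x : ↥(H.comap (fp1 H K))).1.1.1 *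
        conj (extendByZero H ϑ (x : ↥(H.comap (fp1 H K))).1.1.2) = _
      rw [hx]
      have e2 : extendByZero H ϑ (x : ↥(H.comap (fp1 H K))).1.1.1 = ϑ (r1 x.1) :=
        extendByZero_of_mem H ϑ (r1 x.1).2
      rw [e2]
      rfl
    rw [e1, classInner_mul_left_eq]
    have e3 : ((1 : D → ℂ) * fun g : D => conj ((fun x : D => conj (ϑ ((r1.comp D.subtype) x))) g))
        = fun x : D => ϑ ((r1.comp D.subtype) x) := by
      funext x
      simp
    rw [e3]
    have hne0 : (fun x : D => ϑ ((r1.comp D.subtype) x)) ≠ 0 := by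
      intro h0
      have h1 := congrFun h0 1
      simp only [map_one, Pi.zero_apply] at h1
      exact irr_one_ne_zero' hϑ h1
    obtain ⟨k, hk1, hk⟩ := one_le_norm_of_ne_zero hψch hne0
    rw [hk]
    exact_mod_cast (by omega : k ≠ 0)
  obtain ⟨E, hE, hEL, hTE⟩ := exists_irr_extension D L'' hsup' ⟨_, hθirr⟩ hθD hTch (a * a) hTL hTD
  refine ⟨E, hE, fun y hy => ?_, hTE⟩
  exact hEL ⟨y, (hL''mem y).mpr hy⟩

/-- The core of Berger's theorem: if `χ = ϑ^Γ` with `H` maximal, `L` its core and `K/L` a chief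
factor, and `χ|L` is homogeneous, then `χ ∘ fp1` is induced from a proper subgroup of the fiber
product containing `fp1⁻¹(K)`. -/
theorem berger_core (H K L : Subgroup Γ) [hK : K.Normal] [hL : L.Normal]
    [Fintype ↥(fiberProd H K)]
    (hmax : IsCoatom H) (hLH : L ≤ H) (hLK : L ≤ K) (hinf : H ⊓ K ≤ L) (hsup : H ⊔ K = ⊤)
    (hcore : ∀ N : Subgroup Γ, N.Normal → N ≤ H → N ≤ L)
    (hKmin : ∀ N' : Subgroup Γ, N'.Normal → L ≤ N' → N' ≤ K → N' = L ∨ N' = K)
    (hKab : ∀ a ∈ K, ∀ b ∈ K, a * b * a⁻¹ * b⁻¹ ∈ L)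
    (hsolv : Group.IsSolvable (Γ ⧸ L))
    {χ : Γ → ℂ} (hχ : IsIrrCharacter Γ χ)
    (η : L → ℂ) (hη : IsIrrCharacter L η) (f : ℕ) (hχL : (fun l : L => χ l) = (f : ℂ) • η)
    (ϑ : H → ℂ) (hϑ : IsIrrCharacter H ϑ) (hind : indFun H ϑ = χ) :
    ∃ I : Subgroup ↥(fiberProd H K), K.comap (fp1 H K) ≤ I ∧ I ≠ ⊤ ∧
      ∃ ζ : I → ℂ, IsIrrCharacter I ζ ∧ indFun I ζ = fun x => χ (fp1 H K x) := by
  classical
  letI : Fintype ↥H := Fintype.ofFinite _
  letI : Fintype ↥L := Fintype.ofFinite _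
  letI : Fintype ↥(H.comap (fp1 H K)) := Fintype.ofFinite _
  have hsurj := fp1_surjective H K hsup
  have hχch := isCharacter_of_isIrrCharacter hχ
  have hχcf := isClassFunction_of_isCharacter hχch
  have hχ1 : χ 1 ≠ 0 := irr_one_ne_zero' hχ
  have hϑch := isCharacter_of_isIrrCharacter hϑ
  have hηch := isCharacter_of_isIrrCharacter hη
  have hη1 : η 1 ≠ 0 := irr_one_ne_zero' hη
  have hϑ1 : ϑ 1 ≠ 0 := irr_one_ne_zero' hϑ
  have hf0 : (f : ℂ) ≠ 0 := by
    intro h0
    have h1 := congrFun hχL 1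
    rw [h0, zero_smul] at h1
    exact hχ1 h1
  -- `η` is `Γ`-invariant
  have hηinv : ∀ (g : Γ) (x : Γ) (hx : x ∈ L),
      η ⟨g * x * g⁻¹, hL.conj_mem x hx g⟩ = η ⟨x, hx⟩ := by
    intro g x hx
    have h1 : χ x = (f : ℂ) * η ⟨x, hx⟩ := congrFun hχL ⟨x, hx⟩
    have h2 : χ (g * x * g⁻¹) = (f : ℂ) * η ⟨g * x * g⁻¹, hL.conj_mem x hx g⟩ :=
      congrFun hχL ⟨g * x * g⁻¹, hL.conj_mem x hx g⟩
    rw [hχcf x g, h1] at h2
    exact (mul_left_cancel₀ hf0 h2).symm
  have hηh_inv : ∀ (g x : Γ), x ∈ L → extendByZero L η (g⁻¹ * x * g) = extendByZero L η x := by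
    intro g x hx
    have h1 := hηinv g⁻¹ x hx
    have h2 : g⁻¹ * x * g ∈ L := by
      have := hL.conj_mem x hx g⁻¹
      rwa [inv_inv] at this
    rw [extendByZero_of_mem L η h2, extendByZero_of_mem L η hx, ← h1]
    congr 1
    apply Subtype.ext
    simp
  -- `ϑ|L = a η`
  have hϑχ : classInner (fun h : H => χ h) ϑ ≠ 0 := by
    have h2 := frobenius_reciprocity H ϑ χ hχcf
    rw [hind, irr_inner_self ⟨χ, hχ⟩] at h2
    apply classInner_ne_zero_symm
    rw [← h2]
    exact one_ne_zero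
  have hB₀ := isCharacter_sub_irr (isCharacter_restrict H hχch) ⟨ϑ, hϑ⟩ hϑχ
  obtain ⟨a, -, ha⟩ := eq_smul_of_add_eq_smul (ψ := ⟨η, hη⟩)
    (isCharacter_comp (Subgroup.inclusion hLH) hϑch)
    (isCharacter_comp (Subgroup.inclusion hLH) hB₀) f (by
      funext l
      have h1 := congrFun hχL l
      simp only [Pi.smul_apply, smul_eq_mul] at h1
      simp only [Pi.add_apply, Pi.sub_apply, Pi.smul_apply, smul_eq_mul]
      rw [← h1]
      exact add_sub_cancel _ _)
  have hϑL : ∀ (x : Γ) (hx : x ∈ L), ϑ ⟨x, hLH hx⟩ = (a : ℂ) * η ⟨x, hx⟩ := by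
    intro x hx
    have h1 := congrFun ha ⟨x, hx⟩
    simp only [Pi.smul_apply, smul_eq_mul] at h1
    exact h1
  obtain ⟨nη, hnη, -⟩ := Cfsg.Agent.H82.isCharacter_one_nat hηch
  -- coordinates
  have hsndL : ∀ x : ↥(fiberProd H K), x.1.1 ∈ L → x.1.2 ∈ L := by
    intro x hx
    apply hinf
    refine ⟨x.2.1, ?_⟩
    have h1 := K.mul_mem (K.inv_mem x.2.2) (hLK hx)
    have e : (x.1.1 * x.1.2⁻¹)⁻¹ * x.1.1 = x.1.2 := by group
    rwa [e] at h1
  haveI hL'n : (L.comap (fp1 H K)).Normal := inferInstance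
  have hL'H' : L.comap (fp1 H K) ≤ H.comap (fp1 H K) := Subgroup.comap_mono hLH
  -- the extension `E`
  obtain ⟨E, hE, hEL, hTE⟩ := fp_exists_extension H K L hLH hLK hinf η hη ϑ hϑ a hϑL
  have hEch := isCharacter_of_isIrrCharacter hE
  have hEval : ∀ (w : ↥(fiberProd H K)) (hw : w ∈ L.comap (fp1 H K)),
      E ⟨w, hL'H' hw⟩ = extendByZero L η w.1.1 * conj (extendByZero L η w.1.2) :=
    fun w hw => hEL ⟨w, hL'H' hw⟩ hw
  have hΨch : IsCharacter ↥(fiberProd H K) (indFun (H.comap (fp1 H K)) E) :=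
    isCharacter_indFun _ E hEch
  -- values of the induced character on `fp1⁻¹(L)`
  have hind_val : ∀ (y : ↥(fiberProd H K)), y ∈ L.comap (fp1 H K) →
      indFun (H.comap (fp1 H K)) E y = ((H.comap (fp1 H K)).index : ℂ) *
        (extendByZero L η y.1.1 * conj (extendByZero L η y.1.2)) := by
    intro y hy
    rw [indFun_apply]
    have hterm : ∀ x : ↥(fiberProd H K), extendByZero (H.comap (fp1 H K)) E (x⁻¹ * y * x) =
        extendByZero L η y.1.1 * conj (extendByZero L η y.1.2) := by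
      intro x
      have hw : x⁻¹ * y * x ∈ L.comap (fp1 H K) := by
        have := hL'n.conj_mem y hy x⁻¹
        rwa [inv_inv] at this
      rw [extendByZero_of_mem _ E (hL'H' hw), hEval _ hw]
      have e1 : (x⁻¹ * y * x).1.1 = x.1.1⁻¹ * y.1.1 * x.1.1 := rfl
      have e2 : (x⁻¹ * y * x).1.2 = x.1.2⁻¹ * y.1.2 * x.1.2 := rfl
      rw [e1, e2, hηh_inv x.1.1 y.1.1 hy, hηh_inv x.1.2 y.1.2 (hsndL y hy)]
    simp_rw [hterm]
    rw [Finset.sum_const, Finset.card_univ, nsmul_eq_mul, ← Nat.card_eq_fintype_card,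
      ← Subgroup.card_mul_index (H.comap (fp1 H K))]
    have hne : (Nat.card ↥(H.comap (fp1 H K)) : ℂ) ≠ 0 := by
      exact_mod_cast (Nat.card_pos (α := ↥(H.comap (fp1 H K)))).ne'
    push_cast
    field_simp
  -- the kernel `A` of `fp1` and its character `μ = η̄`
  have hAL' : (fp1 H K).ker ≤ L.comap (fp1 H K) := by
    intro x hx
    rw [Subgroup.mem_comap, MonoidHom.mem_ker.mp hx]
    exact L.one_mem
  let t : ↥(fp1 H K).ker →* ↥L :=
    ((H.subtype.comp (fp2 H K)).comp (fp1 H K).ker.subtype).codRestrict L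
      (fun y => hsndL y.1 (hAL' y.2))
  have ht_surj : Function.Surjective t := by
    intro l
    refine ⟨⟨⟨(1, l.1), ⟨hLH l.2, by simpa using K.inv_mem (hLK l.2)⟩⟩, ?_⟩, ?_⟩
    · exact MonoidHom.mem_ker.mpr rfl
    · exact Subtype.ext rfl
  have hμirr : IsIrrCharacter ↥(fp1 H K).ker
      (fun y : ↥(fp1 H K).ker => conj (extendByZero L η (y : ↥(fiberProd H K)).1.2)) := by
    have h1 := isIrrCharacter_conj (isIrrCharacter_comp_surjective t ht_surj hη)
    have e : (fun y : ↥(fp1 H K).ker => conj (extendByZero L η (y : ↥(fiberProd H K)).1.2)) =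
        fun g => conj ((fun k => η (t k)) g) := by
      funext y
      have e1 : extendByZero L η (y : ↥(fiberProd H K)).1.2 = η (t y) :=
        extendByZero_of_mem L η (t y).2
      rw [e1]
    rw [e]
    exact h1
  have hχ₁ : IsIrrCharacter ↥(fiberProd H K) (fun x => χ (fp1 H K x)) :=
    isIrrCharacter_comp_surjective (fp1 H K) hsurj hχ
  have hχ₁cf := isClassFunction_of_isCharacter (isCharacter_of_isIrrCharacter hχ₁)
  have hΘ : IsCharacter ↥(fiberProd H K) (fun x => ϑ (fp2 H K x)) :=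
    isCharacter_comp (fp2 H K) hϑch
  have hΘcf := isClassFunction_of_isCharacter hΘ
  have hχ₁A : ∀ y : ↥(fp1 H K).ker, (fun x => χ (fp1 H K x)) (y : ↥(fiberProd H K)) =
      (fun x => χ (fp1 H K x)) 1 := by
    intro y
    show χ (fp1 H K y) = χ (fp1 H K 1)
    rw [MonoidHom.mem_ker.mp y.2, map_one]
  have hΘA : ∀ y : ↥(fp1 H K).ker, (fun x => ϑ (fp2 H K x)) (y : ↥(fiberProd H K)) = (a : ℂ) *
      conj ((⟨_, hμirr⟩ : IrrCharacter ↥(fp1 H K).ker).1 y) := by
    intro y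
    have hy2 : (y : ↥(fiberProd H K)).1.2 ∈ L := hsndL y.1 (hAL' y.2)
    show ϑ (fp2 H K y) = (a : ℂ) * conj (conj (extendByZero L η (y : ↥(fiberProd H K)).1.2))
    rw [Complex.conj_conj, extendByZero_of_mem L η hy2, ← hϑL _ hy2]
    rfl
  have hΨA : ∀ y : ↥(fp1 H K).ker, indFun (H.comap (fp1 H K)) E (y : ↥(fiberProd H K)) =
      (((H.comap (fp1 H K)).index * nη : ℕ) : ℂ) *
        (⟨_, hμirr⟩ : IrrCharacter ↥(fp1 H K).ker).1 y := by
    intro y
    rw [hind_val _ (hAL' y.2)]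
    have hy1 : (y : ↥(fiberProd H K)).1.1 = 1 := MonoidHom.mem_ker.mp y.2
    have e1 : extendByZero L η (y : ↥(fiberProd H K)).1.1 = (nη : ℂ) := by
      rw [hy1, extendByZero_of_mem L η L.one_mem, ← hnη]
      rfl
    rw [e1]
    push_cast
    ring
  have hidx : (H.comap (fp1 H K)).index = H.index :=
    Subgroup.index_comap_of_surjective H hsurj
  have hdeg : (fun x => χ (fp1 H K x)) 1 =
      (((H.comap (fp1 H K)).index * nη : ℕ) : ℂ) * a := by
    show χ (fp1 H K 1) = _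
    rw [map_one, ← hind, Cfsg.Agent.H82.indFun_one, hidx]
    have h1 := hϑL 1 L.one_mem
    have h2 : ϑ 1 = (a : ℂ) * η 1 := h1
    rw [h2, hnη]
    push_cast
    ring
  -- the two coordinate homomorphisms on `fp1⁻¹(H)`
  let r1 : ↥(H.comap (fp1 H K)) →* ↥H :=
    ((fp1 H K).comp (Subgroup.subtype _)).codRestrict H (fun y => y.2)
  let r2 : ↥(H.comap (fp1 H K)) →* ↥H := (fp2 H K).comp (Subgroup.subtype _)
  have hne : classInner (indFun (H.comap (fp1 H K)) E * fun x => ϑ (fp2 H K x))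
      (fun x => χ (fp1 H K x)) ≠ 0 := by
    rw [← indFun_mul_res (H.comap (fp1 H K)) E hΘcf, frobenius_reciprocity _ _ _ hχ₁cf]
    have e1 : (fun y : ↥(H.comap (fp1 H K)) => χ (fp1 H K y)) =
        (fun y => ϑ (r1 y)) + (fun y => ((fun h : H => χ h) - ϑ) (r1 y)) := by
      funext y
      simp only [Pi.add_apply, Pi.sub_apply]
      rw [add_sub_cancel]
      rfl
    have hT : IsCharacter ↥(H.comap (fp1 H K)) (fun y : ↥(H.comap (fp1 H K)) =>
        extendByZero H ϑ (y : ↥(fiberProd H K)).1.1 *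
          conj (extendByZero H ϑ (y : ↥(fiberProd H K)).1.2)) := by
      have e : (fun y : ↥(H.comap (fp1 H K)) =>
          extendByZero H ϑ (y : ↥(fiberProd H K)).1.1 *
            conj (extendByZero H ϑ (y : ↥(fiberProd H K)).1.2)) =
          (fun y => ϑ (r1 y)) * (fun y => conj (ϑ (r2 y))) := by
        funext y
        have e1 : extendByZero H ϑ (y : ↥(fiberProd H K)).1.1 = ϑ (r1 y) :=
          extendByZero_of_mem H ϑ (r1 y).2
        have e2 : extendByZero H ϑ (y : ↥(fiberProd H K)).1.2 = ϑ (r2 y) :=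
          extendByZero_of_mem H ϑ (r2 y).2
        rw [e1, e2]
        rfl
      rw [e]
      exact isCharacter_mul (isCharacter_comp r1 hϑch)
        (isCharacter_conj (isCharacter_comp r2 hϑch))
    have e2 : classInner (E * fun y : ↥(H.comap (fp1 H K)) => ϑ (fp2 H K y))
        (fun y => ϑ (r1 y)) = classInner E (fun y : ↥(H.comap (fp1 H K)) =>
        extendByZero H ϑ (y : ↥(fiberProd H K)).1.1 *
          conj (extendByZero H ϑ (y : ↥(fiberProd H K)).1.2)) := by
      rw [classInner_mul_left_eq]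
      congr 1
      funext y
      have e3 : extendByZero H ϑ (y : ↥(fiberProd H K)).1.1 = ϑ (r1 y) :=
        extendByZero_of_mem H ϑ (r1 y).2
      have e4 : extendByZero H ϑ (y : ↥(fiberProd H K)).1.2 = ϑ (r2 y) :=
        extendByZero_of_mem H ϑ (r2 y).2
      rw [e3, e4]
      rfl
    obtain ⟨n₁, hn₁⟩ := classInner_isCharacter_nat hEch hT
    obtain ⟨n₂, hn₂⟩ := classInner_isCharacter_nat
      (isCharacter_mul hEch (isCharacter_restrict (H.comap (fp1 H K)) hΘ))
      (isCharacter_comp r1 hB₀)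
    have hn₁0 : n₁ ≠ 0 := by
      rintro rfl
      exact classInner_ne_zero_symm hTE (by rw [hn₁]; simp)
    rw [e1, classInner_add_right, e2, hn₁]
    have e5 : classInner (E * fun y : ↥(H.comap (fp1 H K)) => ϑ (fp2 H K y))
        (fun y => ((fun h : H => χ h) - ϑ) (r1 y)) = n₂ := hn₂
    rw [e5]
    exact_mod_cast (by omega : n₁ + n₂ ≠ 0)
  have hΨirr : IsIrrCharacter ↥(fiberProd H K) (indFun (H.comap (fp1 H K)) E) :=
    isIrrCharacter_of_mul_contains (fp1 H K).ker ⟨_, hμirr⟩ hχ₁ hχ₁A hΘ a hΘA hΨch _ hΨA hne hdeg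
  -- the restriction of `E` to `fp1⁻¹(L)` is irreducible
  have hs_surj : Function.Surjective
      ((((fp1 H K).comp (L.comap (fp1 H K)).subtype).codRestrict L (fun y => y.2)).prod
        (((H.subtype.comp (fp2 H K)).comp (L.comap (fp1 H K)).subtype).codRestrict L
          (fun y => hsndL y.1 y.2))) := by
    rintro ⟨l₁, l₂⟩
    refine ⟨⟨⟨(l₁.1, l₂.1), ⟨hLH l₂.2, K.mul_mem (hLK l₁.2) (K.inv_mem (hLK l₂.2))⟩⟩, l₁.2⟩, ?_⟩
    exact Prod.ext (Subtype.ext rfl) (Subtype.ext rfl)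
  have hEL' : IsIrrCharacter ↥(L.comap (fp1 H K))
      (fun x : ↥(L.comap (fp1 H K)) => E ⟨(x : ↥(fiberProd H K)), hL'H' x.2⟩) := by
    have h1 := Cfsg.Agent.S0188.prod_irr hη (isIrrCharacter_conj hη)
    have h2 := isIrrCharacter_comp_surjective _ hs_surj h1
    have e : (fun x : ↥(L.comap (fp1 H K)) => E ⟨(x : ↥(fiberProd H K)), hL'H' x.2⟩) =
        fun k => (fun x : ↥L × ↥L => η x.1 * (fun g => conj (η g)) x.2)
          (((((fp1 H K).comp (L.comap (fp1 H K)).subtype).codRestrict L (fun y => y.2)).prod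
            (((H.subtype.comp (fp2 H K)).comp (L.comap (fp1 H K)).subtype).codRestrict L
              (fun y => hsndL y.1 y.2))) k) := by
      funext x
      have hx1 : (x : ↥(fiberProd H K)).1.1 ∈ L := x.2
      have hx2 : (x : ↥(fiberProd H K)).1.2 ∈ L := hsndL x.1 x.2
      rw [hEval x.1 x.2, extendByZero_of_mem L η hx1, extendByZero_of_mem L η hx2]
      rfl
    rw [e]
    exact h2
  -- apply the theorem on characters induced from maximal subgroups
  obtain ⟨M₀, hMn, hL'M, hnot⟩ := not_quasiprimitive_of_induced (L.comap (fp1 H K))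
    (H.comap (fp1 H K)) hL'H' (isCoatom_comap (fp1 H K) hsurj hmax)
    (solvable_quotient_comap (fp1 H K) L hsolv) E hE hEL' hΨirr
  haveI := hMn
  have hkerM : (fp1 H K).ker ≤ M₀ := le_trans hAL' hL'M
  obtain ⟨M, hMdef⟩ : ∃ M : Subgroup Γ, M = M₀.map (fp1 H K) := ⟨_, rfl⟩
  haveI hMnΓ : M.Normal := by
    rw [hMdef]
    exact Subgroup.Normal.map hMn _ hsurj
  have hcm : M.comap (fp1 H K) = M₀ := by
    rw [hMdef]
    exact Subgroup.comap_map_eq_self hkerM
  have hLM : L ≤ M := by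
    rw [hMdef, ← Subgroup.map_comap_eq_self_of_surjective hsurj L]
    exact Subgroup.map_mono hL'M
  have hKM : K ≤ M := by
    by_contra hKM
    have h1 : M ⊓ K = L := by
      rcases hKmin (M ⊓ K) inferInstance (le_inf hLM hLK) inf_le_right with h | h
      · exact h
      · exact absurd (h ▸ inf_le_left : K ≤ M) hKM
    haveI hMKn : (M ⊔ K).Normal := inferInstance
    have h2 : H ⊓ (M ⊔ K) ≤ L := by
      apply hcore _ _ inf_le_left
      constructor
      intro y hy g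
      obtain ⟨k, hk, h, hh, rfl⟩ := exists_mul_of_sup_eq_top H K hsup g
      have hy' : h * y * h⁻¹ ∈ H ⊓ (M ⊔ K) :=
        ⟨H.mul_mem (H.mul_mem hh hy.1) (H.inv_mem hh), hMKn.conj_mem y hy.2 h⟩
      have h3 : k * (h * y * h⁻¹) * k⁻¹ * (h * y * h⁻¹)⁻¹ ∈ L := by
        have hy'' : h * y * h⁻¹ ∈ M ⊔ K := hy'.2
        rw [← SetLike.mem_coe, Subgroup.normal_mul, Set.mem_mul] at hy''
        obtain ⟨m, hm, k', hk', hmk⟩ := hy''
        rw [← hmk]
        have e : k * (m * k') * k⁻¹ * (m * k')⁻¹ =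
            (k * m * k⁻¹ * m⁻¹) * (m * (k * k' * k⁻¹ * k'⁻¹) * m⁻¹) := by group
        rw [e]
        refine L.mul_mem ?_ (hL.conj_mem _ (hKab k hk k' hk') m)
        rw [← h1]
        refine ⟨M.mul_mem (hMnΓ.conj_mem m hm k) (M.inv_mem hm), ?_⟩
        have e' : k * m * k⁻¹ * m⁻¹ = k * (m * k⁻¹ * m⁻¹) := by group
        rw [e']
        exact K.mul_mem hk (hK.conj_mem _ (K.inv_mem hk) m)
      have e2 : k * h * y * (k * h)⁻¹ =
          (k * (h * y * h⁻¹) * k⁻¹ * (h * y * h⁻¹)⁻¹) * (h * y * h⁻¹) := by group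
      rw [e2]
      exact (H ⊓ (M ⊔ K)).mul_mem ⟨hLH h3, (le_sup_right : K ≤ M ⊔ K) (hLK h3)⟩ hy'
    have h4 : M ⊔ K ≤ K := le_of_inf_le H L K (M ⊔ K) hsup hLK le_sup_right h2
    have h5 : M ≤ L := by
      rw [← h1]
      exact le_inf le_rfl (le_trans le_sup_left h4)
    have h6 : M₀ = L.comap (fp1 H K) :=
      le_antisymm (by rw [← hcm]; exact Subgroup.comap_mono h5) hL'M
    subst h6
    apply hnot
    refine ⟨fun x => E ⟨(x : ↥(fiberProd H K)), hL'H' x.2⟩, (H.comap (fp1 H K)).index, hEL', ?_⟩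
    funext y
    rw [hind_val y.1 y.2, Pi.smul_apply, smul_eq_mul, hEval y.1 y.2]
  have hN₀M : K.comap (fp1 H K) ≤ M₀ := by
    rw [← hcm]
    exact Subgroup.comap_mono hKM
  -- Clifford correspondence for the induced character and `M₀`
  letI : Fintype ↥M₀ := Fintype.ofFinite _
  have hresM : IsCharacter ↥M₀ (fun x : M₀ => indFun (H.comap (fp1 H K)) E x) :=
    isCharacter_restrict M₀ hΨch
  have hres0 : (fun x : M₀ => indFun (H.comap (fp1 H K)) E x) ≠ 0 := by
    intro h0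
    have h1 := congrFun h0 1
    exact irr_one_ne_zero' hΨirr h1
  obtain ⟨k, hk1, hk⟩ := one_le_norm_of_ne_zero hresM hres0
  have hnz : classInner (fun x : M₀ => indFun (H.comap (fp1 H K)) E x)
      (fun x : M₀ => indFun (H.comap (fp1 H K)) E x) ≠ 0 := by
    rw [hk]
    exact_mod_cast (by omega : k ≠ 0)
  obtain ⟨θM, hθM1, -⟩ := exists_irr_constituent_inner hresM _ hnz
  have hI : M₀ ≤ Clifford.inertia M₀ θM.1 := Clifford.le_inertia M₀ (irr_isClassFunction θM)
  letI : Fintype ↥(Clifford.inertia M₀ θM.1) := Fintype.ofFinite _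
  obtain ⟨Λ₀, hΛ₀, hΛind, -⟩ := clifford_corr_surj θM.2 hI rfl hΨirr hθM1
  have hIne : Clifford.inertia M₀ θM.1 ≠ ⊤ := by
    intro htop
    apply hnot
    have hres := clifford_res M₀ hΨirr θM.2 hθM1
    have hset : {ψ : M₀ → ℂ | ∃ g : ↥(fiberProd H K), ψ = conjChar M₀ θM.1 g} = {θM.1} := by
      ext ψ
      constructor
      · rintro ⟨g, rfl⟩
        have hg : g ∈ Clifford.inertia M₀ θM.1 := by
          rw [htop]
          exact Subgroup.mem_top g
        exact (Clifford.mem_inertia M₀).mp hg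
      · intro hψ
        rw [Set.mem_singleton_iff] at hψ
        rw [hψ]
        exact ⟨1, (conjChar_one M₀ θM.1).symm⟩
    rw [hset, finsum_mem_singleton] at hres
    obtain ⟨e, he⟩ := classInner_isCharacter_nat hresM (isCharacter_of_isIrrCharacter θM.2)
    rw [he] at hres
    exact ⟨θM.1, e, θM.2, hres⟩
  have hAI : (fp1 H K).ker ≤ Clifford.inertia M₀ θM.1 := le_trans hkerM hI
  obtain ⟨ζ₀, hζ₀, hζind⟩ := exists_indFun_eq_of_mul_contains (fp1 H K).ker ⟨_, hμirr⟩ hχ₁ hχ₁A hΘ a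
    hΘA _ (Clifford.inertia M₀ θM.1) hAI Λ₀ hΛ₀ (by rw [hΛind]; exact hΨirr)
    (by rw [hΛind]; exact hΨA) (by rw [hΛind]; exact hne) hdeg
  exact ⟨Clifford.inertia M₀ θM.1, le_trans hN₀M hI, hIne, ζ₀, hζ₀, hζind⟩

end Core

end Cfsg.Agent.Lib.Helper96
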