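import Mathlib
import Cfsg.Agent.Lib.Helper96.Berger4

/-!
# Berger's theorem (helper96)

`berger_main`: a quasi-primitive irreducible character of a finite solvable group is not induced
from a proper subgroup.  More generally (`berger_aux`), if `G/N` is solvable then a quasi-primitive
irreducible character of `G` is not induced from a proper subgroup containing `N`; the proof is by
induction on `|G : N|`, passing from `G` to the fiber product of `berger_core`.
-/

set_option autoImplicit false
set_option linter.style.haveILetI false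
set_option linter.unusedSectionVars false
open Cfsg
open scoped ComplexConjugate

namespace Cfsg.Agent.Lib.Helper96

open Cfsg.Agent Cfsg.Agent.H4 Cfsg.Agent.Clifford

universe u

/-- Berger's theorem relative to a normal subgroup with solvable quotient, by induction on the
index. -/
theorem berger_aux (n : ℕ) : ∀ (G : Type u) [Group G] [Fintype G] (N : Subgroup G) [N.Normal],
    N.index ≤ n → Group.IsSolvable (G ⧸ N) → ∀ (χ : G → ℂ), IsIrrCharacter G χ →
    (∀ M : Subgroup G, M.Normal → ∃ (φ : M → ℂ) (e : ℕ), IsIrrCharacter M φ ∧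
      (fun m : M => χ m) = (e : ℂ) • φ) →
    ∀ (H₀ : Subgroup G), N ≤ H₀ → H₀ ≠ ⊤ → ∀ (ψ : H₀ → ℂ), IsIrrCharacter H₀ ψ →
      indFun H₀ ψ ≠ χ := by
  induction n with
  | zero =>
    intro G _ _ N _ hidx
    have := Subgroup.index_ne_zero_of_finite (H := N)
    omega
  | succ n ih =>
    intro G _ _ N hNn hidx hsolv χ hχ hqp H₀ hNH₀ hH₀top ψ hψ hind
    classical
    obtain ⟨H, hmax, hH₀H⟩ := (eq_top_or_exists_le_coatom H₀).resolve_left hH₀top
    letI : Fintype ↥H := Fintype.ofFinite _
    -- `ϑ = ψ^H`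
    obtain ⟨ϑ, hϑ, hϑind⟩ : ∃ ϑ : H → ℂ, IsIrrCharacter H ϑ ∧ indFun H ϑ = χ := by
      have hψ' : IsCharacter ↥(H₀.subgroupOf H)
          (fun x => ψ ⟨((x : H) : G), Subgroup.mem_subgroupOf.mp x.2⟩) :=
        isCharacter_comp (Subgroup.subgroupOfEquivOfLe hH₀H).toMonoidHom
          (isCharacter_of_isIrrCharacter hψ)
      have htrans := indFun_trans H₀ H hH₀H ψ
      have hch := isCharacter_indFun (H₀.subgroupOf H) _ hψ'
      have hi : indFun H (indFun (H₀.subgroupOf H)
          (fun x => ψ ⟨((x : H) : G), Subgroup.mem_subgroupOf.mp x.2⟩)) = χ := by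
        rw [htrans, hind]
      exact ⟨_, isIrrCharacter_of_indFun_irr H hch (by rw [hi]; exact hχ), hi⟩
    -- the core and a chief factor
    obtain ⟨L, hLdef⟩ : ∃ L : Subgroup G, L = H.normalCore := ⟨_, rfl⟩
    haveI hLn : L.Normal := by
      rw [hLdef]
      infer_instance
    have hLH : L ≤ H := by
      rw [hLdef]
      exact Subgroup.normalCore_le H
    have hcore : ∀ N' : Subgroup G, N'.Normal → N' ≤ H → N' ≤ L := fun N' hN' h => by
      haveI := hN'
      rw [hLdef]
      exact Subgroup.normal_le_normalCore.mpr h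
    have hNL : N ≤ L := hcore N hNn (hNH₀.trans hH₀H)
    have hLtop : L ≠ ⊤ := fun h => hmax.1 (top_le_iff.mp (h ▸ hLH))
    have hsL : Group.IsSolvable (G ⧸ L) := solvable_quotient_of_le N L hNL hsolv
    obtain ⟨K, hKn, hLK, hKne, hKmin, hKab, p, k, hp, hKidx⟩ := chief_step L hLtop hsL
    haveI := hKn
    have hKH : ¬ K ≤ H := fun h => hKne (le_antisymm (hcore K hKn h) hLK)
    have hsup : H ⊔ K = ⊤ :=
      hmax.2 _ (lt_of_le_of_ne le_sup_left (fun h => hKH (h ▸ le_sup_right)))
    have hinf : H ⊓ K ≤ L := by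
      apply hcore _ _ inf_le_left
      constructor
      intro y hy g
      obtain ⟨k', hk', h, hh, rfl⟩ := exists_mul_of_sup_eq_top H K hsup g
      have hy' : h * y * h⁻¹ ∈ H ⊓ K :=
        ⟨H.mul_mem (H.mul_mem hh hy.1) (H.inv_mem hh), hKn.conj_mem y hy.2 h⟩
      have h1 := hKab k' hk' (h * y * h⁻¹) hy'.2
      have h2 : k' * h * y * (k' * h)⁻¹ =
          (k' * (h * y * h⁻¹) * k'⁻¹ * (h * y * h⁻¹)⁻¹) * (h * y * h⁻¹) := by group
      rw [h2]
      exact (H ⊓ K).mul_mem ⟨hLH h1, hLK h1⟩ hy'
    obtain ⟨η, f, hη, hχL⟩ := hqp L hLn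
    letI : Fintype ↥(fiberProd H K) := Fintype.ofFinite _
    obtain ⟨I, hN₀I, hItop, ζ, hζ, hζind⟩ := berger_core H K L hmax hLH hLK hinf hsup hcore hKmin
      hKab hsL hχ η hη f hχL ϑ hϑ hϑind
    have hsurj := fp1_surjective H K hsup
    haveI : (K.comap (fp1 H K)).Normal := inferInstance
    have hidx' : (K.comap (fp1 H K)).index ≤ n := by
      rw [Subgroup.index_comap_of_surjective K hsurj]
      have h1 : L.relIndex K * K.index = L.index := Subgroup.relIndex_mul_index hLK
      have h2 : L.relIndex K ≠ 1 := by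
        intro h
        exact hKne (le_antisymm (Subgroup.relIndex_eq_one.mp h) hLK)
      have h3 : L.relIndex K ≠ 0 := by
        rw [hKidx]
        exact pow_ne_zero _ hp.ne_zero
      have h4 : K.index ≠ 0 := Subgroup.index_ne_zero_of_finite
      have h5 : L.index ≤ N.index :=
        Nat.le_of_dvd (Nat.pos_of_ne_zero Subgroup.index_ne_zero_of_finite)
          (Subgroup.index_dvd_of_le hNL)
      have h6 : 2 * K.index ≤ L.relIndex K * K.index :=
        Nat.mul_le_mul_right _ (by omega)
      omega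
    exact ih ↥(fiberProd H K) (K.comap (fp1 H K)) hidx'
      (solvable_quotient_comap (fp1 H K) K (solvable_quotient_of_le N K (hNL.trans hLK) hsolv))
      (fun x => χ (fp1 H K x)) (isIrrCharacter_comp_surjective (fp1 H K) hsurj hχ)
      (quasiprimitive_comp (fp1 H K) hsurj hqp) I hN₀I hItop ζ hζ hζind

/-- **Berger's theorem**: a quasi-primitive irreducible character of a finite solvable group is
not induced from a character of a proper subgroup. -/
theorem berger_main {G : Type u} [Group G] [Fintype G] [hG : Group.IsSolvable G] (χ : G → ℂ)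
    (hχ : IsIrrCharacter G χ)
    (hqp : ∀ N : Subgroup G, N.Normal → ∃ (ϑ : N → ℂ) (e : ℕ), IsIrrCharacter N ϑ ∧
      (fun n : N => χ n) = (e : ℂ) • ϑ)
    (K : Subgroup G) (hK : K ≠ ⊤) (ψ : K → ℂ) (hψ : IsCharacter K ψ) : indFun K ψ ≠ χ := by
  intro hind
  have hψirr : IsIrrCharacter K ψ := isIrrCharacter_of_indFun_irr K hψ (by rw [hind]; exact hχ)
  have hs : Group.IsSolvable (G ⧸ (⊥ : Subgroup G)) :=
    Group.isSolvable_of_surjective (f := QuotientGroup.mk' (⊥ : Subgroup G))
      (QuotientGroup.mk'_surjective _)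
  exact berger_aux (⊥ : Subgroup G).index G ⊥ le_rfl hs χ hχ hqp K bot_le hK ψ hψirr hind

end Cfsg.Agent.Lib.Helper96
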