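import Mathlib
import Cfsg.Agent.H93.ConwayDefs

set_option autoImplicit false

/-! S0406 piece C-COORD: the image of the lattice under the frame coordinates satisfies `IsCFL`. -/

namespace Cfsg.Agent.Lib.Helper96.Conway

open Matrix Cfsg.Agent.H93.Conway

theorem coord : Cfsg.Agent.H93.Conway.StmtCoord := by
  intro hP B hB hcount E hE hcong
  have hmem : ∀ y : Fin 24 → ℤ, y ∈ (E * B).mulVecLin.toAddMonoidHom.range ↔
      ∃ a : Fin 24 → ℤ, (E * B) *ᵥ a = y := fun y => Iff.rfl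
  have hF1 : ∀ i, (E * B) *ᵥ (E i) = Pi.single i 8 := by
    intro i
    funext k
    have h := congrFun (congrFun hE k) i
    rw [Matrix.mul_apply] at h
    simp only [Matrix.transpose_apply, Matrix.smul_apply, Matrix.one_apply, smul_eq_mul] at h
    have e : ((E * B) *ᵥ (E i)) k = ∑ j, (E * B) k j * E i j := rfl
    rw [e, h, Pi.single_apply]
    split_ifs <;> simp
  have hF2 : ∀ i j w, E i - E j = (2 : ℤ) • w →
      (E * B) *ᵥ w = Pi.single i 4 - Pi.single j 4 := by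
    intro i j w hw
    have h1 : (E * B) *ᵥ ((2 : ℤ) • w) = Pi.single i 8 - Pi.single j 8 := by
      rw [← hw, Matrix.mulVec_sub, hF1, hF1]
    rw [Matrix.mulVec_smul] at h1
    funext k
    have h2 := congrFun h1 k
    simp only [Pi.smul_apply, Pi.sub_apply, Pi.single_apply, smul_eq_mul] at h2 ⊢
    split_ifs at h2 ⊢ <;> omega
  have key : ∀ (a : Fin 24 → ℤ) (i : Fin 24), ((E * B) *ᵥ a) i = E i ⬝ᵥ (B *ᵥ a) := by
    intro a i
    rw [← Matrix.mulVec_mulVec]
    rfl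
  have hsq : ∀ a : Fin 24 → ℤ, ∑ i, ((E * B) *ᵥ a) i ^ 2 = 8 * (a ⬝ᵥ (B *ᵥ a)) := by
    intro a
    rw [← hP B E hB.1 hE a a]
    exact Finset.sum_congr rfl fun i _ => pow_two _
  have hinj : Function.Injective (fun a : Fin 24 → ℤ => (E * B) *ᵥ a) := by
    intro a a' haa
    have haa' : (E * B) *ᵥ a = (E * B) *ᵥ a' := haa
    have h0 : (E * B) *ᵥ (a - a') = 0 := by
      rw [Matrix.mulVec_sub]; exact sub_eq_zero.mpr haa'
    have h1 := hsq (a - a')
    rw [h0] at h1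
    simp only [Pi.zero_apply, ne_eq, OfNat.ofNat_ne_zero, not_false_eq_true, zero_pow,
      Finset.sum_const_zero] at h1
    by_contra hne
    have h2 := hB.2.1 (a - a') (sub_ne_zero.mpr hne)
    omega
  refine ⟨?_, ?_, ?_, ?_, ?_, ?_, ?_⟩
  · intro i
    exact (hmem _).mpr ⟨E i, hF1 i⟩
  · intro i j hij
    obtain ⟨w, hw⟩ := hcong i j
    constructor
    · refine (hmem _).mpr ⟨w + E j, ?_⟩
      rw [Matrix.mulVec_add, hF2 i j w hw, hF1]
      funext k
      simp only [Pi.add_apply, Pi.sub_apply, Pi.single_apply]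
      split_ifs <;> omega
    · exact (hmem _).mpr ⟨w, hF2 i j w hw⟩
  · intro x hx i j
    obtain ⟨a, rfl⟩ := (hmem x).mp hx
    obtain ⟨w, hw⟩ := hcong i j
    rw [key, key, ← sub_dotProduct, hw, smul_dotProduct, smul_eq_mul]
    exact Dvd.intro _ rfl
  · intro x hx y hy
    obtain ⟨a, rfl⟩ := (hmem x).mp hx
    obtain ⟨b, rfl⟩ := (hmem y).mp hy
    rw [hP B E hB.1 hE a b]
    exact Dvd.intro _ rfl
  · intro x hx
    obtain ⟨a, rfl⟩ := (hmem x).mp hx
    rw [hsq a]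
    obtain ⟨k, hk⟩ := hB.2.2.1 a
    rw [hk]
    exact ⟨k, by ring⟩
  · intro x hx hx0
    obtain ⟨a, rfl⟩ := (hmem x).mp hx
    have ha0 : a ≠ 0 := by
      rintro rfl
      exact hx0 (Matrix.mulVec_zero _)
    rw [hsq a]
    have h1 := hB.2.1 a ha0
    obtain ⟨k, hk⟩ := hB.2.2.1 a
    have h2 := hB.2.2.2 a
    omega
  · have himg : {x : Fin 24 → ℤ | x ∈ (E * B).mulVecLin.toAddMonoidHom.range ∧
        ∑ i, x i ^ 2 = 32} =
        (fun a : Fin 24 → ℤ => (E * B) *ᵥ a) '' {a : Fin 24 → ℤ | a ⬝ᵥ (B *ᵥ a) = 4} := by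
      ext x
      constructor
      · rintro ⟨hx, hx32⟩
        obtain ⟨a, rfl⟩ := (hmem x).mp hx
        refine ⟨a, ?_, rfl⟩
        have h1 := hsq a
        show a ⬝ᵥ (B *ᵥ a) = 4
        omega
      · rintro ⟨a, ha, rfl⟩
        have ha' : a ⬝ᵥ (B *ᵥ a) = 4 := ha
        refine ⟨(hmem _).mpr ⟨a, rfl⟩, ?_⟩
        show ∑ i, ((E * B) *ᵥ a) i ^ 2 = 32
        rw [hsq a, ha']
        rfl
    rw [himg, Set.ncard_image_of_injective _ hinj, hcount]

example : Cfsg.Agent.H93.Conway.StmtCoord := coord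

end Cfsg.Agent.Lib.Helper96.Conway
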