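import Mathlib
import Cfsg.Prelude.Def_Characters
import Cfsg.Agent.H4.Chars
import Cfsg.Agent.H4.Induction
import Cfsg.Agent.Lib.Clifford

/-!
# Dade's detection theorem (helper96)

* `exists_fixed_of_sum_not_dvd` : a weighted fixed-point congruence for a finite group acting
  through a quotient of prime-power order.
* `irrAct` : the conjugation action of `E` on the irreducible characters of `E ⊓ N`.
-/

set_option autoImplicit false
set_option linter.unusedSectionVars false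
set_option linter.style.haveILetI false

namespace Cfsg.Agent.Lib.Helper96

open Cfsg Cfsg.Agent Cfsg.Agent.H4
open scoped ComplexConjugate

universe u

section FixedPoints

/-- For a `p`-group acting on a finite set, an invariant subset has as many elements as it has
fixed points, modulo `p`. -/
theorem card_invariant_modEq' {P X : Type*} [Group P] [MulAction P X] [Finite X] {p : ℕ}
    [Fact p.Prime] (hP : IsPGroup p P) (B : Set X) (hB : ∀ (s : P) (x : X), x ∈ B → s • x ∈ B) :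
    Nat.card B ≡ Nat.card (B ∩ MulAction.fixedPoints P X : Set X) [MOD p] := by
  let B' : SubMulAction P X := ⟨B, fun s x hx => hB s x hx⟩
  have h1 := hP.card_modEq_card_fixedPoints B'
  have e : MulAction.fixedPoints P B' ≃ (B ∩ MulAction.fixedPoints P X : Set X) :=
    { toFun := fun x => ⟨x.1.1, x.1.2, fun s => congrArg Subtype.val (x.2 s)⟩
      invFun := fun x => ⟨⟨x.1, x.2.1⟩, fun s => Subtype.ext (x.2.2 s)⟩
      left_inv := fun x => rfl
      right_inv := fun x => rfl }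
  rw [Nat.card_congr e] at h1
  exact h1

/-- A finite group `E` acts on a finite set `X` so that a subgroup `M` of `p`-power index acts
trivially.  If the total of an invariant weight is prime to `p`, some fixed point has weight
prime to `p`. -/
theorem exists_fixed_of_sum_not_dvd {E X : Type*} [Group E] [Finite E] [MulAction E X] [Fintype X]
    (p : ℕ) [hp : Fact p.Prime] (M : Subgroup E) (hMidx : ∃ k : ℕ, M.index = p ^ k)
    (hMtriv : ∀ m ∈ M, ∀ x : X, m • x = x) (F : X → ℕ) (hF : ∀ (g : E) (x : X), F (g • x) = F x)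
    (hsum : ¬ p ∣ ∑ x, F x) : ∃ x : X, (∀ g : E, g • x = x) ∧ ¬ p ∣ F x := by
  classical
  by_contra hcon
  push_neg at hcon
  apply hsum
  rw [Finset.sum_comp (fun v : ℕ => v) F]
  apply Finset.dvd_sum
  intro v _
  by_cases hpv : p ∣ v
  · exact Dvd.dvd.mul_left hpv _
  · obtain ⟨R⟩ : Nonempty (Sylow p E) := inferInstance
    have hRfix : ∀ x : X, x ∈ MulAction.fixedPoints (R : Subgroup E) X → ∀ g : E, g • x = x := by
      intro x hx g
      have h1 : M ≤ MulAction.stabilizer E x := fun m hm => hMtriv m hm x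
      have h2 : (R : Subgroup E) ≤ MulAction.stabilizer E x := fun r hr => hx ⟨r, hr⟩
      have h3 : (MulAction.stabilizer E x).index ∣ M.index := Subgroup.index_dvd_of_le h1
      have h4 : (MulAction.stabilizer E x).index ∣ (R : Subgroup E).index :=
        Subgroup.index_dvd_of_le h2
      have h5 : (MulAction.stabilizer E x).index = 1 := by
        obtain ⟨k, hk⟩ := hMidx
        rw [hk] at h3
        obtain ⟨j, -, hj⟩ := (Nat.dvd_prime_pow hp.out).mp h3
        rcases j with _ | j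
        · simpa using hj
        · exfalso
          have h6 : p ∣ (R : Subgroup E).index := by
            refine dvd_trans ?_ h4
            rw [hj]
            exact dvd_pow_self p (Nat.succ_ne_zero j)
          exact R.not_dvd_index h6
      have h6 := Subgroup.index_eq_one.mp h5
      have h7 : g ∈ MulAction.stabilizer E x := by rw [h6]; exact Subgroup.mem_top g
      exact h7
    have hB := card_invariant_modEq' (P := (R : Subgroup E)) (p := p) R.isPGroup'
      {x : X | F x = v} (fun s x hx => by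
        show F (s • x) = v
        rw [Subgroup.smul_def, hF]
        exact hx)
    have hempty : ({x : X | F x = v} ∩ MulAction.fixedPoints (R : Subgroup E) X : Set X) = ∅ := by
      ext x
      simp only [Set.mem_inter_iff, Set.mem_setOf_eq, Set.mem_empty_iff_false, iff_false, not_and]
      intro hx hfix
      apply hpv
      rw [← hx]
      exact hcon x (hRfix x hfix)
    rw [hempty] at hB
    have h8 : Nat.card ({x : X | F x = v} : Set X) = (Finset.univ.filter (fun a => F a = v)).card := by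
      rw [Nat.card_eq_fintype_card, Fintype.card_subtype]
      rfl
    rw [h8] at hB
    have h9 : p ∣ (Finset.univ.filter (fun a => F a = v)).card := by
      have := (Nat.modEq_zero_iff_dvd).mp (by simpa using hB)
      exact this
    exact Dvd.dvd.mul_right h9 _

end FixedPoints

section Action

variable {G : Type u} [Group G] (E N : Subgroup G) [hN : N.Normal]

/-- Conjugation by an element of `E` on `E ⊓ N`. -/
def cjE (g : E) : ↥(E ⊓ N) ≃* ↥(E ⊓ N) where
  toFun y := ⟨(g : G) * y * (g : G)⁻¹,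
    ⟨E.mul_mem (E.mul_mem g.2 y.2.1) (E.inv_mem g.2), hN.conj_mem y y.2.2 g⟩⟩
  invFun y := ⟨(g : G)⁻¹ * y * (g : G),
    ⟨E.mul_mem (E.mul_mem (E.inv_mem g.2) y.2.1) g.2, by
      have := hN.conj_mem y y.2.2 (g : G)⁻¹
      simpa using this⟩⟩
  left_inv y := by apply Subtype.ext; simp [mul_assoc]
  right_inv y := by apply Subtype.ext; simp [mul_assoc]
  map_mul' a b := by apply Subtype.ext; simp [mul_assoc]

theorem cjE_apply (g : E) (y : ↥(E ⊓ N)) :
    ((cjE E N g y : ↥(E ⊓ N)) : G) = (g : G) * y * (g : G)⁻¹ := rfl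

/-- `E` acts by conjugation on the irreducible characters of `E ⊓ N`. -/
@[reducible] noncomputable def irrAct : MulAction E (IrrCharacter ↥(E ⊓ N)) where
  smul g φ := ⟨fun y => φ.1 (cjE E N g⁻¹ y), Clifford.isIrrCharacter_comp_equiv (cjE E N g⁻¹) φ.2⟩
  one_smul φ := by
    apply Subtype.ext
    funext y
    show φ.1 (cjE E N (1 : E)⁻¹ y) = φ.1 y
    refine congrArg φ.1 (Subtype.ext ?_)
    simp [cjE_apply]
  mul_smul g h φ := by
    apply Subtype.ext
    funext y
    show φ.1 (cjE E N (g * h)⁻¹ y) = φ.1 (cjE E N h⁻¹ (cjE E N g⁻¹ y))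
    refine congrArg φ.1 (Subtype.ext ?_)
    simp [cjE_apply, mul_assoc]

theorem irrAct_apply (g : E) (φ : IrrCharacter ↥(E ⊓ N)) (y : ↥(E ⊓ N)) :
    ((irrAct E N).smul g φ).1 y = φ.1 (cjE E N g⁻¹ y) := rfl

end Action

section Step

variable {G : Type u} [Group G]

/-- The fixed point step of Dade's theorem. -/
theorem dade_step [Finite G] (p : ℕ) [hp : Fact p.Prime] (N : Subgroup G) [hN : N.Normal]
    (hind : ∃ k : ℕ, N.index = p ^ k) (ϑ : N → ℂ) (hϑ : IsCharacter N ϑ)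
    (hinv : ∀ (g : G) (n : N), ϑ ⟨g * n * g⁻¹, hN.conj_mem (n : G) n.2 g⟩ = ϑ n)
    (E : Subgroup G) (ψ : E → ℂ) (hψ : IsCharacter E ψ) [Fintype ↥(E ⊓ N)] (c : ℕ)
    (hc : classInner (fun y : ↥(E ⊓ N) => ψ ⟨y, y.2.1⟩ * ϑ ⟨y, y.2.2⟩)
      (fun y : ↥(E ⊓ N) => ϑ ⟨y, y.2.2⟩) = c) (hpc : ¬ p ∣ c) :
    ∃ φ : ↥(E ⊓ N) → ℂ, IsIrrCharacter ↥(E ⊓ N) φ ∧
      (∀ (g : G) (hg : g ∈ E) (x : ↥(E ⊓ N)),
        φ ⟨g * x * g⁻¹, ⟨E.mul_mem (E.mul_mem hg x.2.1) (E.inv_mem hg),
          hN.conj_mem (x : G) x.2.2 g⟩⟩ = φ x) ∧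
      ∃ b : ℕ, ¬ p ∣ b ∧ classInner (fun y : ↥(E ⊓ N) => ϑ ⟨y, y.2.2⟩) φ = b := by
  classical
  letI := fintypeIrr ↥(E ⊓ N)
  letI := irrAct E N
  have hψM : IsCharacter ↥(E ⊓ N) (fun y : ↥(E ⊓ N) => ψ ⟨y, y.2.1⟩) :=
    isCharacter_comp (Subgroup.inclusion (inf_le_left : E ⊓ N ≤ E)) hψ
  have hϑM : IsCharacter ↥(E ⊓ N) (fun y : ↥(E ⊓ N) => ϑ ⟨y, y.2.2⟩) :=
    isCharacter_comp (Subgroup.inclusion (inf_le_right : E ⊓ N ≤ N)) hϑ
  have hA : IsCharacter ↥(E ⊓ N) (fun y : ↥(E ⊓ N) => ψ ⟨y, y.2.1⟩ * ϑ ⟨y, y.2.2⟩) :=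
    isCharacter_mul hψM hϑM
  obtain ⟨a, b, ha, hb, hab⟩ := Clifford.classInner_char_eq_natCast_sum hA hϑM
  rw [hc, finsum_irr_eq_sum] at hab
  have hcsum : c = ∑ φ : IrrCharacter ↥(E ⊓ N), a φ * b φ := by exact_mod_cast hab
  -- invariance of the restricted characters under conjugation by `E`
  have hψcl := isClassFunction_of_isCharacter hψ
  have hAinv : ∀ (g : E) (y : ↥(E ⊓ N)),
      ψ ⟨(cjE E N g y : ↥(E ⊓ N)), (cjE E N g y).2.1⟩ * ϑ ⟨(cjE E N g y : ↥(E ⊓ N)), (cjE E N g y).2.2⟩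
        = ψ ⟨y, y.2.1⟩ * ϑ ⟨y, y.2.2⟩ := by
    intro g y
    have h1 : ψ ⟨(cjE E N g y : ↥(E ⊓ N)), (cjE E N g y).2.1⟩ = ψ ⟨y, y.2.1⟩ := by
      have := hψcl ⟨y, y.2.1⟩ g
      rw [← this]
      congr 1
    have h2 : ϑ ⟨(cjE E N g y : ↥(E ⊓ N)), (cjE E N g y).2.2⟩ = ϑ ⟨y, y.2.2⟩ := by
      have := hinv (g : G) ⟨y, y.2.2⟩
      rw [← this]
      congr 1
    rw [h1, h2]
  have hBinv : ∀ (g : E) (y : ↥(E ⊓ N)),
      ϑ ⟨(cjE E N g y : ↥(E ⊓ N)), (cjE E N g y).2.2⟩ = ϑ ⟨y, y.2.2⟩ := by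
    intro g y
    have := hinv (g : G) ⟨y, y.2.2⟩
    rw [← this]
    congr 1
  have hainv : ∀ (g : E) (φ : IrrCharacter ↥(E ⊓ N)), a (g • φ) = a φ := by
    intro g φ
    have h1 := ha (g • φ)
    have h2 := ha φ
    have h3 : classInner (fun y : ↥(E ⊓ N) => ψ ⟨y, y.2.1⟩ * ϑ ⟨y, y.2.2⟩) (g • φ).1 =
        classInner (fun y : ↥(E ⊓ N) => ψ ⟨y, y.2.1⟩ * ϑ ⟨y, y.2.2⟩) φ.1 := by
      have h4 := Clifford.classInner_comp_equiv (cjE E N g⁻¹)
        (fun y : ↥(E ⊓ N) => ψ ⟨y, y.2.1⟩ * ϑ ⟨y, y.2.2⟩) φ.1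
      rw [← h4]
      congr 1
      funext y
      exact (hAinv g⁻¹ y).symm
    rw [h3, h2] at h1
    exact_mod_cast h1.symm
  have hbinv : ∀ (g : E) (φ : IrrCharacter ↥(E ⊓ N)), b (g • φ) = b φ := by
    intro g φ
    have h1 := hb (g • φ)
    have h2 := hb φ
    have h3 : classInner (g • φ).1 (fun y : ↥(E ⊓ N) => ϑ ⟨y, y.2.2⟩) =
        classInner φ.1 (fun y : ↥(E ⊓ N) => ϑ ⟨y, y.2.2⟩) := by
      have h4 := Clifford.classInner_comp_equiv (cjE E N g⁻¹) φ.1
        (fun y : ↥(E ⊓ N) => ϑ ⟨y, y.2.2⟩)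
      rw [← h4]
      congr 1
      funext y
      exact (hBinv g⁻¹ y).symm
    rw [h3, h2] at h1
    exact_mod_cast h1.symm
  have hMidx : ∃ k : ℕ, (N.subgroupOf E).index = p ^ k := by
    obtain ⟨k, hk⟩ := hind
    have h1 : N.relIndex E ∣ N.index := Subgroup.relIndex_dvd_index_of_normal N E
    rw [hk] at h1
    obtain ⟨j, -, hj⟩ := (Nat.dvd_prime_pow hp.out).mp h1
    exact ⟨j, hj⟩
  have hMtriv : ∀ m ∈ N.subgroupOf E, ∀ φ : IrrCharacter ↥(E ⊓ N), m • φ = φ := by
    intro m hm φ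
    apply Subtype.ext
    funext y
    show φ.1 (cjE E N m⁻¹ y) = φ.1 y
    have hmN : (m : G) ∈ N := Subgroup.mem_subgroupOf.mp hm
    let h : ↥(E ⊓ N) := ⟨(m : G)⁻¹, ⟨E.inv_mem m.2, N.inv_mem hmN⟩⟩
    have h1 := irr_isClassFunction φ y h
    rw [← h1]
    refine congrArg φ.1 (Subtype.ext ?_)
    simp [cjE_apply, h]
  have hsum : ¬ p ∣ ∑ φ : IrrCharacter ↥(E ⊓ N), a φ * b φ := by
    rw [← hcsum]
    exact hpc
  obtain ⟨φ, hfix, hφ⟩ := exists_fixed_of_sum_not_dvd p (N.subgroupOf E) hMidx hMtriv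
    (fun φ => a φ * b φ) (fun g φ => by rw [hainv, hbinv]) hsum
  refine ⟨φ.1, φ.2, ?_, b φ, fun hdvd => hφ (Dvd.dvd.mul_left hdvd _), ?_⟩
  · intro g hg x
    have h1 := congrFun (congrArg Subtype.val (hfix (⟨g, hg⟩ : E)⁻¹)) x
    have h2 : ((⟨g, hg⟩ : E)⁻¹ • φ).1 x = φ.1 (cjE E N ((⟨g, hg⟩ : E)⁻¹)⁻¹ x) := rfl
    rw [h2, inv_inv] at h1
    rw [← h1]
    congr 1
  · rw [← classInner_conj_symm, hb φ]
    simp

end Step

section Main

variable {G : Type u} [Group G]

/-- The squared absolute value of the extension by zero of an invariant function on a normal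
subgroup is a class function. -/
theorem sqExt_isClassFunction (N : Subgroup G) [hN : N.Normal] (ϑ : N → ℂ)
    (hinv : ∀ (g : G) (n : N), ϑ ⟨g * n * g⁻¹, hN.conj_mem (n : G) n.2 g⟩ = ϑ n) :
    IsClassFunction G (fun g => extendByZero N ϑ g * conj (extendByZero N ϑ g)) := by
  intro g h
  have key : extendByZero N ϑ (h * g * h⁻¹) = extendByZero N ϑ g := by
    by_cases hg : g ∈ N
    · rw [extendByZero_of_mem N ϑ hg, extendByZero_of_mem N ϑ (hN.conj_mem g hg h)]
      exact hinv h ⟨g, hg⟩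
    · have hg' : h * g * h⁻¹ ∉ N := by
        intro hc
        apply hg
        have := hN.conj_mem _ hc h⁻¹
        simpa [mul_assoc] using this
      rw [extendByZero_of_not_mem N ϑ hg, extendByZero_of_not_mem N ϑ hg']
  show extendByZero N ϑ (h * g * h⁻¹) * conj (extendByZero N ϑ (h * g * h⁻¹)) = _
  rw [key]

/-- Inner product of an induced function with the squared extension of `ϑ`. -/
theorem inner_ind_sq [Fintype G] (N : Subgroup G) [hN : N.Normal] (ϑ : N → ℂ)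
    (hinv : ∀ (g : G) (n : N), ϑ ⟨g * n * g⁻¹, hN.conj_mem (n : G) n.2 g⟩ = ϑ n)
    (E : Subgroup G) [Fintype E] [Fintype ↥(E ⊓ N)] (ψ : E → ℂ) :
    classInner (indFun E ψ) (fun g => extendByZero N ϑ g * conj (extendByZero N ϑ g)) =
      (Nat.card E : ℂ)⁻¹ * ((Nat.card ↥(E ⊓ N) : ℂ) *
        classInner (fun y : ↥(E ⊓ N) => ψ ⟨y, y.2.1⟩ * ϑ ⟨y, y.2.2⟩)
          (fun y : ↥(E ⊓ N) => ϑ ⟨y, y.2.2⟩)) := by
  rw [frobenius_reciprocity E ψ _ (sqExt_isClassFunction N ϑ hinv)]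
  unfold classInner
  congr 1
  have hM0 : (Nat.card ↥(E ⊓ N) : ℂ) ≠ 0 := (neZero_card_complex ↥(E ⊓ N)).out
  rw [← mul_assoc, mul_inv_cancel₀ hM0, one_mul]
  have h1 : ∑ e : E, ψ e * conj (extendByZero N ϑ e * conj (extendByZero N ϑ e))
      = ∑ g : G, extendByZero E ψ g * conj (extendByZero N ϑ g * conj (extendByZero N ϑ g)) :=
    (sum_extendByZero_mul E ψ
      (fun g => conj (extendByZero N ϑ g * conj (extendByZero N ϑ g)))).symm
  rw [h1]
  have h2 : ∀ g : G,
      extendByZero E ψ g * conj (extendByZero N ϑ g * conj (extendByZero N ϑ g)) =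
      extendByZero (E ⊓ N)
        (fun y : ↥(E ⊓ N) => ψ ⟨y, y.2.1⟩ * ϑ ⟨y, y.2.2⟩ * conj (ϑ ⟨y, y.2.2⟩)) g := by
    intro g
    by_cases hg : g ∈ E ⊓ N
    · rw [extendByZero_of_mem (E ⊓ N) _ hg, extendByZero_of_mem E ψ hg.1,
        extendByZero_of_mem N ϑ hg.2, map_mul, Complex.conj_conj]
      ring
    · rw [extendByZero_of_not_mem (E ⊓ N) _ hg]
      by_cases hgE : g ∈ E
      · have hgN : g ∉ N := fun h => hg ⟨hgE, h⟩
        rw [extendByZero_of_not_mem N ϑ hgN]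
        simp
      · rw [extendByZero_of_not_mem E ψ hgE]
        simp
  simp only [h2]
  rw [sum_extendByZero]

theorem list_sum_dvd {α : Type*} (l : List α) (f : α → ℂ) (κ : ℂ) (p : ℤ)
    (h : ∀ t ∈ l, ∃ z : ℤ, p ∣ z ∧ f t = κ * z) :
    ∃ Z : ℤ, p ∣ Z ∧ (l.map f).sum = κ * Z := by
  induction l with
  | nil => exact ⟨0, dvd_zero p, by simp⟩
  | cons t l ih =>
    obtain ⟨z, hz, hft⟩ := h t List.mem_cons_self
    obtain ⟨Z, hZ, hl⟩ := ih (fun s hs => h s (List.mem_cons_of_mem _ hs))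
    refine ⟨z + Z, dvd_add hz hZ, ?_⟩
    rw [List.map_cons, List.sum_cons, hft, hl]
    push_cast
    ring

/-- **Dade's detection theorem**, from a local Brauer induction formula: if `G / N` is a
`p`-group, `ϑ` is an invariant irreducible character of `N` and an integer `m` prime to `p` is
an integer combination of characters induced from subgroups in a list, then some subgroup `E`
in the list covers `G / N` and has an `E`-invariant irreducible character of `E ⊓ N` whose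
multiplicity in `ϑ` is prime to `p`. -/
theorem dade_detect [Fintype G] (p : ℕ) [hp : Fact p.Prime] (N : Subgroup G) [hN : N.Normal]
    (hind : ∃ k : ℕ, N.index = p ^ k) (ϑ : N → ℂ) (hϑ : IsIrrCharacter N ϑ)
    (hinv : ∀ (g : G) (n : N), ϑ ⟨g * n * g⁻¹, hN.conj_mem (n : G) n.2 g⟩ = ϑ n)
    (m : ℤ) (l : List ((E : Subgroup G) × ((E → ℂ) × ℤ))) (hm : ¬ (p : ℤ) ∣ m)
    (hl : ∀ t ∈ l, IsCharacter t.1 t.2.1)
    (hsum : (fun _ : G => (m : ℂ)) = (l.map fun t => (t.2.2 : ℂ) • indFun t.1 t.2.1).sum) :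
    ∃ t ∈ l, t.1 ⊔ N = ⊤ ∧ ∃ φ : ↥(t.1 ⊓ N) → ℂ, IsIrrCharacter ↥(t.1 ⊓ N) φ ∧
      (∀ (g : G) (hg : g ∈ t.1) (x : ↥(t.1 ⊓ N)),
        φ ⟨g * x * g⁻¹, ⟨t.1.mul_mem (t.1.mul_mem hg x.2.1) (t.1.inv_mem hg),
          hN.conj_mem (x : G) x.2.2 g⟩⟩ = φ x) ∧
      ∃ b : ℕ, ¬ p ∣ b ∧ (Nat.card ↥(t.1 ⊓ N) : ℂ)⁻¹ *
        ∑ᶠ x : ↥(t.1 ⊓ N), ϑ ⟨(x : G), x.2.2⟩ * conj (φ x) = (b : ℂ) := by
  classical
  haveI : Fintype N := Fintype.ofFinite N
  by_contra hcon
  have hϑc := isCharacter_of_isIrrCharacter hϑ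
  have hG0 : (Nat.card G : ℂ) ≠ 0 := (neZero_card_complex G).out
  have hN0 : (Nat.card N : ℂ) ≠ 0 := (neZero_card_complex N).out
  have hκ0 : (Nat.card N : ℂ) / (Nat.card G : ℂ) ≠ 0 := div_ne_zero hN0 hG0
  -- the left side
  have hleft : classInner (fun _ : G => (m : ℂ))
      (fun g => extendByZero N ϑ g * conj (extendByZero N ϑ g)) =
      (Nat.card N : ℂ) / (Nat.card G : ℂ) * m := by
    unfold classInner
    have h2 : ∑ n : N, ϑ n * conj (ϑ n) = Nat.card N := by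
      have h3 := Clifford.classInner_irr_irr hϑ hϑ
      rw [if_pos rfl] at h3
      unfold classInner at h3
      exact ((inv_mul_eq_one₀ hN0).mp h3).symm
    have h1 : ∑ g : G, (m : ℂ) * conj (extendByZero N ϑ g * conj (extendByZero N ϑ g)) =
        (m : ℂ) * Nat.card N := by
      rw [← Finset.mul_sum, ← h2]
      congr 1
      have h4 : ∑ n : N, ϑ n * conj (ϑ n) = ∑ n : N, ϑ n * conj (extendByZero N ϑ (n : G)) := by
        refine Finset.sum_congr rfl fun n _ => ?_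
        rw [extendByZero_coe]
      rw [h4, ← sum_extendByZero_mul N ϑ (fun g => conj (extendByZero N ϑ g))]
      refine Finset.sum_congr rfl fun g _ => ?_
      rw [map_mul, Complex.conj_conj]
      ring
    rw [h1]
    field_simp
  -- each term
  have hterm : ∀ t ∈ l, ∃ z : ℤ, (p : ℤ) ∣ z ∧
      classInner ((t.2.2 : ℂ) • indFun t.1 t.2.1)
        (fun g => extendByZero N ϑ g * conj (extendByZero N ϑ g)) =
        (Nat.card N : ℂ) / (Nat.card G : ℂ) * z := by
    intro t ht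
    obtain ⟨E, ψ, a⟩ := t
    haveI : Fintype E := Fintype.ofFinite E
    haveI : Fintype ↥(E ⊓ N) := Fintype.ofFinite _
    have hψ : IsCharacter E ψ := hl _ ht
    have hψM : IsCharacter ↥(E ⊓ N) (fun y : ↥(E ⊓ N) => ψ ⟨y, y.2.1⟩) :=
      isCharacter_comp (Subgroup.inclusion (inf_le_left : E ⊓ N ≤ E)) hψ
    have hϑM : IsCharacter ↥(E ⊓ N) (fun y : ↥(E ⊓ N) => ϑ ⟨y, y.2.2⟩) :=
      isCharacter_comp (Subgroup.inclusion (inf_le_right : E ⊓ N ≤ N)) hϑc
    obtain ⟨c, hc⟩ := classInner_isCharacter_nat (isCharacter_mul hψM hϑM) hϑM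
    have hc' : classInner (fun y : ↥(E ⊓ N) => ψ ⟨y, y.2.1⟩ * ϑ ⟨y, y.2.2⟩)
        (fun y : ↥(E ⊓ N) => ϑ ⟨y, y.2.2⟩) = c := hc
    have hcard : Nat.card G * Nat.card ↥(E ⊓ N) = (E ⊔ N).index * Nat.card N * Nat.card E := by
      have h1 : Nat.card N * N.index = Nat.card G := Subgroup.card_mul_index N
      have h2 : N.relIndex (E ⊔ N) * (E ⊔ N).index = N.index :=
        Subgroup.relIndex_mul_index le_sup_right
      have h3 : N.relIndex (E ⊔ N) = N.relIndex E := Subgroup.relIndex_sup_right E N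
      have h4 : Nat.card ↥(E ⊓ N) * N.relIndex E = Nat.card E := by
        have h5 := Subgroup.relIndex_mul_relIndex ⊥ (E ⊓ N) E bot_le inf_le_left
        rw [Subgroup.relIndex_bot_left, Subgroup.relIndex_bot_left] at h5
        have h6 : (E ⊓ N).relIndex E = N.relIndex E := by
          rw [inf_comm, Subgroup.inf_relIndex_right]
        rw [h6] at h5
        exact h5
      rw [← h1, ← h2, h3, ← h4]
      ring
    refine ⟨a * ((E ⊔ N).index : ℤ) * c, ?_, ?_⟩
    · by_cases htop : E ⊔ N = ⊤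
      · by_cases hpc : p ∣ c
        · exact Dvd.dvd.mul_left (Int.natCast_dvd_natCast.mpr hpc) _
        · exfalso
          obtain ⟨φ, hφ, hφinv, b, hb, hbφ⟩ := dade_step p N hind ϑ hϑc hinv E ψ hψ c hc' hpc
          apply hcon
          refine ⟨⟨E, (ψ, a)⟩, ht, htop, φ, hφ, hφinv, b, hb, ?_⟩
          rw [finsum_eq_sum_of_fintype]
          exact hbφ
      · have h1 : (E ⊔ N).index ∣ N.index := Subgroup.index_dvd_of_le le_sup_right
        obtain ⟨k, hk⟩ := hind
        rw [hk] at h1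
        obtain ⟨j, -, hj⟩ := (Nat.dvd_prime_pow hp.out).mp h1
        have hj0 : j ≠ 0 := by
          rintro rfl
          exact htop (Subgroup.index_eq_one.mp (by simpa using hj))
        have h2 : (p : ℤ) ∣ ((E ⊔ N).index : ℤ) := by
          rw [hj]
          exact_mod_cast dvd_pow_self p hj0
        exact Dvd.dvd.mul_right (Dvd.dvd.mul_left h2 _) _
    · have hE0 : (Nat.card E : ℂ) ≠ 0 := (neZero_card_complex E).out
      have hcardC : (Nat.card G : ℂ) * (Nat.card ↥(E ⊓ N) : ℂ) =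
          ((E ⊔ N).index : ℂ) * (Nat.card N : ℂ) * (Nat.card E : ℂ) := by
        exact_mod_cast hcard
      rw [classInner_smul_left, inner_ind_sq N ϑ hinv E ψ, hc']
      push_cast
      field_simp
      linear_combination ((a : ℂ) * (c : ℂ)) * hcardC
  obtain ⟨Z, hZ, hZsum⟩ := list_sum_dvd l
    (fun t => classInner ((t.2.2 : ℂ) • indFun t.1 t.2.1)
      (fun g => extendByZero N ϑ g * conj (extendByZero N ϑ g)))
    ((Nat.card N : ℂ) / (Nat.card G : ℂ)) p hterm
  have hlin : classInner (l.map fun t => (t.2.2 : ℂ) • indFun t.1 t.2.1).sum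
      (fun g => extendByZero N ϑ g * conj (extendByZero N ϑ g)) =
      (l.map (fun t => classInner ((t.2.2 : ℂ) • indFun t.1 t.2.1)
        (fun g => extendByZero N ϑ g * conj (extendByZero N ϑ g)))).sum := by
    have h1 := map_list_sum (classInnerL (fun g => extendByZero N ϑ g * conj (extendByZero N ϑ g)))
      (l.map fun t => (t.2.2 : ℂ) • indFun t.1 t.2.1)
    rw [List.map_map] at h1
    exact h1
  rw [hsum, hlin, hZsum] at hleft
  have h1 : (Z : ℂ) = (m : ℂ) := mul_left_cancel₀ hκ0 hleft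
  have h2 : Z = m := by exact_mod_cast h1
  exact hm (h2 ▸ hZ)

end Main

end Cfsg.Agent.Lib.Helper96
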