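import Mathlib
import Cfsg.Agent.H95.FHDefs

/-!
# S1142-ROW (helper96, for helper95's Feit–Higman project): row sums of the alternating words.
-/

set_option autoImplicit false

namespace Cfsg.Agent.Lib.Helper96.FH

open Matrix Cfsg.Agent.H95.FH

universe u

theorem alt_one {R : Type*} [Monoid R] (x y : R) : alt x y 1 = x := by
  simp [alt]

theorem alt_succ {R : Type*} [Monoid R] (x y : R) (k : ℕ) : alt x y (k + 1) = x * alt y x k := rfl

theorem wt_succ (s t : ℝ) (k : ℕ) : wt s t (k + 1) = s * wt t s k := by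
  unfold wt
  have e1 : (k + 1 + 1) / 2 = k / 2 + 1 := by omega
  rw [e1, pow_succ]
  ring

/-- row sums are multiplicative. -/
theorem rowsum_mul {Ω : Type u} [Fintype Ω] (A B : Matrix Ω Ω ℝ) (α β : ℝ)
    (hA : ∀ x, ∑ y, A x y = α) (hB : ∀ x, ∑ y, B x y = β) (x : Ω) :
    ∑ y, (A * B) x y = α * β := by
  simp only [Matrix.mul_apply]
  rw [Finset.sum_comm]
  simp only [← Finset.mul_sum, hB]
  rw [← Finset.sum_mul, hA]

/-- the row sums of a symmetric `0/1` matrix with zero diagonal satisfying the quadratic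
relation. -/
theorem rowsum_gen {Ω : Type u} [Fintype Ω] [DecidableEq Ω] (g : Matrix Ω Ω ℝ) (r : ℕ)
    (hs : gᵀ = g) (hsq : g * g = (r : ℝ) • (1 : Matrix Ω Ω ℝ) + ((r : ℝ) - 1) • g)
    (hzo : ∀ x y, g x y = 0 ∨ g x y = 1) (hdiag : ∀ x, g x x = 0) (x : Ω) :
    ∑ y, g x y = r := by
  have h1 : (g * g) x x = ∑ y, g x y := by
    rw [Matrix.mul_apply]
    refine Finset.sum_congr rfl fun y _ => ?_
    have hyx : g y x = g x y := by
      have := congrFun (congrFun hs x) y
      simpa [Matrix.transpose_apply] using this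
    rw [hyx]
    rcases hzo x y with h | h <;> rw [h] <;> norm_num
  rw [← h1, hsq]
  simp [hdiag x]

/-- row sums of the alternating words (no restriction on the length). -/
theorem rowsum_alt {Ω : Type u} [Fintype Ω] [DecidableEq Ω] (a c : Matrix Ω Ω ℝ) (p q n : ℕ)
    (hD : HeckeData Ω a c p q n) (k : ℕ) :
    (∀ x, ∑ y, alt a c k x y = wt p q k) ∧ (∀ x, ∑ y, alt c a k x y = wt q p k) := by
  have h1n : 1 ≤ n := le_trans (by norm_num) hD.hn
  have ha : ∀ x, ∑ y, a x y = p := by
    refine rowsum_gen a p hD.symm_a hD.sq_a (fun x y => ?_) (fun x => ?_)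
    · have := hD.zo_a 1 h1n x y
      rwa [alt_one] at this
    · have := hD.disj_aa 0 1 (Nat.zero_le n) h1n (by norm_num) x x
      rw [alt_one] at this
      simpa [alt] using this
  have hc : ∀ x, ∑ y, c x y = q := by
    refine rowsum_gen c q hD.symm_c hD.sq_c (fun x y => ?_) (fun x => ?_)
    · have := hD.zo_c 1 h1n x y
      rwa [alt_one] at this
    · have := hD.disj_cc 0 1 (Nat.zero_le n) h1n (by norm_num) x x
      rw [alt_one] at this
      simpa [alt] using this
  induction k with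
  | zero =>
    constructor <;> intro x <;> simp [alt, wt, Matrix.one_apply]
  | succ k ih =>
    constructor
    · intro x
      rw [alt_succ, rowsum_mul a _ p _ ha ih.2 x, wt_succ]
    · intro x
      rw [alt_succ, rowsum_mul c _ q _ hc ih.1 x, wt_succ]

theorem row : RowStmt.{u} := by
  intro Ω _ _ a c p q n hD
  refine ⟨?_, fun k _ x => (rowsum_alt a c p q n hD k).1 x,
    fun k _ x => (rowsum_alt a c p q n hD k).2 x⟩
  intro hodd
  obtain ⟨h, rfl⟩ := hodd
  obtain ⟨x⟩ := hD.ne
  have e := (rowsum_alt a c p q (2 * h + 1) hD (2 * h + 1)).1 x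
  rw [hD.braid, (rowsum_alt a c p q (2 * h + 1) hD (2 * h + 1)).2 x] at e
  unfold wt at e
  have e1 : (2 * h + 1 + 1) / 2 = h + 1 := by omega
  have e2 : (2 * h + 1) / 2 = h := by omega
  rw [e1, e2, pow_succ, pow_succ] at e
  have hp0 : (0 : ℝ) < p := by
    have := hD.hp
    exact_mod_cast (by omega : 0 < p)
  have hq0 : (0 : ℝ) < q := by
    have := hD.hq
    exact_mod_cast (by omega : 0 < q)
  have h0 : ((q : ℝ) - p) * ((p : ℝ) ^ h * (q : ℝ) ^ h) = 0 := by linear_combination e
  rcases mul_eq_zero.1 h0 with h' | h'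
  · have h'' : (q : ℝ) = p := sub_eq_zero.1 h'
    exact_mod_cast h''.symm
  · exfalso
    have : (0 : ℝ) < (p : ℝ) ^ h * (q : ℝ) ^ h := by positivity
    exact this.ne' h'

example : Cfsg.Agent.H95.FH.RowStmt.{u} := row

end Cfsg.Agent.Lib.Helper96.FH
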