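import Mathlib
import Cfsg.Agent.H95.FHDefs
import Cfsg.Agent.Lib.Helper96.FHRow

/-!
# S1142-ALG (helper96, for helper95's Feit–Higman project): the span of the alternating words is
closed under multiplication.
-/

set_option autoImplicit false

namespace Cfsg.Agent.Lib.Helper96.FH

open Matrix Cfsg.Agent.H95.FH

universe u

/-- the quadratic relation applied to an alternating word. -/
theorem gen_mul_alt_succ {Ω : Type u} [Fintype Ω] [DecidableEq Ω] (g h : Matrix Ω Ω ℝ) (r : ℝ)
    (hsq : g * g = r • (1 : Matrix Ω Ω ℝ) + (r - 1) • g) (k : ℕ) :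
    g * alt g h (k + 1) = r • alt h g k + (r - 1) • alt g h (k + 1) := by
  have h1 : g * alt g h (k + 1) = (g * g) * alt h g k := by rw [alt_succ, mul_assoc]
  rw [h1, hsq, add_mul, smul_mul_assoc, smul_mul_assoc, one_mul]
  rfl

theorem alg : AlgStmt.{u} := by
  intro Ω _ _ a c p q n hD
  have h1n : 1 ≤ n := le_trans (by norm_num) hD.hn
  have hmemA : ∀ k, k ≤ n → alt a c k ∈ Alg a c n := fun k hk =>
    Submodule.subset_span (Or.inl ⟨k, hk, rfl⟩)
  have hmemC : ∀ k, k ≤ n → alt c a k ∈ Alg a c n := by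
    intro k hk
    rcases Nat.eq_zero_or_pos k with rfl | hk0
    · exact hmemA 0 (Nat.zero_le n)
    · rcases Nat.lt_or_ge k n with hlt | hge
      · exact Submodule.subset_span (Or.inr ⟨k, hk0, hlt, rfl⟩)
      · have hkn : k = n := le_antisymm hk hge
        rw [hkn, ← hD.braid]
        exact hmemA n le_rfl
  have haB : ∀ B ∈ basisSet a c n, a * B ∈ Alg a c n := by
    rintro B (⟨k, hk, rfl⟩ | ⟨l, hl1, hln, rfl⟩)
    · rcases Nat.eq_zero_or_pos k with rfl | hk0
      · have h0 : a * alt a c 0 = alt a c 1 := by simp [alt]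
        rw [h0]
        exact hmemA 1 h1n
      · obtain ⟨k', rfl⟩ : ∃ k', k = k' + 1 := ⟨k - 1, by omega⟩
        rw [gen_mul_alt_succ a c p hD.sq_a k']
        exact Submodule.add_mem _ (Submodule.smul_mem _ _ (hmemC k' (by omega)))
          (Submodule.smul_mem _ _ (hmemA _ hk))
    · have h0 : a * alt c a l = alt a c (l + 1) := rfl
      rw [h0]
      exact hmemA _ (by omega)
  have hcB : ∀ B ∈ basisSet a c n, c * B ∈ Alg a c n := by
    rintro B (⟨k, hk, rfl⟩ | ⟨l, hl1, hln, rfl⟩)
    · rcases Nat.lt_or_ge k n with hlt | hge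
      · have h0 : c * alt a c k = alt c a (k + 1) := rfl
        rw [h0]
        exact hmemC _ (by omega)
      · have hkn : k = n := le_antisymm hk hge
        obtain ⟨n', hn'⟩ : ∃ n', n = n' + 1 := ⟨n - 1, by omega⟩
        have h0 : c * alt a c k = (q : ℝ) • alt a c n' + ((q : ℝ) - 1) • alt c a (n' + 1) := by
          rw [hkn, hD.braid, hn']
          exact gen_mul_alt_succ c a q hD.sq_c n'
        rw [h0]
        exact Submodule.add_mem _ (Submodule.smul_mem _ _ (hmemA n' (by omega)))
          (Submodule.smul_mem _ _ (hmemC _ (by omega)))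
    · obtain ⟨l', rfl⟩ : ∃ l', l = l' + 1 := ⟨l - 1, by omega⟩
      rw [gen_mul_alt_succ c a q hD.sq_c l']
      exact Submodule.add_mem _ (Submodule.smul_mem _ _ (hmemA l' (by omega)))
        (Submodule.smul_mem _ _ (hmemC _ (by omega)))
  have hlin : ∀ g : Matrix Ω Ω ℝ, (∀ B ∈ basisSet a c n, g * B ∈ Alg a c n) →
      ∀ Y ∈ Alg a c n, g * Y ∈ Alg a c n := by
    intro g hg Y hY
    refine Submodule.span_induction (p := fun Y _ => g * Y ∈ Alg a c n) ?_ ?_ ?_ ?_ hY
    · intro B hB
      exact hg B hB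
    · rw [mul_zero]
      exact Submodule.zero_mem _
    · intro X Y _ _ hX hY'
      rw [mul_add]
      exact Submodule.add_mem _ hX hY'
    · intro r X _ hX
      rw [mul_smul_comm]
      exact Submodule.smul_mem _ r hX
  have haAlg := hlin a haB
  have hcAlg := hlin c hcB
  have hword : ∀ k, ∀ Y ∈ Alg a c n, alt a c k * Y ∈ Alg a c n ∧ alt c a k * Y ∈ Alg a c n := by
    intro k
    induction k with
    | zero =>
      intro Y hY
      have e1 : alt a c 0 * Y = Y := one_mul Y
      have e2 : alt c a 0 * Y = Y := one_mul Y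
      rw [e1, e2]
      exact ⟨hY, hY⟩
    | succ k ih =>
      intro Y hY
      constructor
      · rw [alt_succ, mul_assoc]
        exact haAlg _ (ih Y hY).2
      · rw [alt_succ, mul_assoc]
        exact hcAlg _ (ih Y hY).1
  refine ⟨hmemA 0 (Nat.zero_le n), ?_, ?_, ?_⟩
  · have := hmemA 1 h1n
    rwa [alt_one] at this
  · have := hmemC 1 h1n
    rwa [alt_one] at this
  · intro X hX Y hY
    refine Submodule.span_induction (p := fun X _ => X * Y ∈ Alg a c n) ?_ ?_ ?_ ?_ hX
    · rintro B (⟨k, hk, rfl⟩ | ⟨l, hl1, hln, rfl⟩)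
      · exact (hword k Y hY).1
      · exact (hword l Y hY).2
    · rw [zero_mul]
      exact Submodule.zero_mem _
    · intro X X' _ _ hX hX'
      rw [add_mul]
      exact Submodule.add_mem _ hX hX'
    · intro r X _ hX
      rw [smul_mul_assoc]
      exact Submodule.smul_mem _ r hX

example : Cfsg.Agent.H95.FH.AlgStmt.{u} := alg

end Cfsg.Agent.Lib.Helper96.FH
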