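import Mathlib
import Cfsg.Agent.H39.FcDefs

set_option autoImplicit false

/-! Piece S4291-RED (helper96): reduction of the solvable case modulo a normal subgroup of odd
order. -/

namespace Cfsg.Agent.Lib.Helper96.Fc

open Cfsg.Agent.H39.Fc

universe u

/-- A 2-subgroup meets a subgroup of odd order trivially. -/
theorem red_inj {G : Type u} [Group G] [Finite G] (K : Subgroup G) (hK : Odd (Nat.card K))
    (P : Subgroup G) (hP : IsPGroup 2 P) (x : G) (hx : x ∈ P) (hxK : x ∈ K) : x = 1 := by
  obtain ⟨k, hk⟩ := hP ⟨x, hx⟩
  have h1 : x ^ 2 ^ k = 1 := by simpa using congrArg Subtype.val hk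
  have h2 : x ^ Nat.card K = 1 :=
    orderOf_dvd_iff_pow_eq_one.mp (Subgroup.orderOf_dvd_natCard K hxK)
  have hcop : Nat.Coprime (2 ^ k) (Nat.card K) :=
    Nat.Coprime.pow_left k (Nat.coprime_two_left.mpr hK)
  have h3 : x ^ Nat.gcd (2 ^ k) (Nat.card K) = 1 := pow_gcd_eq_one.mpr ⟨h1, h2⟩
  rwa [hcop.gcd_eq_one, pow_one] at h3

/-- **S4291-RED** -/
theorem stRed (h0 : StSolv0.{u}) : StSolv.{u} := by
  have key : ∀ n : ℕ, ∀ (G : Type u) [Group G] [Finite G], Nat.card G = n → Group.IsSolvable G →
      (∀ H : Subgroup G, IsPGroup 2 H →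
        IsCyclic H ∨ ∃ n : ℕ, 1 ≤ n ∧ Nonempty (H ≃* QuaternionGroup (2 ^ n))) →
      (∃ P : Sylow 2 G, ¬ IsCyclic P) →
      ∃ N : Subgroup G, N.Normal ∧ (∀ P : Sylow 2 N, IsCyclic P) ∧ QType3 N := by
    intro n
    induction n using Nat.strong_induction_on with
    | _ n ih =>
      intro G _ _ hn hsolv hsyl hnc
      by_cases hK : ∀ K : Subgroup G, K.Normal → Odd (Nat.card K) → K = ⊥
      · exact h0 G hsolv hK hsyl hnc
      · push Not at hK
        obtain ⟨K, hKn, hKodd, hKne⟩ := hK
        have := hKn
        have hcard : Nat.card (G ⧸ K) < n := by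
          rw [← hn, Subgroup.card_eq_card_quotient_mul_card_subgroup K]
          have h1 : 1 < Nat.card K := (Subgroup.one_lt_card_iff_ne_bot K).mpr hKne
          have h2 : 0 < Nat.card (G ⧸ K) := Nat.card_pos
          nlinarith
        have hsurj : Function.Surjective (QuotientGroup.mk' K) := QuotientGroup.mk'_surjective K
        -- lifting 2-subgroups
        have hlift : ∀ Hb : Subgroup (G ⧸ K), IsPGroup 2 Hb →
            ∃ P : Subgroup G, IsPGroup 2 P ∧ P.map (QuotientGroup.mk' K) = Hb := by
          intro Hb hHb
          obtain ⟨Sb, hSb⟩ := hHb.exists_le_sylow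
          obtain ⟨S, rfl⟩ := Sylow.mapSurjective_surjective hsurj 2 Sb
          refine ⟨(S : Subgroup G) ⊓ Hb.comap (QuotientGroup.mk' K), S.2.to_le inf_le_left, ?_⟩
          ext y
          constructor
          · rintro ⟨x, hx, rfl⟩
            exact hx.2
          · intro hy
            obtain ⟨s, hs, rfl⟩ := hSb hy
            exact ⟨s, ⟨hs, hy⟩, rfl⟩
        -- a 2-subgroup is isomorphic to its image
        have hinj : ∀ P : Subgroup G, IsPGroup 2 P →
            Function.Injective ((QuotientGroup.mk' K).domRestrict P) := by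
          intro P hP
          rw [injective_iff_map_eq_one]
          intro x hx
          have h1 : (x : G) ∈ K := by
            rw [MonoidHom.domRestrict_apply, QuotientGroup.mk'_apply, QuotientGroup.eq_one_iff] at hx
            exact hx
          exact Subtype.ext (red_inj K hKodd P hP x x.2 h1)
        have hiso : ∀ P : Subgroup G, IsPGroup 2 P →
            Nonempty (P ≃* P.map (QuotientGroup.mk' K)) := by
          intro P hP
          exact ⟨(MonoidHom.ofInjective (hinj P hP)).trans
            (MulEquiv.subgroupCongr (MonoidHom.domRestrict_range _ _))⟩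
        have hsyl' : ∀ Hb : Subgroup (G ⧸ K), IsPGroup 2 Hb →
            IsCyclic Hb ∨ ∃ n : ℕ, 1 ≤ n ∧ Nonempty (Hb ≃* QuaternionGroup (2 ^ n)) := by
          intro Hb hHb
          obtain ⟨P, hP, rfl⟩ := hlift Hb hHb
          obtain ⟨e⟩ := hiso P hP
          rcases hsyl P hP with hc | ⟨m, hm, ⟨e'⟩⟩
          · left
            have := hc
            exact isCyclic_of_surjective e e.surjective
          · right
            exact ⟨m, hm, ⟨e.symm.trans e'⟩⟩
        have hnc' : ∃ Pb : Sylow 2 (G ⧸ K), ¬ IsCyclic Pb := by
          obtain ⟨P, hP⟩ := hnc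
          refine ⟨Sylow.mapSurjective hsurj P, fun hc => hP ?_⟩
          obtain ⟨e⟩ := hiso P P.2
          have : IsCyclic ((P : Subgroup G).map (QuotientGroup.mk' K)) := hc
          exact isCyclic_of_surjective e.symm e.symm.surjective
        have hsolvq : Group.IsSolvable (G ⧸ K) := inferInstance
        obtain ⟨Nb, hNbn, hNbs, hNbq⟩ := ih (Nat.card (G ⧸ K)) hcard (G ⧸ K) rfl hsolvq hsyl' hnc'
        refine ⟨Nb.comap (QuotientGroup.mk' K), hNbn.comap _, ?_, ?_⟩
        · intro P
          -- the image of `P` in `G ⧸ K`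
          have hP2 : IsPGroup 2 ((P : Subgroup (Nb.comap (QuotientGroup.mk' K))).map
              (Nb.comap (QuotientGroup.mk' K)).subtype) := P.2.map _
          have hQ : IsPGroup 2 ((((P : Subgroup (Nb.comap (QuotientGroup.mk' K))).map
              (Nb.comap (QuotientGroup.mk' K)).subtype).map (QuotientGroup.mk' K)).subgroupOf Nb) :=
            (hP2.map _).comap_subtype
          obtain ⟨Sb, hSb⟩ := hQ.exists_le_sylow
          have := hNbs Sb
          have : IsCyclic ((Sb : Subgroup Nb).map Nb.subtype) :=
            isCyclic_of_surjective ((Nb.subtype).subgroupMap (Sb : Subgroup Nb))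
              (MonoidHom.subgroupMap_surjective _ _)
          let φ : P →* G ⧸ K := (QuotientGroup.mk' K).comp
            ((Nb.comap (QuotientGroup.mk' K)).subtype.comp
              (P : Subgroup (Nb.comap (QuotientGroup.mk' K))).subtype)
          have hφC : ∀ x : P, φ x ∈ (Sb : Subgroup Nb).map Nb.subtype := by
            intro x
            have hxN : QuotientGroup.mk' K ((x : Nb.comap (QuotientGroup.mk' K)) : G) ∈ Nb :=
              (x : Nb.comap (QuotientGroup.mk' K)).2
            refine ⟨⟨_, hxN⟩, hSb ?_, rfl⟩
            rw [Subgroup.mem_subgroupOf]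
            exact ⟨_, ⟨_, x.2, rfl⟩, rfl⟩
          have hφinj : Function.Injective (φ.codRestrict _ hφC) := by
            rw [injective_iff_map_eq_one]
            intro x hx
            have hx' : φ x = 1 := by
              have := congrArg Subtype.val hx
              simpa using this
            have h1 : ((x : Nb.comap (QuotientGroup.mk' K)) : G) ∈ K := by
              rw [← QuotientGroup.eq_one_iff]
              exact hx'
            have h2 := red_inj K hKodd _ hP2 _ ⟨_, x.2, rfl⟩ h1
            exact Subtype.ext (Subtype.ext h2)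
          exact isCyclic_of_injective _ hφinj
        · rcases hNbq with ⟨f, hf, hker⟩ | ⟨f, hf, hker⟩ | ⟨f, hf, hker⟩
          · left
            exact ⟨f.comp (QuotientGroup.mk' K), hf.comp hsurj, by
              rw [← hker, MonoidHom.comap_ker]⟩
          · right; left
            exact ⟨f.comp (QuotientGroup.mk' K), hf.comp hsurj, by
              rw [← hker, MonoidHom.comap_ker]⟩
          · right; right
            exact ⟨f.comp (QuotientGroup.mk' K), hf.comp hsurj, by
              rw [← hker, MonoidHom.comap_ker]⟩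
  intro G _ _ hsolv hsyl hnc
  exact key (Nat.card G) G rfl hsolv hsyl hnc

end Cfsg.Agent.Lib.Helper96.Fc
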