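import Mathlib
import Cfsg.Prelude.Def_Characters
import Cfsg.Agent.Lib.Helper96.ProjLift2
import Cfsg.Agent.Lib.Helper96.GoUp
import Cfsg.Agent.Lib.Gallagher
import Cfsg.Agent.H32.InvOver

/-!
# Invariant characters over invariant characters: reduction to the linear case (helper96)

`slLift N σ`: the finite group of determinant-one lifts `(g, P)`, `P σ(n) P⁻¹ = σ(g n g⁻¹)`, of a
`Γ`-invariant irreducible representation `σ` of `N ⊴ Γ`; it maps onto `Γ`, acts on the space of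
`σ`, and above `N` its elements are scalar multiples of `σ n`.  `exists_linear_model` packages
this.  `invariant_goUp` (Isaacs 13.31-type): `N ≤ G` normal in `Γ`, `(|Γ:G|, |G:N|) = 1`, `Γ/G`
or `G/N` solvable, `θ ∈ Irr(N)` `Γ`-invariant; then some `χ ∈ Irr(G)` over `θ` is `Γ`-invariant
(Gallagher in the lift group reduces to `linear_goUp`).
-/

set_option autoImplicit false
set_option linter.style.haveILetI false
set_option linter.unusedSectionVars false
set_option linter.deprecated false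
open Cfsg
open scoped ComplexConjugate

namespace Cfsg.Agent.Lib.Helper96

open Module Representation Cfsg.Agent.H4

universe u w

section SlLift

variable {Γ : Type u} [Group Γ] (N : Subgroup Γ) [hN : N.Normal]
  {W : Type w} [AddCommGroup W] [Module ℂ W] [FiniteDimensional ℂ W]
  (σ : Representation ℂ N W)

/-- The group of determinant-one lifts of elements of the whole group. -/
noncomputable def slLift : Subgroup (Γ × (W ≃ₗ[ℂ] W)) :=
  bigLift N σ ⊓ (LinearEquiv.det.comp (MonoidHom.snd Γ (W ≃ₗ[ℂ] W))).ker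

theorem mem_slLift {x : Γ × (W ≃ₗ[ℂ] W)} : x ∈ slLift N σ ↔
    x ∈ bigLift N σ ∧ LinearEquiv.det x.2 = 1 := Iff.rfl

/-- The projection of the determinant-one lift group onto the group. -/
noncomputable def slFst : slLift N σ →* Γ :=
  (MonoidHom.fst Γ (W ≃ₗ[ℂ] W)).comp (slLift N σ).subtype

theorem slFst_apply (x : slLift N σ) : slFst N σ x = x.1.1 := rfl

/-- The determinant-one lift group acting on `W` through its second coordinate. -/
noncomputable def slRepW : Representation ℂ (slLift N σ) W :=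
  (LinearEquiv.automorphismGroup.toLinearMapMonoidHom (R := ℂ) (M := W)).comp
    ((MonoidHom.snd Γ (W ≃ₗ[ℂ] W)).comp (slLift N σ).subtype)

theorem slRepW_apply (x : slLift N σ) : slRepW N σ x = (x.1.2 : W →ₗ[ℂ] W) := rfl

theorem det_scalarEquiv (c : ℂˣ) :
    ((LinearEquiv.det (scalarEquiv c : W ≃ₗ[ℂ] W) : ℂˣ) : ℂ) = (c : ℂ) ^ finrank ℂ W := by
  rw [LinearEquiv.coe_det, scalarEquiv_coe, LinearMap.det_smul, LinearMap.det_id, mul_one]

theorem slFst_surjective [Finite N] [σ.IsIrreducible]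
    (hinv : ∀ (g : Γ) (n : N), σ.character (cjG N g n) = σ.character n) :
    Function.Surjective (slFst N σ) := by
  intro t
  obtain ⟨P₀, hP₀⟩ := exists_bigLift N σ hinv t
  have hd : 0 < finrank ℂ W := finrank_pos_of_irreducible σ
  have hδ : ((LinearEquiv.det P₀ : ℂˣ) : ℂ) ≠ 0 := (LinearEquiv.det P₀).ne_zero
  obtain ⟨ζ, hζ⟩ := IsAlgClosed.exists_pow_nat_eq ((LinearEquiv.det P₀ : ℂˣ) : ℂ)⁻¹ hd
  have hζ0 : ζ ≠ 0 := by
    rintro rfl
    rw [zero_pow hd.ne'] at hζ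
    exact (inv_ne_zero hδ) hζ.symm
  set c : ℂˣ := Units.mk0 ζ hζ0 with hc
  have hmem : ((1 : Γ), (scalarEquiv c : W ≃ₗ[ℂ] W)) * (t, P₀) ∈ bigLift N σ :=
    (bigLift N σ).mul_mem (scalar_mem_bigLift N σ c) hP₀
  have hmem' : (t, (scalarEquiv c : W ≃ₗ[ℂ] W) * P₀) ∈ bigLift N σ := by
    have : ((1 : Γ), (scalarEquiv c : W ≃ₗ[ℂ] W)) * (t, P₀) =
        (t, (scalarEquiv c : W ≃ₗ[ℂ] W) * P₀) := by
      ext <;> simp
    rwa [this] at hmem
  refine ⟨⟨(t, (scalarEquiv c : W ≃ₗ[ℂ] W) * P₀), (mem_slLift N σ).mpr ⟨hmem', ?_⟩⟩, rfl⟩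
  apply Units.ext
  show ((LinearEquiv.det ((scalarEquiv c : W ≃ₗ[ℂ] W) * P₀) : ℂˣ) : ℂ) = 1
  rw [map_mul, Units.val_mul, det_scalarEquiv, hc, Units.val_mk0, hζ, inv_mul_cancel₀ hδ]

theorem finite_slLift [Finite Γ] [σ.IsIrreducible] : Finite (slLift N σ) := by
  classical
  have hd : 0 < finrank ℂ W := finrank_pos_of_irreducible σ
  let Qref : Γ → (W ≃ₗ[ℂ] W) := fun t =>
    if h : ∃ P : W ≃ₗ[ℂ] W, (t, P) ∈ slLift N σ then Classical.choose h else 1
  have hQref : ∀ x : slLift N σ, (x.1.1, Qref x.1.1) ∈ slLift N σ := by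
    intro x
    have h : ∃ P : W ≃ₗ[ℂ] W, (x.1.1, P) ∈ slLift N σ := ⟨x.1.2, x.2⟩
    simp only [Qref, dif_pos h]
    exact Classical.choose_spec h
  have key : ∀ x : slLift N σ, ∃ c : ℂˣ, (c : ℂ) ^ finrank ℂ W = 1 ∧
      x.1.2 = scalarEquiv c * Qref x.1.1 := by
    intro x
    have hx : (x.1.1, x.1.2) ∈ slLift N σ := x.2
    obtain ⟨c, hc⟩ := bigLift_unique N σ ((mem_slLift N σ).mp hx).1
      ((mem_slLift N σ).mp (hQref x)).1
    refine ⟨c, ?_, hc⟩
    have h1 := ((mem_slLift N σ).mp hx).2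
    have h2 := ((mem_slLift N σ).mp (hQref x)).2
    have h3 : LinearEquiv.det x.1.2 = 1 := h1
    rw [hc, map_mul] at h3
    have h4 : LinearEquiv.det (Qref x.1.1) = 1 := h2
    rw [h4, mul_one] at h3
    rw [← det_scalarEquiv (W := W), h3]
    rfl
  choose c hc1 hc2 using key
  let f : slLift N σ → Γ × (Polynomial.nthRootsFinset (finrank ℂ W) (1 : ℂ)) := fun x =>
    (x.1.1, ⟨(c x : ℂ), (Polynomial.mem_nthRootsFinset hd 1).mpr (hc1 x)⟩)
  refine Finite.of_injective f ?_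
  intro x y hxy
  have h1 : x.1.1 = y.1.1 := (Prod.ext_iff.mp hxy).1
  have h2 : (c x : ℂ) = (c y : ℂ) := congrArg Subtype.val (Prod.ext_iff.mp hxy).2
  have h2' : c x = c y := Units.ext h2
  apply Subtype.ext
  apply Prod.ext h1
  show x.1.2 = y.1.2
  rw [hc2 x, hc2 y, h1, h2']

/-- Above an element of `N`, a lift is a scalar multiple of `σ n`. -/
theorem slLift_scalar [σ.IsIrreducible] (x : slLift N σ) (hx : x.1.1 ∈ N) :
    ∃ c : ℂˣ, ∀ w : W, x.1.2 w = (c : ℂ) • σ ⟨x.1.1, hx⟩ w := by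
  have h1 : (x.1.1, x.1.2) ∈ bigLift N σ := ((mem_slLift N σ).mp x.2).1
  have h2 := sigma_mem_bigLift N σ ⟨x.1.1, hx⟩
  obtain ⟨c, hc⟩ := bigLift_unique N σ h1 h2
  refine ⟨c, fun w => ?_⟩
  rw [hc]
  show (scalarEquiv c : W ≃ₗ[ℂ] W) (sigmaEquiv N σ ⟨x.1.1, hx⟩ w) = _
  rw [scalarEquiv_apply]
  rfl

end SlLift


section Model

variable {Γ : Type u} [Group Γ] [Finite Γ] (N : Subgroup Γ) [hN : N.Normal]

/-- **Linear model** of an invariant irreducible character: a finite group `Γ̂` mapping onto `Γ`,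
a character `Θ` of `Γ̂` and an invariant linear character `κ` of the preimage of `N` with
`Θ = κ · (θ ∘ π)` on that preimage. -/
theorem exists_linear_model {θ : N → ℂ} (hθ : IsIrrCharacter N θ)
    (hinv : ∀ (x : Γ) (n : N), θ ⟨x * n * x⁻¹, hN.conj_mem n n.2 x⟩ = θ n) :
    ∃ (Γ' : Type u) (_ : Group Γ') (_ : Finite Γ') (π : Γ' →* Γ) (_ : Function.Surjective π)
      (κ : ↥(N.comap π) →* ℂˣ) (Θ : Γ' → ℂ), IsCharacter Γ' Θ ∧
      (∀ (y : Γ') (x : ↥(N.comap π)),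
        κ ⟨y * x * y⁻¹, (Subgroup.Normal.comap hN π).conj_mem x x.2 y⟩ = κ x) ∧
      (∀ x : ↥(N.comap π), Θ x = ((κ x : ℂˣ) : ℂ) * θ ⟨π x, x.2⟩) := by
  classical
  obtain ⟨d, σ, hσ, rfl⟩ := hθ
  haveI : σ.IsIrreducible := hσ
  have hinv' : ∀ (g : Γ) (n : N), σ.character (cjG N g n) = σ.character n := hinv
  have hd : 0 < finrank ℂ (Fin d → ℂ) := finrank_pos_of_irreducible σ
  haveI : Nontrivial (Fin d → ℂ) := Module.nontrivial_of_finrank_pos (R := ℂ) hd
  haveI hfin : Finite (slLift N σ) := finite_slLift N σ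
  have hsurj := slFst_surjective N σ hinv'
  -- the scalar
  have hsc : ∀ x : ↥(N.comap (slFst N σ)), ∃ c : ℂˣ, ∀ w : Fin d → ℂ,
      x.1.1.2 w = (c : ℂ) • σ ⟨x.1.1.1, x.2⟩ w := fun x => slLift_scalar N σ x.1 x.2
  choose c hc using hsc
  have huniq : ∀ (x : ↥(N.comap (slFst N σ))) (c' : ℂˣ) (n : N), (n : Γ) = x.1.1.1 →
      (∀ w : Fin d → ℂ, x.1.1.2 w = (c' : ℂ) • σ n w) → c x = c' := by
    intro x c' n hn h
    obtain rfl : n = ⟨x.1.1.1, x.2⟩ := Subtype.ext hn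
    obtain ⟨w, hw⟩ := exists_ne (0 : Fin d → ℂ)
    have h1 := hc x w
    have h2 := h w
    rw [h1] at h2
    have hv : σ ⟨x.1.1.1, x.2⟩ w ≠ 0 := by
      intro h0
      apply hw
      have h3 : σ (⟨x.1.1.1, x.2⟩ : N)⁻¹ (σ ⟨x.1.1.1, x.2⟩ w) = w := by
        rw [sigma_mul_apply, inv_mul_cancel, map_one]
        rfl
      rw [← h3, h0, map_zero]
    have h4 : ((c x : ℂ) - (c' : ℂ)) • σ ⟨x.1.1.1, x.2⟩ w = 0 := by
      rw [sub_smul, h2, sub_self]
    rcases smul_eq_zero.mp h4 with h5 | h5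
    · exact Units.ext (sub_eq_zero.mp h5)
    · exact absurd h5 hv
  let κ : ↥(N.comap (slFst N σ)) →* ℂˣ :=
    { toFun := c
      map_one' := huniq 1 1 1 rfl (fun w => by
        show w = ((1 : ℂˣ) : ℂ) • σ 1 w
        rw [map_one, Units.val_one, one_smul]
        rfl)
      map_mul' := fun x y => huniq (x * y) (c x * c y)
        ((⟨x.1.1.1, x.2⟩ : N) * ⟨y.1.1.1, y.2⟩) rfl (fun w => by
          show x.1.1.2 (y.1.1.2 w) = ((c x * c y : ℂˣ) : ℂ) • σ (⟨x.1.1.1, x.2⟩ * ⟨y.1.1.1, y.2⟩) w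
          rw [hc y w, map_smul, hc x, smul_smul, Units.val_mul, sigma_mul_apply, mul_comm]) }
  have hκ : ∀ x, κ x = c x := fun x => rfl
  refine ⟨↥(slLift N σ), inferInstance, hfin, slFst N σ, hsurj, κ, (slRepW N σ).character,
    ⟨d, slRepW N σ, rfl⟩, ?_, ?_⟩
  · intro y x
    rw [hκ, hκ]
    refine huniq _ (c x) (cjG N y.1.1 ⟨x.1.1.1, x.2⟩) rfl (fun w => ?_)
    show y.1.2 (x.1.1.2 ((y.1.2)⁻¹ w)) = (c x : ℂ) • σ (cjG N y.1.1 ⟨x.1.1.1, x.2⟩) w
    rw [hc x, map_smul]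
    have hy : (y.1.1, y.1.2) ∈ bigLift N σ := ((mem_slLift N σ).mp y.2).1
    have h1 := (mem_bigLift N σ).mp hy ⟨x.1.1.1, x.2⟩
    have h2 := congrArg (fun f : (Fin d → ℂ) →ₗ[ℂ] (Fin d → ℂ) => f ((y.1.2)⁻¹ w)) h1
    simp only [LinearMap.comp_apply] at h2
    have h3 : y.1.2 ((y.1.2)⁻¹ w) = w := LinearEquiv.apply_symm_apply y.1.2 w
    have h4 : ((y.1.1, y.1.2).2 : (Fin d → ℂ) →ₗ[ℂ] (Fin d → ℂ)) ((y.1.2)⁻¹ w) = w := h3
    rw [h4] at h2
    rw [← h2]
    rfl
  · intro x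
    show LinearMap.trace ℂ (Fin d → ℂ) (x.1.1.2 : (Fin d → ℂ) →ₗ[ℂ] (Fin d → ℂ)) =
      ((κ x : ℂˣ) : ℂ) * LinearMap.trace ℂ (Fin d → ℂ) (σ ⟨x.1.1.1, x.2⟩)
    have h1 : (x.1.1.2 : (Fin d → ℂ) →ₗ[ℂ] (Fin d → ℂ)) = (c x : ℂ) • σ ⟨x.1.1.1, x.2⟩ := by
      apply LinearMap.ext
      intro w
      exact hc x w
    rw [h1, map_smul, smul_eq_mul, hκ]

end Model


section Main

open Cfsg.Agent

/-- **Going up with invariance** (Isaacs 13.31-type). -/
theorem invariant_goUp {Γ : Type u} [Group Γ] [Fintype Γ] (G N : Subgroup Γ) [hG : G.Normal]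
    [hN : N.Normal] [Fintype G] [Fintype N] (hNG : N ≤ G)
    (hcop : (G.index).Coprime (N.relIndex G))
    (hsolv : Group.IsSolvable (Γ ⧸ G) ∨ Group.IsSolvable (G ⧸ N.subgroupOf G))
    {θ : N → ℂ} (hθ : IsIrrCharacter N θ)
    (hinv : ∀ (x : Γ) (n : N), θ ⟨x * n * x⁻¹, hN.conj_mem n n.2 x⟩ = θ n) :
    ∃ χ : G → ℂ, IsIrrCharacter G χ ∧ classInner (fun n : N => χ ⟨n, hNG n.2⟩) θ ≠ 0 ∧
      ∀ (x : Γ) (g : G), χ ⟨x * g * x⁻¹, hG.conj_mem g g.2 x⟩ = χ g := by
  classical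
  obtain ⟨Γ', instG, instF, π, hπ, κ, Θ, hΘ, hκinv, hΘκ⟩ := exists_linear_model N hθ hinv
  letI : Fintype Γ' := Fintype.ofFinite Γ'
  haveI hGcn : (G.comap π).Normal := Subgroup.Normal.comap hG π
  haveI hNcn : (N.comap π).Normal := Subgroup.Normal.comap hN π
  letI : Fintype (G.comap π) := Fintype.ofFinite _
  letI : Fintype (N.comap π) := Fintype.ofFinite _
  have hNGc : (N.comap π) ≤ (G.comap π) := Subgroup.comap_mono hNG
  have hcop' : ((G.comap π).index).Coprime ((N.comap π).relIndex (G.comap π)) := by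
    have h1 : (G.comap π).index = G.index := Subgroup.index_comap_of_surjective G hπ
    have h2 : (N.comap π).relIndex (G.comap π) = N.relIndex G := by
      rw [Subgroup.relIndex_comap, Subgroup.map_comap_eq_self_of_surjective hπ]
    rw [h1, h2]
    exact hcop
  let πG : ↥(G.comap π) →* ↥G :=
    { toFun := fun y => ⟨π (y : Γ'), y.2⟩
      map_one' := Subtype.ext (map_one π)
      map_mul' := fun a b => Subtype.ext (map_mul π (a : Γ') (b : Γ')) }
  have hπG : Function.Surjective πG := by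
    intro g
    obtain ⟨y, hy⟩ := hπ g
    exact ⟨⟨y, by show π y ∈ G; rw [hy]; exact g.2⟩, Subtype.ext hy⟩
  let πN : ↥(N.comap π) →* ↥N :=
    { toFun := fun y => ⟨π (y : Γ'), y.2⟩
      map_one' := Subtype.ext (map_one π)
      map_mul' := fun a b => Subtype.ext (map_mul π (a : Γ') (b : Γ')) }
  have hπN : Function.Surjective πN := by
    intro g
    obtain ⟨y, hy⟩ := hπ g
    exact ⟨⟨y, by show π y ∈ N; rw [hy]; exact g.2⟩, Subtype.ext hy⟩
  have hsolv' : Group.IsSolvable (Γ' ⧸ (G.comap π)) ∨ Group.IsSolvable (↥(G.comap π) ⧸ (N.comap π).subgroupOf (G.comap π)) := by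
    rcases hsolv with hs | hs
    · left
      let φ : Γ' ⧸ (G.comap π) →* Γ ⧸ G := QuotientGroup.map (G.comap π) G π le_rfl
      have hφ : Function.Injective φ := by
        rw [← MonoidHom.ker_eq_bot_iff, eq_bot_iff]
        intro y hy
        obtain ⟨y₀, rfl⟩ := QuotientGroup.mk_surjective y
        rw [MonoidHom.mem_ker] at hy
        have h1 : (QuotientGroup.mk (π y₀) : Γ ⧸ G) = 1 := hy
        rw [QuotientGroup.eq_one_iff] at h1
        rw [Subgroup.mem_bot, QuotientGroup.eq_one_iff]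
        exact h1
      exact solvable_of_solvable_injective hφ
    · right
      have hle : (N.comap π).subgroupOf (G.comap π) ≤ (N.subgroupOf G).comap πG := by
        intro y hy
        rw [Subgroup.mem_subgroupOf] at hy
        rw [Subgroup.mem_comap, Subgroup.mem_subgroupOf]
        exact hy
      let φ : ↥(G.comap π) ⧸ (N.comap π).subgroupOf (G.comap π) →* ↥G ⧸ N.subgroupOf G := QuotientGroup.map _ _ πG hle
      have hφ : Function.Injective φ := by
        rw [← MonoidHom.ker_eq_bot_iff, eq_bot_iff]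
        intro y hy
        obtain ⟨y₀, rfl⟩ := QuotientGroup.mk_surjective y
        rw [MonoidHom.mem_ker] at hy
        have h1 : (QuotientGroup.mk (πG y₀) : ↥G ⧸ N.subgroupOf G) = 1 := hy
        rw [QuotientGroup.eq_one_iff, Subgroup.mem_subgroupOf] at h1
        rw [Subgroup.mem_bot, QuotientGroup.eq_one_iff, Subgroup.mem_subgroupOf]
        exact h1
      exact solvable_of_solvable_injective hφ
  obtain ⟨β, hβ, hβκ, hβinv⟩ := linear_goUp (G.comap π) (N.comap π) hNGc hcop' hsolv' κ⁻¹ (by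
    intro y x
    rw [MonoidHom.inv_apply, MonoidHom.inv_apply, hκinv])
  -- Gallagher inside the lift group
  haveI hBn : ((N.comap π).subgroupOf (G.comap π)).Normal := Subgroup.normal_subgroupOf
  letI : Fintype ↥((N.comap π).subgroupOf (G.comap π)) := Fintype.ofFinite _
  let e : ↥((N.comap π).subgroupOf (G.comap π)) ≃* ↥(N.comap π) := Subgroup.subgroupOfEquivOfLe hNGc
  set φ : ↥((N.comap π).subgroupOf (G.comap π)) → ℂ := fun b => ((κ⁻¹ (e b) : ℂˣ) : ℂ) with hφdef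
  set ϑ : ↥((N.comap π).subgroupOf (G.comap π)) → ℂ := fun b => Θ ((b : ↥(G.comap π)) : Γ') with hϑdef
  set ψ : ↥((N.comap π).subgroupOf (G.comap π)) → ℂ := fun b => θ (πN (e b)) with hψdef
  set X : ↥(G.comap π) → ℂ := fun a => Θ (a : Γ') with hXdef
  have hφirr : IsIrrCharacter ↥((N.comap π).subgroupOf (G.comap π)) φ :=
    (Cfsg.Agent.H82.linChar (κ⁻¹.comp e.toMonoidHom)).2
  have hψirr : IsIrrCharacter ↥((N.comap π).subgroupOf (G.comap π)) ψ :=
    isIrrCharacter_comp_surjective (πN.comp e.toMonoidHom) (hπN.comp e.surjective) hθ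
  have hϑeq : ϑ = fun b => ((κ (e b) : ℂˣ) : ℂ) * ψ b := funext fun b => hΘκ (e b)
  have hϑirr : IsIrrCharacter ↥((N.comap π).subgroupOf (G.comap π)) ϑ := by
    rw [hϑeq]
    exact Cfsg.Agent.H83.isIrrCharacter_linear_mul
      (Cfsg.Agent.H82.linChar (κ.comp e.toMonoidHom)) ⟨ψ, hψirr⟩ (Cfsg.Agent.H82.linChar_one _)
  have hprodeq : φ * ϑ = ψ := by
    funext b
    rw [Pi.mul_apply, hϑeq]
    show ((κ⁻¹ (e b) : ℂˣ) : ℂ) * (((κ (e b) : ℂˣ) : ℂ) * ψ b) = ψ b
    rw [← mul_assoc, ← Units.val_mul, MonoidHom.inv_apply, inv_mul_cancel, Units.val_one, one_mul]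
  have hΘcf : IsClassFunction Γ' Θ := isClassFunction_of_isCharacter hΘ
  have hφinv : ∀ a : ↥(G.comap π), Clifford.conjChar ((N.comap π).subgroupOf (G.comap π)) φ a = φ := by
    intro a
    funext b
    rw [Clifford.conjChar_apply]
    have h := hκinv (a : Γ') (e b)
    show ((κ⁻¹ (e ⟨a * b * a⁻¹, _⟩) : ℂˣ) : ℂ) = ((κ⁻¹ (e b) : ℂˣ) : ℂ)
    rw [MonoidHom.inv_apply, MonoidHom.inv_apply, ← h]
    rfl
  have hϑinv : ∀ a : ↥(G.comap π), Clifford.conjChar ((N.comap π).subgroupOf (G.comap π)) ϑ a = ϑ := by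
    intro a
    funext b
    rw [Clifford.conjChar_apply]
    exact hΘcf ((b : ↥(G.comap π)) : Γ') (a : Γ')
  have hX : IsCharacter ↥(G.comap π) X := isCharacter_restrict (G.comap π) hΘ
  obtain ⟨hg1, -, -⟩ := Clifford.gallagher ((N.comap π).subgroupOf (G.comap π)) hφirr hϑirr hφinv hϑinv
    (by rw [hprodeq]; exact hψirr) hX (fun n => rfl)
  have hβcf : IsClassFunction ↥(G.comap π) β :=
    isClassFunction_of_isCharacter (isCharacter_of_isIrrCharacter hβ)
  have hβφ : classInner (indFun ((N.comap π).subgroupOf (G.comap π)) φ) β ≠ 0 := by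
    rw [frobenius_reciprocity ((N.comap π).subgroupOf (G.comap π)) φ β hβcf, ← classInner_conj_symm]
    have h1 := Clifford.classInner_comp_equiv e (fun n : (N.comap π) => β ⟨n, hNGc n.2⟩)
      (fun n => ((κ⁻¹ n : ℂˣ) : ℂ))
    intro h0
    apply hβκ
    rw [← h1]
    exact (map_eq_zero (starRingEnd ℂ)).mp h0
  obtain ⟨hχirr, hχψ⟩ := hg1 β hβ hβφ
  have hχhcf : IsClassFunction ↥(G.comap π) (β * X) :=
    isClassFunction_of_isCharacter (isCharacter_of_isIrrCharacter hχirr)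
  have hχhψ : classInner (fun b : ↥((N.comap π).subgroupOf (G.comap π)) => (β * X) b) ψ ≠ 0 := by
    rw [hprodeq, frobenius_reciprocity _ ψ (β * X) hχhcf, ← classInner_conj_symm] at hχψ
    exact fun h0 => hχψ (by rw [h0, map_zero])
  have hψinv : ∀ a : ↥(G.comap π), Clifford.conjChar ((N.comap π).subgroupOf (G.comap π)) ψ a = ψ := by
    intro a
    funext b
    rw [Clifford.conjChar_apply]
    have h := hinv (π (a : Γ')) (πN (e b))
    show θ (πN (e ⟨a * b * a⁻¹, _⟩)) = θ (πN (e b))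
    rw [← h]
    refine congrArg θ (Subtype.ext ?_)
    show π ((a : Γ') * ((b : ↥(G.comap π)) : Γ') * (a : Γ')⁻¹) = π a * π ((b : ↥(G.comap π)) : Γ') * (π a)⁻¹
    rw [map_mul, map_mul, map_inv]
  obtain ⟨e', he'⟩ := Cfsg.Agent.H32.res_eq_smul_of_invariant ((N.comap π).subgroupOf (G.comap π)) hχirr hψirr
    hχhψ hψinv
  have hker : ∀ a : ↥(G.comap π), πG a = 1 → (β * X) a = (β * X) 1 := by
    intro a ha
    have haπ : π (a : Γ') = 1 := congrArg Subtype.val ha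
    have haB : a ∈ (N.comap π).subgroupOf (G.comap π) := by
      rw [Subgroup.mem_subgroupOf]
      show π (a : Γ') ∈ N
      rw [haπ]
      exact N.one_mem
    have h1 := congrFun he' ⟨a, haB⟩
    have h2 := congrFun he' 1
    simp only [Pi.smul_apply, smul_eq_mul] at h1 h2
    have h3 : ψ ⟨a, haB⟩ = ψ 1 := by
      show θ (πN (e ⟨a, haB⟩)) = θ (πN (e 1))
      refine congrArg θ (Subtype.ext ?_)
      show π (a : Γ') = π (((1 : ↥((N.comap π).subgroupOf (G.comap π))) : ↥(G.comap π)) : Γ')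
      rw [haπ]
      simp
    rw [h3, ← h2] at h1
    exact h1
  obtain ⟨χ, hχ, hχeq⟩ := exists_deflate_of_surj πG hπG hχirr hker
  refine ⟨χ, hχ, ?_, ?_⟩
  · have h1 := classInner_comp_surj πN hπN (fun n : N => χ ⟨n, hNG n.2⟩) θ
    have h2 := Clifford.classInner_comp_equiv e
      (fun x : (N.comap π) => χ ⟨πN x, hNG (πN x).2⟩) (fun x => θ (πN x))
    rw [← h1, ← h2]
    have h3 : (fun b : ↥((N.comap π).subgroupOf (G.comap π)) => χ ⟨πN (e b), hNG (πN (e b)).2⟩) =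
        fun b : ↥((N.comap π).subgroupOf (G.comap π)) => (β * X) (b : ↥(G.comap π)) := by
      funext b
      rw [← hχeq (b : ↥(G.comap π))]
      rfl
    rw [h3]
    exact hχhψ
  · intro x g
    obtain ⟨y, rfl⟩ := hπ x
    obtain ⟨a, rfl⟩ := hπG g
    have h1 : (⟨π y * (πG a : Γ) * (π y)⁻¹, hG.conj_mem _ (πG a).2 (π y)⟩ : G) =
        πG ⟨y * a * y⁻¹, hGcn.conj_mem a a.2 y⟩ := by
      apply Subtype.ext
      show π y * π (a : Γ') * (π y)⁻¹ = π (y * a * y⁻¹)
      rw [map_mul, map_mul, map_inv]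
    rw [h1, hχeq, hχeq]
    show β ⟨y * a * y⁻¹, _⟩ * Θ (y * a * y⁻¹) = β a * Θ a
    rw [hβinv y a, hΘcf (a : Γ') y]

end Main

end Cfsg.Agent.Lib.Helper96
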