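import Mathlib
import Cfsg.Agent.H66.GrossDefs

/-!
# Gross's theorem, piece FREE: freeness of the action on `Γ/Z`
-/

set_option autoImplicit false

namespace Cfsg.Agent.Lib.Helper96.Gross

open Cfsg Cfsg.Agent.H66.Gross

universe u

/-- A proper positive residue mod `2 ^ n` has a multiple `≡ 2 ^ (n - 1)`. -/
theorem free_arith (n : ℕ) (hn : 0 < n) (k : ℕ) (hk0 : 0 < k) (hk : k < 2 ^ n) :
    ∃ m c : ℕ, k * m = 2 ^ (n - 1) + 2 ^ n * c := by
  obtain ⟨e, o, ho, rfl⟩ := Nat.exists_eq_two_pow_mul_odd (Nat.pos_iff_ne_zero.mp hk0)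
  obtain ⟨c, rfl⟩ := ho
  have he : e < n := by
    by_contra hcon
    push Not at hcon
    have h1 : 2 ^ n ≤ 2 ^ e := Nat.pow_le_pow_right (by norm_num) hcon
    have h2 : 2 ^ e ≤ 2 ^ e * (2 * c + 1) := Nat.le_mul_of_pos_right _ (by omega)
    omega
  refine ⟨2 ^ (n - 1 - e), c, ?_⟩
  have h1 : 2 ^ e * 2 ^ (n - 1 - e) = 2 ^ (n - 1) := by
    rw [← pow_add]; congr 1; omega
  have h2 : 2 ^ n = 2 ^ (n - 1) * 2 := by
    rw [← pow_succ]; congr 1; omega
  calc 2 ^ e * (2 * c + 1) * 2 ^ (n - 1 - e)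
      = (2 ^ e * 2 ^ (n - 1 - e)) * (2 * c + 1) := by ring
    _ = 2 ^ (n - 1) * (2 * c + 1) := by rw [h1]
    _ = 2 ^ (n - 1) + 2 ^ n * c := by rw [h2]; ring

theorem free_holds : FreeStatement.{u} := by
  intro Γ _ _ hodd σ k hk hσ Z hZσ hcomm hinv a haZ i hi0 hik hmem
  apply haZ
  -- Z is normal
  have hnorm : ∀ g z : Γ, z ∈ Z → g * z * g⁻¹ ∈ Z := by
    intro g z hz
    have h1 : g * z * g⁻¹ = (g * z * g⁻¹ * z⁻¹) * z := by group
    rw [h1]
    exact Z.mul_mem (hcomm g z) hz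
  have hZpow : ∀ (j : ℕ), ∀ z ∈ Z, (σ ^ j) z ∈ Z := by
    intro j
    induction j with
    | zero => intro z hz; simpa using hz
    | succ j ih =>
      intro z hz
      rw [pow_succ, MulAut.mul_apply]
      exact ih _ (hZσ z hz)
  have hmul : ∀ m : ℕ, (σ ^ (i * m)) a * a⁻¹ ∈ Z := by
    intro m
    induction m with
    | zero => simp
    | succ m ih =>
      rw [Nat.mul_succ, pow_add, MulAut.mul_apply]
      have h1 : (σ ^ (i * m)) ((σ ^ i) a) * a⁻¹ =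
          (σ ^ (i * m)) ((σ ^ i) a * a⁻¹) * ((σ ^ (i * m)) a * a⁻¹) := by
        rw [map_mul, map_inv]
        group
      rw [h1]
      exact Z.mul_mem (hZpow _ _ hmem) ih
  obtain ⟨m, c, hmc⟩ := free_arith k hk i hi0 hik
  have h1 := hmul m
  rw [hmc, pow_add, pow_mul, hσ, one_pow, mul_one] at h1
  set t : Γ := (σ ^ (2 ^ (k - 1))) a with ht
  have h2 : a * t ∈ Z := hinv a
  have h3 : a⁻¹ * t ∈ Z := by
    have := hnorm a⁻¹ _ h1
    have e : a⁻¹ * (t * a⁻¹) * a⁻¹⁻¹ = a⁻¹ * t := by group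
    rwa [e] at this
  have h4 : a * a ∈ Z := by
    have e : a * a = (a * t) * (a⁻¹ * t)⁻¹ := by group
    rw [e]
    exact Z.mul_mem h2 (Z.inv_mem h3)
  have hoa : Odd (orderOf a) := by
    have hdvd : orderOf a ∣ Nat.card Γ := orderOf_dvd_natCard a
    exact Odd.of_dvd_nat hodd hdvd
  obtain ⟨s, hs⟩ := hoa
  have h5 : a = (a * a) ^ (s + 1) := by
    rw [← pow_two, ← pow_mul, show 2 * (s + 1) = orderOf a + 1 by omega, pow_succ,
      pow_orderOf_eq_one, one_mul]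
  rw [h5]
  exact Z.pow_mem h4 _

end Cfsg.Agent.Lib.Helper96.Gross
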