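import Mathlib
import Cfsg.Agent.H66.GrossDefs

/-!
# Gross's theorem, piece NT: `q ^ d + 1 = 2 ^ k` forces `d = 1`
-/

set_option autoImplicit false

namespace Cfsg.Agent.Lib.Helper96.Gross

open Cfsg Cfsg.Agent.H66.Gross

theorem nt_holds : NTStatement := by
  intro q d k hq hd h
  have hq2 : q ≠ 2 := by
    rintro rfl
    have hk : k ≠ 0 := by
      rintro rfl
      simp at h
    obtain ⟨k', rfl⟩ := Nat.exists_eq_succ_of_ne_zero hk
    obtain ⟨d', rfl⟩ := Nat.exists_eq_succ_of_ne_zero hd.ne'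
    rw [pow_succ, pow_succ] at h
    omega
  have hqodd : Odd q := hq.odd_of_ne_two hq2
  rcases Nat.even_or_odd d with hde | hdo
  · exfalso
    obtain ⟨e, rfl⟩ := hde
    have h1 : (q ^ (e + e)) % 4 = 1 := by
      rw [← two_mul, pow_mul]
      have h0 : q ^ 2 % 4 = 1 := by
        obtain ⟨m, rfl⟩ := hqodd
        have : (2 * m + 1) ^ 2 = 4 * (m * m + m) + 1 := by ring
        rw [this]
        omega
      rw [Nat.pow_mod, h0]
      simp
    have h2 : 2 ^ k % 4 = 2 := by
      rw [← h]
      omega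
    have hk1 : k = 1 := by
      rcases k with _ | _ | k
      · simp at h2
      · rfl
      · rw [pow_succ, pow_succ] at h2
        omega
    subst hk1
    have h3 : 2 ≤ q ^ (e + e) := by
      calc 2 ≤ q := hq.two_le
        _ = q ^ 1 := (pow_one q).symm
        _ ≤ q ^ (e + e) := Nat.pow_le_pow_right hq.pos hd
    omega
  · obtain ⟨c, hc⟩ : q + 1 ∣ q ^ d + 1 := by
      simpa using Odd.nat_add_dvd_pow_add_pow q 1 hdo
    have hS := geom_sum₂_mul (q : ℤ) (-1) d
    rw [hdo.neg_one_pow] at hS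
    have hcS : (c : ℤ) = ∑ i ∈ Finset.range d, (q : ℤ) ^ i * (-1) ^ (d - 1 - i) := by
      have h1 : ((q : ℤ) + 1) * c =
          ((q : ℤ) + 1) * ∑ i ∈ Finset.range d, (q : ℤ) ^ i * (-1) ^ (d - 1 - i) := by
        have h2 : ((q : ℤ) + 1) * c = (q : ℤ) ^ d + 1 := by
          exact_mod_cast hc.symm
        rw [h2]
        linarith
      exact mul_left_cancel₀ (by positivity) h1
    have hcodd : Odd c := by
      have hq1 : (q : ZMod 2) = 1 := (ZMod.natCast_eq_one_iff_odd).mpr hqodd
      have hneg : (-1 : ZMod 2) = 1 := by decide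
      have h2 : ((c : ℤ) : ZMod 2) = 1 := by
        rw [hcS]
        push_cast
        simp only [hq1, hneg, one_pow, mul_one, Finset.sum_const, Finset.card_range,
          nsmul_eq_mul]
        exact (ZMod.natCast_eq_one_iff_odd).mpr hdo
      rw [Int.cast_natCast] at h2
      exact (ZMod.natCast_eq_one_iff_odd).mp h2
    have hc2 : c ∣ 2 ^ k := ⟨q + 1, by rw [← h, hc, mul_comm]⟩
    obtain ⟨j, -, hj⟩ := (Nat.dvd_prime_pow Nat.prime_two).mp hc2
    have hj0 : j = 0 := by
      by_contra hj0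
      obtain ⟨j', rfl⟩ := Nat.exists_eq_succ_of_ne_zero hj0
      rw [hj, pow_succ] at hcodd
      exact (Nat.not_odd_iff_even.mpr (even_two.mul_left _)) hcodd
    rw [hj0, pow_zero] at hj
    rw [hj, mul_one] at hc
    have h4 : q ^ d = q ^ 1 := by
      rw [pow_one]
      omega
    exact Nat.pow_right_injective hq.two_le h4

end Cfsg.Agent.Lib.Helper96.Gross
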