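import Mathlib
import Cfsg.Agent.H66.GrossDefs
import Cfsg.Agent.H66.HHB

/-!
# Gross's theorem, piece R1 (weights)

A `σ`-invariant subgroup `B` acting by commuting operators of invertible order on a
fixed-point-free `σ`-module is acted on trivially (through `ρ`) by `τ = σ ^ (2 ^ (n - 1))`.
-/

set_option autoImplicit false

namespace Cfsg.Agent.Lib.Helper96.Gross

open Cfsg Cfsg.Agent.H66.Gross
open scoped commutatorElement

universe u

/-- If `D ^ m = 1` with `m` invertible, a fixed vector of `D` in the range of `D - 1` is zero. -/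
theorem r1_ker_range {K : Type*} [Field K] {V : Type*} [AddCommGroup V] [Module K V]
    (D : Module.End K V) (m : ℕ) (hm : (m : K) ≠ 0) (hD : D ^ m = 1) (v : V)
    (hfix : D ((D - 1) v) = (D - 1) v) : (D - 1) v = 0 := by
  have h1 : (∑ i ∈ Finset.range m, D ^ i) * (D - 1) = D ^ m - 1 := geom_sum_mul D m
  rw [hD, sub_self] at h1
  have h2 : (∑ i ∈ Finset.range m, D ^ i) ((D - 1) v) = 0 := by
    have := congrArg (fun f : Module.End K V => f v) h1
    simpa using this
  have h3 : ∀ i : ℕ, (D ^ i) ((D - 1) v) = (D - 1) v := by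
    intro i
    induction i with
    | zero => simp
    | succ i ih => rw [pow_succ, Module.End.mul_apply, hfix, ih]
  have h4 : (∑ i ∈ Finset.range m, D ^ i) ((D - 1) v) = (m : K) • (D - 1) v := by
    rw [LinearMap.sum_apply, Finset.sum_congr rfl (fun i _ => h3 i), Finset.sum_const,
      Finset.card_range, Nat.cast_smul_eq_nsmul]
  rw [h4] at h2
  rcases smul_eq_zero.mp h2 with h | h
  · exact absurd h hm
  · exact h

/-- Powers of the intertwiner. -/
theorem r1_intertwine {H : Type*} [Group H] {K : Type*} [Field K] {V : Type*} [AddCommGroup V]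
    [Module K V] (σ : MulAut H) (ρ : H →* Module.End K V) (X : Module.End K V)
    (hX : ∀ h, X * ρ h = ρ (σ h) * X) (i : ℕ) (h : H) :
    X ^ i * ρ h = ρ ((σ ^ i) h) * X ^ i := by
  induction i generalizing h with
  | zero => simp
  | succ i ih =>
    rw [pow_succ, mul_assoc, hX, ← mul_assoc, ih, mul_assoc, pow_succ (σ), MulAut.mul_apply]

/-- The arithmetic: a proper positive residue mod `2 ^ n` has a multiple `≡ 2 ^ (n - 1)`. -/
theorem r1_arith (n : ℕ) (hn : 0 < n) (k : ℕ) (hk0 : 0 < k) (hk : k < 2 ^ n) :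
    ∃ m c : ℕ, k * m = 2 ^ (n - 1) + 2 ^ n * c := by
  obtain ⟨e, o, ho, rfl⟩ := Nat.exists_eq_two_pow_mul_odd (Nat.pos_iff_ne_zero.mp hk0)
  obtain ⟨c, rfl⟩ := ho
  have he : e < n := by
    by_contra hcon
    push Not at hcon
    have h1 : 2 ^ n ≤ 2 ^ e := Nat.pow_le_pow_right (by norm_num) hcon
    have h2 : 2 ^ e ≤ 2 ^ e * (2 * c + 1) := Nat.le_mul_of_pos_right _ (by omega)
    omega
  refine ⟨2 ^ (n - 1 - e), c, ?_⟩
  have h1 : 2 ^ e * 2 ^ (n - 1 - e) = 2 ^ (n - 1) := by
    rw [← pow_add]; congr 1; omega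
  have h2 : 2 ^ n = 2 ^ (n - 1) * 2 := by
    rw [← pow_succ]; congr 1; omega
  calc 2 ^ e * (2 * c + 1) * 2 ^ (n - 1 - e)
      = (2 ^ e * 2 ^ (n - 1 - e)) * (2 * c + 1) := by ring
    _ = 2 ^ (n - 1) * (2 * c + 1) := by rw [h1]
    _ = 2 ^ (n - 1) + 2 ^ n * c := by rw [h2]; ring

theorem r1_holds : R1Statement.{u} := by
  intro H _ _ σ n hn K _ _ V _ _ _ ρ X hfpf B hBσ hBc hBK b0 hb0
  obtain ⟨hσ, hXN, hXρ, hXfix⟩ := hfpf
  by_contra hne
  set τ : MulAut H := σ ^ (2 ^ (n - 1)) with hτ
  -- powers of σ preserve B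
  have hBpow : ∀ (i : ℕ), ∀ b ∈ B, (σ ^ i) b ∈ B := by
    intro i
    induction i with
    | zero => intro b hb; simpa using hb
    | succ i ih =>
      intro b hb
      rw [pow_succ, MulAut.mul_apply]
      exact ih _ (hBσ b hb)
  have hτb0 : τ b0 ∈ B := hBpow _ b0 hb0
  set d : H := τ b0 * b0⁻¹ with hd
  have hdB : d ∈ B := B.mul_mem hτb0 (B.inv_mem hb0)
  set D : Module.End K V := ρ d with hD
  have hDne : D ≠ 1 := by
    intro h1
    apply hne
    have : ρ (τ b0) = ρ d * ρ b0 := by
      rw [← map_mul, hd, inv_mul_cancel_right]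
    rw [this, ← hD, h1, one_mul]
  have hDm : D ^ Nat.card B = 1 := by
    have h1 : (⟨d, hdB⟩ : B) ^ Nat.card B = 1 := pow_card_eq_one'
    have h2 : d ^ Nat.card B = 1 := by
      have h4 := congrArg (fun x : B => (x : H)) h1
      simp only [Subgroup.coe_pow, Subgroup.coe_one] at h4
      exact h4
    rw [hD, ← map_pow, h2, map_one]
  -- the restricted representation
  set ρB : B →* Module.End K V := ρ.comp B.subtype with hρB
  have hcB : ∀ a b : B, ρB a * ρB b = ρB b * ρB a := by
    intro a b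
    exact hBc a a.2 b b.2
  set U : Submodule K V := LinearMap.range (D - 1) with hU
  have hUne : U ≠ ⊥ := by
    intro h0
    apply hDne
    have : D - 1 = 0 := LinearMap.range_eq_bot.mp h0
    exact sub_eq_zero.mp this
  have hUinv : ∀ a : B, ∀ u ∈ U, ρB a u ∈ U := by
    rintro a _ ⟨v, rfl⟩
    refine ⟨ρB a v, ?_⟩
    have h1 : ρ a * D = D * ρ a := hBc a a.2 d hdB
    have h2 : (ρ (a : H) * D) v = (D * ρ (a : H)) v := by rw [h1]
    simp only [Module.End.mul_apply] at h2
    show (D - 1) (ρ (a : H) v) = ρ (a : H) ((D - 1) v)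
    simp only [LinearMap.sub_apply, Module.End.one_apply, map_sub]
    rw [h2]
  obtain ⟨w, hwU, hw0, hweig⟩ :=
    Cfsg.Agent.H66.exists_common_eigenvector ρB hcB U hUne hUinv
  have hDw : D w ≠ w := by
    intro hfix
    obtain ⟨v, rfl⟩ := hwU
    exact hw0 (r1_ker_range D (Nat.card B) hBK hDm v hfix)
  classical
  -- the weight
  have hex : ∀ b : H, ∃ c : K, b ∈ B → ρ b w = c • w := by
    intro b
    by_cases hb : b ∈ B
    · obtain ⟨c, hc⟩ := hweig ⟨b, hb⟩
      exact ⟨c, fun _ => hc⟩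
    · exact ⟨0, fun h => absurd h hb⟩
  choose lam hlam using hex
  have hlamne : lam (τ b0) ≠ lam b0 := by
    intro heq
    apply hDw
    have h1 : D = ρ (b0⁻¹) * ρ (τ b0) := by
      rw [hD, hd, map_mul]
      exact hBc _ hτb0 _ (B.inv_mem hb0)
    rw [h1, Module.End.mul_apply, hlam _ hτb0, heq, ← hlam _ hb0, ← Module.End.mul_apply,
      ← map_mul, inv_mul_cancel, map_one, Module.End.one_apply]
  set N : ℕ := 2 ^ n with hN
  have hNpos : 0 < N := by positivity
  -- the shifted eigenvectors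
  have hshift : ∀ i : ℕ, i ≤ N → ∀ z ∈ B,
      ρ z ((X ^ i) w) = lam ((σ ^ (N - i)) z) • (X ^ i) w := by
    intro i hi z hz
    have h1 := r1_intertwine σ ρ X hXρ i ((σ ^ (N - i)) z)
    have h2 : (σ ^ i) ((σ ^ (N - i)) z) = z := by
      rw [← MulAut.mul_apply, ← pow_add, show i + (N - i) = N by omega, hσ, MulAut.one_apply]
    rw [h2] at h1
    have h3 := congrArg (fun f : Module.End K V => f w) h1
    simp only [Module.End.mul_apply] at h3
    rw [← h3, hlam _ (hBpow _ z hz), map_smul]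
  -- distinctness
  have hJ : ∀ k : ℕ, 0 < k → k < N → ¬ (∀ z ∈ B, lam ((σ ^ k) z) = lam z) := by
    intro k hk0 hkN hall
    obtain ⟨m, c, hmc⟩ := r1_arith n hn k hk0 hkN
    have hmul : ∀ m : ℕ, ∀ z ∈ B, lam ((σ ^ (k * m)) z) = lam z := by
      intro m
      induction m with
      | zero => intro z hz; simp
      | succ m ih =>
        intro z hz
        rw [Nat.mul_succ, pow_add, MulAut.mul_apply, ih _ (hBpow k z hz), hall z hz]
    have h1 := hmul m b0 hb0
    rw [hmc, pow_add, pow_mul, hσ, one_pow, mul_one] at h1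
    exact hlamne h1
  have hdist : ∀ i ∈ Finset.range N, ∀ j ∈ Finset.range N, i ≠ j →
      ∃ z ∈ (B : Set H), (fun (i : ℕ) (z : H) => lam ((σ ^ (N - i)) z)) i z ≠
        (fun (i : ℕ) (z : H) => lam ((σ ^ (N - i)) z)) j z := by
    have key : ∀ i j : ℕ, i < j → j < N →
        ∃ z ∈ (B : Set H), lam ((σ ^ (N - i)) z) ≠ lam ((σ ^ (N - j)) z) := by
      intro i j hij hjN
      by_contra hcon
      push Not at hcon
      apply hJ (j - i) (by omega) (by omega)
      intro z hz
      have h1 := hcon ((σ ^ j) z) (hBpow j z hz)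
      rw [← MulAut.mul_apply, ← pow_add, ← MulAut.mul_apply, ← pow_add,
        show N - j + j = N by omega, hσ, MulAut.one_apply,
        show N - i + j = (j - i) + N by omega, pow_add, hσ, mul_one] at h1
      exact h1
    intro i hi j hj hij
    rw [Finset.mem_range] at hi hj
    rcases lt_or_gt_of_ne hij with h | h
    · exact key i j h hj
    · obtain ⟨z, hz, hne'⟩ := key j i h hi
      exact ⟨z, hz, fun e => hne' e.symm⟩
  -- the sum is fixed by X
  set u : V := ∑ i ∈ Finset.range N, (X ^ i) w with hu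
  have hXu : X u = u := by
    have h1 : X u = ∑ i ∈ Finset.range N, (X ^ (i + 1)) w := by
      rw [hu, map_sum]
      refine Finset.sum_congr rfl (fun i _ => ?_)
      rw [pow_succ', Module.End.mul_apply]
    have h2 := Finset.sum_range_succ' (fun i => (X ^ i) w) N
    have h3 := Finset.sum_range_succ (fun i => (X ^ i) w) N
    rw [h3] at h2
    simp only [hXN, pow_zero, Module.End.one_apply] at h2
    rw [h1]
    exact (add_right_cancel h2).symm
  have hu0 : u = 0 := hXfix u hXu
  have hall := Cfsg.Agent.H66.weight_indep (fun z : H => ρ z) (B : Set H)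
    (fun (i : ℕ) (z : H) => lam ((σ ^ (N - i)) z)) (Finset.range N) hdist
    (fun i => (X ^ i) w)
    (fun i hi z hz => hshift i (le_of_lt (Finset.mem_range.mp hi)) z hz) hu0
  have h0 := hall 0 (Finset.mem_range.mpr hNpos)
  simp only [pow_zero, Module.End.one_apply] at h0
  exact hw0 h0

end Cfsg.Agent.Lib.Helper96.Gross
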