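import Mathlib
import Cfsg.Agent.H66.GrossDefs
import Cfsg.Agent.H13.CopHH2

/-!
# Gross's theorem, piece R2Irr (irreducible critical case, general `N`)

Adapted from `Cfsg.Agent.H13.CopHH.cop_irr_dim` (prime `r` replaced by any `N > 1` invertible
in `K`, no hypothesis that `σ` fixes `Z` pointwise, and with the eigenvalue statement).
-/

set_option autoImplicit false
set_option linter.style.haveILetI false
set_option linter.unusedVariables false

namespace Cfsg.Agent.Lib.Helper96.Gross

open Cfsg Cfsg.Agent.H66.Gross Cfsg.Agent.H66 Cfsg.Agent.H13.CopHH Module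

universe u v

/-- An endomorphism with `g ^ r = 1`, `r` invertible, has an eigenbasis. -/
theorem r2irr_eigenbasis {K : Type v} [Field K] [IsAlgClosed K] {V : Type u} [AddCommGroup V]
    [Module K V] [FiniteDimensional K V] (g : Module.End K V) (r : ℕ) (hrK : (r : K) ≠ 0)
    (hgr : g ^ r = 1) :
    ∃ (ι : Type v) (_ : Fintype ι) (_ : DecidableEq ι) (b : Basis ι K V) (d : ι → K),
      ∀ k, g (b k) = d k • b k := by
  classical
  have hsq : Squarefree ((Polynomial.X : Polynomial K) ^ r - Polynomial.C 1) :=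
    (Polynomial.separable_X_pow_sub_C (1 : K) hrK one_ne_zero).squarefree
  have hss : g.IsSemisimple := by
    apply Module.End.isSemisimple_of_squarefree_aeval_eq_zero hsq
    simp [hgr]
  have hsup : ⨆ μ : K, g.eigenspace μ = ⊤ := hss.iSup_eigenspace_eq_top
  have hint := DirectSum.isInternal_submodule_of_iSupIndep_of_iSup_eq_top
    g.eigenspaces_iSupIndep hsup
  obtain ⟨b, hb⟩ : ∃ b : Basis (Σ μ : K, Fin (Module.finrank K (g.eigenspace μ))) K V,
      b = hint.collectedBasis (fun μ => Module.finBasis K (g.eigenspace μ)) := ⟨_, rfl⟩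
  haveI : Finite (Σ μ : K, Fin (Module.finrank K (g.eigenspace μ))) := Module.Finite.finite_basis b
  refine ⟨_, Fintype.ofFinite _, inferInstance, b, fun a => a.1, ?_⟩
  intro a
  have h1 : b a ∈ g.eigenspace a.1 := by
    rw [hb]; exact hint.collectedBasis_mem _ a
  exact Module.End.mem_eigenspace_iff.mp h1

/-- The counting. -/
theorem r2irr_arith (N d f P : ℕ) (hN : 1 < N) (hd1 : 1 < d) (hdf : N * f + 1 = d ^ 2)
    (hP : P ≤ f + 1) (hdP : d ≤ P) (hsq : d ^ 2 ≤ (N - 1) * P) : d = N - 1 ∧ P = d := by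
  obtain ⟨R, rfl⟩ : ∃ R, N = R + 1 := ⟨N - 1, by omega⟩
  obtain ⟨e, rfl⟩ : ∃ e, d = e + 1 := ⟨d - 1, by omega⟩
  have e1 : R + 1 - 1 = R := by omega
  rw [e1] at hsq ⊢
  have he : 1 ≤ e := by omega
  have h1 : (e + 1) ^ 2 ≤ R * (f + 1) := hsq.trans (Nat.mul_le_mul_left R hP)
  have h2 : f + 1 ≤ R := by nlinarith
  have h3 : (e + 1) ^ 2 ≤ R ^ 2 := by nlinarith
  have h4 : e + 1 ≤ R := by
    by_contra hcon
    push Not at hcon
    nlinarith
  have h5 : e ≤ f := by omega
  have h6 : R ≤ e + 1 := by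
    have h7 : (R + 1) * e ≤ (R + 1) * f := Nat.mul_le_mul_left _ h5
    have h8 : (R + 1) * f = e * (e + 2) := by nlinarith
    rw [h8] at h7
    have h9 : R + 1 ≤ e + 2 := by
      by_contra hcon
      push Not at hcon
      nlinarith
    omega
  have h10 : e + 1 = R := by omega
  refine ⟨h10, ?_⟩
  omega

theorem r2irr_holds : R2IrrStatement.{u} := by
  intro Γ _ _ K _ _ W _ _ _ _ ρ Z N hN1 hNK hirr hcomm hZs hnd hZtop σ hσN hfree g hgN hint hfpf
  classical
  haveI : Fintype Γ := Fintype.ofFinite Γ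
  have hN0 : 0 < N := by omega
  have hpow_iter : ∀ (i : ℕ) (a : Γ), (σ ^ i) a = (⇑σ)^[i] a := by
    intro i
    induction i with
    | zero => intro a; rfl
    | succ i ih =>
      intro a
      rw [pow_succ, MulAut.mul_apply, ih, Function.iterate_succ_apply]
  have hσm : ∀ a, (⇑σ)^[N] a = a := by
    intro a
    rw [← hpow_iter, hσN, MulAut.one_apply]
  have hfree' : ∀ a, a ∉ Z → ∀ i, 0 < i → i < N → (⇑σ)^[i] a * a⁻¹ ∉ Z := by
    intro a ha i hi0 hi
    rw [← hpow_iter]
    exact hfree a ha i hi0 hi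
  obtain ⟨d, hd⟩ : ∃ d, d = Module.finrank K W := ⟨_, rfl⟩
  have hd2 : d ^ 2 = Z.index := by
    rw [hd]; exact finrank_sq_eq_index ρ Z hirr hcomm hZs hnd
  have hdpos : 0 < d := by rw [hd]; exact Module.finrank_pos
  haveI hZn : Z.Normal := by
    constructor
    intro z hz a
    have h1 := hcomm a z
    have h2 : a * z * a⁻¹ = a * z * a⁻¹ * z⁻¹ * z := by group
    rw [h2]
    exact Z.mul_mem h1 hz
  haveI : Fintype (Γ ⧸ Z) := Fintype.ofFinite _
  -- inverse of g
  obtain ⟨g', hg'def⟩ : ∃ g' : Module.End K W, g' = g ^ (N - 1) := ⟨_, rfl⟩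
  have hgg' : g * g' = 1 := by
    rw [hg'def, ← pow_succ', Nat.sub_add_cancel hN0, hgN]
  have hg'g : g' * g = 1 := by
    rw [hg'def, ← pow_succ, Nat.sub_add_cancel hN0, hgN]
  -- `ρ ∘ σ = ρ` on `Z`
  have hρσZ : ∀ z ∈ Z, ρ (σ z) = ρ z := by
    intro z hz
    obtain ⟨c, hc⟩ := hZs z hz
    have h1 := hint z
    rw [hc] at h1
    have h2 : ρ (σ z) = ρ (σ z) * g * g' := by rw [mul_assoc, hgg', mul_one]
    rw [h2, ← h1, hc, mul_smul_comm, mul_one, smul_mul_assoc, hgg']
  have hσZmem : ∀ z ∈ Z, σ z ∈ Z := by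
    intro z hz
    apply hnd
    intro b
    obtain ⟨c, hc⟩ := hZs z hz
    have h1 : ρ (b * σ z * b⁻¹ * (σ z)⁻¹) = ρ b * ρ (σ z) * ρ b⁻¹ * ρ (σ z)⁻¹ := by
      rw [map_mul, map_mul, map_mul]
    have h2 : ρ b * ρ (σ z) * ρ b⁻¹ * ρ (σ z)⁻¹ = ρ (σ z) * (ρ b * ρ b⁻¹) * ρ (σ z)⁻¹ := by
      rw [hρσZ z hz, hc]
      simp only [mul_smul_comm, smul_mul_assoc, mul_one, one_mul]
    rw [h1, h2, rho_mul_inv, mul_one, rho_mul_inv]
  have hσZ' : Z ≤ Z.comap σ.toMonoidHom := by
    intro z hz
    rw [Subgroup.mem_comap]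
    exact hσZmem z hz
  obtain ⟨τ, hτ⟩ : ∃ τ : Γ ⧸ Z →* Γ ⧸ Z, τ = QuotientGroup.map Z Z σ.toMonoidHom hσZ' := ⟨_, rfl⟩
  have hτmk : ∀ a : Γ, τ (QuotientGroup.mk a) = QuotientGroup.mk (σ a) := by
    intro a; rw [hτ]; rfl
  have hτiter : ∀ (i : ℕ) (a : Γ),
      (⇑τ)^[i] (QuotientGroup.mk a) = QuotientGroup.mk ((⇑σ)^[i] a) := by
    intro i
    induction i with
    | zero => intro a; rfl
    | succ i ih =>
      intro a
      rw [Function.iterate_succ_apply, hτmk, ih, Function.iterate_succ_apply]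
  obtain ⟨S, hScard, hScov⟩ := exists_orbit_reps (⇑τ) N hN0 (1 : Γ ⧸ Z) (map_one τ)
    (by
      intro w
      obtain ⟨a, rfl⟩ := QuotientGroup.mk_surjective w
      rw [hτiter, hσm])
    (by
      intro w hw i hi0 hi h
      obtain ⟨a, rfl⟩ := QuotientGroup.mk_surjective w
      have ha : a ∉ Z := fun h' => hw ((QuotientGroup.eq_one_iff a).mpr h')
      apply hfree' a ha i hi0 hi
      rw [hτiter] at h
      have h1 : ((⇑σ)^[i] a)⁻¹ * a ∈ Z := QuotientGroup.eq.mp h
      have h2 := hZn.conj_mem _ (Z.inv_mem h1) a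
      have e : a * (((⇑σ)^[i] a)⁻¹ * a)⁻¹ * a⁻¹ = (⇑σ)^[i] a * a⁻¹ := by group
      rwa [e] at h2)
  have hcardQ : Fintype.card (Γ ⧸ Z) = d ^ 2 := by
    rw [hd2, Subgroup.index_eq_card, Nat.card_eq_fintype_card]
  rw [hcardQ] at hScard
  have hpowinv : ∀ i : ℕ, g ^ i * g' ^ i = 1 := by
    intro i
    induction i with
    | zero => simp
    | succ i ih =>
      rw [pow_succ, pow_succ', mul_assoc, ← mul_assoc g, hgg', one_mul, ih]
  have hconj : ∀ (i : ℕ) (a : Γ), ρ ((⇑σ)^[i] a) = g ^ i * ρ a * g' ^ i := by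
    intro i a
    have h1 := intertwine_pow ρ g σ hint i a
    rw [h1, mul_assoc, hpowinv, mul_one]
  have hiterZ : ∀ (i : ℕ) (z : Γ), z ∈ Z → ρ ((⇑σ)^[i] z) = ρ z := by
    intro i
    induction i with
    | zero => intro z hz; rfl
    | succ i ih =>
      intro z hz
      rw [Function.iterate_succ_apply, ih (σ z) (hσZmem z hz), hρσZ z hz]
  -- the orbit sums
  obtain ⟨Ts, hTs⟩ : ∃ Ts : Γ → Module.End K W,
      Ts = fun a => ∑ i ∈ Finset.range N, ρ ((⇑σ)^[i] a) := ⟨_, rfl⟩
  obtain ⟨gen, hgen⟩ : ∃ gen : Finset (Module.End K W),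
      gen = insert 1 (S.image (fun s => Ts (Quotient.out s))) := ⟨_, rfl⟩
  obtain ⟨M, hM⟩ : ∃ M : Submodule K (Module.End K W), M = Submodule.span K (gen : Set _) :=
    ⟨_, rfl⟩
  have hperiod : ∀ (a : Γ) (i : ℕ), (⇑σ)^[i + N] a = (⇑σ)^[i] a := by
    intro a i
    rw [Function.iterate_add_apply, hσm]
  have hTsM : ∀ a : Γ, Ts a ∈ M := by
    intro a
    by_cases ha : a ∈ Z
    · obtain ⟨c, hc⟩ := hZs a ha
      have h2 : Ts a = ((N : K) * c) • (1 : Module.End K W) := by
        rw [hTs]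
        simp only
        rw [Finset.sum_congr rfl (fun i _ => by rw [hiterZ i a ha]), Finset.sum_const,
          Finset.card_range, hc, ← Nat.cast_smul_eq_nsmul K, smul_smul]
      rw [h2, hM]
      apply Submodule.smul_mem
      apply Submodule.subset_span
      rw [hgen]
      exact Finset.mem_coe.mpr (Finset.mem_insert_self _ _)
    · have hw : (QuotientGroup.mk a : Γ ⧸ Z) ≠ 1 := fun h => ha ((QuotientGroup.eq_one_iff a).mp h)
      obtain ⟨s, hs, i₀, hi₀, hsa⟩ := hScov _ hw
      obtain ⟨t, ht⟩ : ∃ t : Γ, t = Quotient.out s := ⟨_, rfl⟩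
      have hts : (QuotientGroup.mk t : Γ ⧸ Z) = s := by rw [ht]; exact QuotientGroup.out_eq' s
      rw [← hts, hτiter] at hsa
      have hz : ((⇑σ)^[i₀] t)⁻¹ * a ∈ Z := QuotientGroup.eq.mp hsa
      obtain ⟨c, hc⟩ := hZs _ hz
      have hiter_mul : ∀ (i : ℕ) (x y : Γ), (⇑σ)^[i] (x * y) = (⇑σ)^[i] x * (⇑σ)^[i] y := by
        intro i
        induction i with
        | zero => intro x y; rfl
        | succ i ih =>
          intro x y
          rw [Function.iterate_succ_apply, Function.iterate_succ_apply, Function.iterate_succ_apply,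
            map_mul, ih]
      have h1 : ∀ i : ℕ, ρ ((⇑σ)^[i] a) = c • ρ ((⇑σ)^[i + i₀] t) := by
        intro i
        have e : a = (⇑σ)^[i₀] t * (((⇑σ)^[i₀] t)⁻¹ * a) := by group
        conv_lhs => rw [e]
        rw [hiter_mul, map_mul, hiterZ i _ hz, hc, mul_smul_comm, mul_one,
          ← Function.iterate_add_apply]
      have h2 : Ts a = c • Ts t := by
        rw [hTs]
        simp only
        rw [Finset.sum_congr rfl (fun i _ => h1 i), ← Finset.smul_sum]
        congr 1
        exact sum_range_shift (fun i => ρ ((⇑σ)^[i] t)) N (fun i => by rw [hperiod]) i₀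
      rw [h2, hM]
      apply Submodule.smul_mem
      apply Submodule.subset_span
      rw [hgen, ht]
      exact Finset.mem_coe.mpr (Finset.mem_insert_of_mem (Finset.mem_image_of_mem _ hs))
  have hcommM : commutant g ≤ M := by
    intro B hB
    rw [mem_commutant] at hB
    have hBpow : ∀ i : ℕ, g ^ i * B * g' ^ i = B := by
      intro i
      have h1 : g ^ i * B = B * g ^ i := by
        induction i with
        | zero => simp
        | succ i ih => rw [pow_succ, mul_assoc, ← hB, ← mul_assoc, ih, mul_assoc]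
      rw [h1, mul_assoc, hpowinv, mul_one]
    have hspan : B ∈ Submodule.span K (Set.range ρ) := by
      rw [rho_span_top ρ hirr]; trivial
    obtain ⟨c, hc⟩ := (Submodule.mem_span_range_iff_exists_fun K).mp hspan
    have h1 : (N : K) • B = ∑ a : Γ, c a • Ts a := by
      calc (N : K) • B = ∑ i ∈ Finset.range N, g ^ i * B * g' ^ i := by
            rw [Finset.sum_congr rfl (fun i _ => hBpow i), Finset.sum_const, Finset.card_range,
              Nat.cast_smul_eq_nsmul]
        _ = ∑ i ∈ Finset.range N, ∑ a : Γ, c a • ρ ((⇑σ)^[i] a) := by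
            apply Finset.sum_congr rfl
            intro i _
            rw [← hc, Finset.mul_sum, Finset.sum_mul]
            apply Finset.sum_congr rfl
            intro a _
            rw [hconj, mul_smul_comm, smul_mul_assoc]
        _ = ∑ a : Γ, c a • Ts a := by
            rw [Finset.sum_comm]
            apply Finset.sum_congr rfl
            intro a _
            rw [hTs, Finset.smul_sum]
    have h2 : (N : K) • B ∈ M := by
      rw [h1]
      exact Submodule.sum_mem _ (fun a _ => Submodule.smul_mem _ _ (hTsM a))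
    have h3 : B = (N : K)⁻¹ • ((N : K) • B) := by
      rw [smul_smul, inv_mul_cancel₀ hNK, one_smul]
    rw [h3]
    exact Submodule.smul_mem _ _ h2
  have hupper : Module.finrank K (commutant g) ≤ S.card + 1 := by
    calc Module.finrank K (commutant g) ≤ Module.finrank K M := Submodule.finrank_mono hcommM
      _ ≤ gen.card := by
          rw [hM]
          exact finrank_span_finset_le_card gen
      _ ≤ S.card + 1 := by
          rw [hgen]
          exact (Finset.card_insert_le _ _).trans (Nat.succ_le_succ Finset.card_image_le)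
  -- the eigenbasis
  obtain ⟨ι, hιf, hιd, b, dd, hb⟩ := r2irr_eigenbasis g N hNK hgN
  have hdd1 : ∀ k : ι, dd k ^ N = 1 := by
    intro k
    have h1 := pow_apply_eigen g (b k) (dd k) (hb k) N
    rw [hgN, Module.End.one_apply] at h1
    have h2 : (dd k ^ N - 1) • b k = 0 := by rw [sub_smul, one_smul, ← h1, sub_self]
    rcases smul_eq_zero.mp h2 with h3 | h3
    · exact sub_eq_zero.mp h3
    · exact absurd h3 (b.ne_zero k)
  have hdd2 : ∀ k : ι, dd k ≠ 1 := by
    intro k h
    have h1 := hb k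
    rw [h, one_smul] at h1
    exact b.ne_zero k (hfpf _ h1)
  obtain ⟨D, hD⟩ : ∃ D : Finset K, D = (Polynomial.nthRootsFinset N (1 : K)).erase 1 := ⟨_, rfl⟩
  have hDmem : ∀ k : ι, dd k ∈ D := by
    intro k
    rw [hD, Finset.mem_erase]
    exact ⟨hdd2 k, (Polynomial.mem_nthRootsFinset hN0 1).mpr (hdd1 k)⟩
  have hDcard : D.card ≤ N - 1 := by
    have h1 : (1 : K) ∈ Polynomial.nthRootsFinset N (1 : K) :=
      (Polynomial.mem_nthRootsFinset hN0 1).mpr (one_pow N)
    rw [hD, Finset.card_erase_of_mem h1]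
    have h2 : (Polynomial.nthRootsFinset N (1 : K)).card ≤ N := by
      unfold Polynomial.nthRootsFinset
      exact (Multiset.toFinset_card_le _).trans (Polynomial.card_nthRoots N 1)
    omega
  have hp1 := sq_card_le_card_pairs dd D hDmem
  have hp2 := card_le_finrank_commutant b g dd hb
  have hdι : d = Fintype.card ι := by rw [hd, Module.finrank_eq_card_basis b]
  obtain ⟨P, hP⟩ : ∃ P, P = Nat.card {p : ι × ι // dd p.1 = dd p.2} := ⟨_, rfl⟩
  rw [← hP] at hp1 hp2
  have hPf : P = Fintype.card {p : ι × ι // dd p.1 = dd p.2} := by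
    rw [hP, Nat.card_eq_fintype_card]
  obtain ⟨diag, hdiag⟩ : ∃ diag : ι → {p : ι × ι // dd p.1 = dd p.2},
      diag = fun k => ⟨(k, k), rfl⟩ := ⟨_, rfl⟩
  have hdiag_inj : Function.Injective diag := by
    intro k l h
    rw [hdiag] at h
    have h1 := congrArg (fun p : {p : ι × ι // dd p.1 = dd p.2} => p.1.1) h
    exact h1
  have hdP : d ≤ P := by
    rw [hdι, hPf]
    exact Fintype.card_le_of_injective diag hdiag_inj
  have hd1 : 1 < d := by
    by_contra hcon
    have h8 : d = 1 := by omega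
    rw [h8, one_pow] at hd2
    exact hZtop (Subgroup.index_eq_one.mp hd2.symm)
  have hsq : d ^ 2 ≤ (N - 1) * P := by
    rw [hdι]
    exact hp1.trans (Nat.mul_le_mul_right P hDcard)
  obtain ⟨hdN, hPd⟩ := r2irr_arith N d S.card P hN1 hd1 hScard (hp2.trans hupper) hdP hsq
  refine ⟨by rw [← hd, hdN], ?_⟩
  -- the eigenvalues are pairwise distinct
  have hdiag_bij : Function.Bijective diag := by
    rw [Fintype.bijective_iff_injective_and_card]
    exact ⟨hdiag_inj, by rw [← hPf, hPd, hdι]⟩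
  have hdd_inj : Function.Injective dd := by
    intro k l hkl
    obtain ⟨m, hm⟩ := hdiag_bij.2 ⟨(k, l), hkl⟩
    rw [hdiag] at hm
    have h1 := congrArg (fun p : {p : ι × ι // dd p.1 = dd p.2} => p.1.1) hm
    have h2 := congrArg (fun p : {p : ι × ι // dd p.1 = dd p.2} => p.1.2) hm
    simp only at h1 h2
    rw [← h1, ← h2]
  have himg : Finset.univ.image dd = D := by
    apply Finset.eq_of_subset_of_card_le
    · intro x hx
      obtain ⟨k, -, rfl⟩ := Finset.mem_image.mp hx
      exact hDmem k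
    · rw [Finset.card_image_of_injective _ hdd_inj, Finset.card_univ, ← hdι, hdN]
      exact hDcard
  intro c hcN hc1
  have hcD : c ∈ D := by
    rw [hD, Finset.mem_erase]
    exact ⟨hc1, (Polynomial.mem_nthRootsFinset hN0 1).mpr hcN⟩
  rw [← himg] at hcD
  obtain ⟨k, -, rfl⟩ := Finset.mem_image.mp hcD
  exact ⟨b k, b.ne_zero k, hb k⟩

end Cfsg.Agent.Lib.Helper96.Gross
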