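import Mathlib
import Cfsg.Agent.H66.GrossDefs
import Cfsg.Agent.H13.CopHH2
import Cfsg.Agent.H98.SelfDual
import Cfsg.Agent.Lib.Helper96.GrossR2Irr

/-!
# Gross's theorem, piece R2 (critical case on an arbitrary module)

Adapted from `Cfsg.Agent.H13.CopHH.cop_main` (same `T`-trick).
-/

set_option autoImplicit false
set_option linter.style.haveILetI false
set_option linter.unusedVariables false

namespace Cfsg.Agent.Lib.Helper96.Gross

open Cfsg Cfsg.Agent.H66.Gross Cfsg.Agent.H66 Cfsg.Agent.H13.CopHH Module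

universe u

section Intertwiner

variable {K : Type*} [Field K] {Γ : Type*} [Group Γ] [Finite Γ] {V₁ : Type*} [AddCommGroup V₁]
  [Module K V₁] [FiniteDimensional K V₁] [Nontrivial V₁]
  (ρ₁ : Γ →* Module.End K V₁) (Z : Subgroup Γ)

/-- Variant of `cop_exists_intertwiner`: `σ` need not fix `Z` pointwise, only `ρ₁ ∘ σ = ρ₁`
on `Z`. -/
theorem r2_exists_intertwiner [IsAlgClosed K] (r : ℕ) (hr : 1 < r)
    (hcard : (Nat.card Γ : K) ≠ 0)
    (hirr : ∀ W : Submodule K V₁, (∀ a : Γ, ∀ w ∈ W, ρ₁ a w ∈ W) → W = ⊥ ∨ W = ⊤)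
    (hcomm : ∀ a b : Γ, a * b * a⁻¹ * b⁻¹ ∈ Z)
    (hZs : ∀ z ∈ Z, ∃ c : K, ρ₁ z = c • 1)
    (hnd : ∀ a : Γ, (∀ b : Γ, ρ₁ (b * a * b⁻¹ * a⁻¹) = 1) → a ∈ Z)
    (σ : Γ ≃* Γ) (hσZ : ∀ z ∈ Z, ρ₁ (σ z) = ρ₁ z) (hσm : ∀ a, σ^[r] a = a)
    (hfree : ∀ a, a ∉ Z → σ a * a⁻¹ ∉ Z) :
    ∃ g : Module.End K V₁, g ^ r = 1 ∧ (∀ a, g * ρ₁ a = ρ₁ (σ a) * g) := by
  classical
  haveI : Fintype Γ := Fintype.ofFinite Γ
  have hr0 : 0 < r := by omega
  have hcast : ∀ k : ℕ, k ∣ Nat.card Γ → (k : K) ≠ 0 := by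
    rintro k ⟨m, hm⟩ h0
    apply hcard
    rw [hm, Nat.cast_mul, h0, zero_mul]
  obtain ⟨d, hd⟩ : ∃ d, d = Module.finrank K V₁ := ⟨_, rfl⟩
  have hd2 : d ^ 2 = Z.index := by
    rw [hd]; exact finrank_sq_eq_index ρ₁ Z hirr hcomm hZs hnd
  have hidx : Z.index ∣ Nat.card Γ := Subgroup.index_dvd_card Z
  have hcardZ : Nat.card Z ∣ Nat.card Γ := Subgroup.card_subgroup_dvd_card Z
  have hdK : (d : K) ≠ 0 :=
    hcast d ((dvd_pow_self d two_ne_zero).trans (hd2 ▸ hidx))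
  have hZK : (Nat.card Z : K) ≠ 0 := hcast _ hcardZ
  obtain ⟨g₀, hg₀⟩ : ∃ g₀ : Module.End K V₁, g₀ = ∑ a : Γ, ρ₁ (σ a) * ρ₁ a⁻¹ := ⟨_, rfl⟩
  have hint₀ : ∀ b, g₀ * ρ₁ b = ρ₁ (σ b) * g₀ := by
    intro b
    rw [hg₀, Finset.sum_mul, Finset.mul_sum]
    rw [← Equiv.sum_comp (Equiv.mulLeft b⁻¹) (fun a => ρ₁ (σ b) * (ρ₁ (σ a) * ρ₁ a⁻¹))]
    apply Finset.sum_congr rfl
    intro a _
    show _ = ρ₁ (σ b) * (ρ₁ (σ (b⁻¹ * a)) * ρ₁ (b⁻¹ * a)⁻¹)
    have e : σ b * (σ (b⁻¹ * a) * (b⁻¹ * a)⁻¹) = σ a * a⁻¹ * b := by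
      rw [map_mul σ, map_inv σ]; group
    rw [← map_mul ρ₁, ← map_mul ρ₁, ← map_mul ρ₁, ← map_mul ρ₁, e]
  have htr : LinearMap.trace K V₁ g₀ = (Nat.card Z : K) * d := by
    rw [hg₀, map_sum]
    have hterm : ∀ a : Γ, LinearMap.trace K V₁ (ρ₁ (σ a) * ρ₁ a⁻¹) =
        if a ∈ Z then (d : K) else 0 := by
      intro a
      split_ifs with ha
      · rw [hσZ a ha, ← map_mul ρ₁, mul_inv_cancel, map_one, LinearMap.trace_one, hd]
      · rw [← map_mul ρ₁]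
        exact trace_rho_eq_zero ρ₁ Z hcomm hZs hnd _ (hfree a ha)
    rw [Finset.sum_congr rfl (fun a _ => hterm a), Finset.sum_ite, Finset.sum_const_zero,
      add_zero, Finset.sum_const, nsmul_eq_mul]
    congr 2
    rw [Nat.card_eq_fintype_card, Fintype.card_subtype]
  have hcommute : ∀ b, g₀ ^ r * ρ₁ b = ρ₁ b * g₀ ^ r := by
    intro b
    have := intertwine_pow ρ₁ g₀ σ hint₀ r b
    rw [hσm] at this
    exact this
  obtain ⟨μ, hμ⟩ := schur_scalar ρ₁ hirr _ hcommute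
  have hμ0 : μ ≠ 0 := by
    intro h
    rw [h, zero_smul] at hμ
    have hnil : IsNilpotent g₀ := ⟨r, hμ⟩
    have h1 := LinearMap.isNilpotent_trace_of_isNilpotent hnil
    rw [htr] at h1
    exact mul_ne_zero hZK hdK (IsNilpotent.eq_zero h1)
  obtain ⟨κ, hκ⟩ := IsAlgClosed.exists_pow_nat_eq μ⁻¹ hr0
  refine ⟨κ • g₀, ?_, ?_⟩
  · rw [smul_pow, hκ, hμ, smul_smul, inv_mul_cancel₀ hμ0, one_smul]
  · intro a
    rw [smul_mul_assoc, hint₀, mul_smul_comm]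

end Intertwiner

/-- Key claim: every minimal invariant subspace has dimension `N - 1` and carries all the
`N`-th roots of unity `≠ 1` as eigenvalues of `X`. -/
theorem r2_key (hIrr : R2IrrStatement.{u}) (Γ : Type u) [Group Γ] [Finite Γ] (K : Type) [Field K]
    [IsAlgClosed K] (V : Type u) [AddCommGroup V] [Module K V] [FiniteDimensional K V]
    [Nontrivial V]
    (ρ : Γ →* Module.End K V) (Z : Subgroup Γ) (N : ℕ) (hN1 : 1 < N) (hNK : (N : K) ≠ 0)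
    (hcard : (Nat.card Γ : K) ≠ 0)
    (hcomm : ∀ a b : Γ, a * b * a⁻¹ * b⁻¹ ∈ Z) (hZs : ∀ z ∈ Z, ∃ c : K, ρ z = c • 1)
    (hnd : ∀ a : Γ, (∀ b : Γ, ρ (b * a * b⁻¹ * a⁻¹) = 1) → a ∈ Z) (hZtop : Z ≠ ⊤)
    (σ : MulAut Γ) (X : Module.End K V) (hσN : σ ^ N = 1) (hXN : X ^ N = 1)
    (hXρ : ∀ h, X * ρ h = ρ (σ h) * X) (hXfix : ∀ v, X v = v → v = 0)
    (hfree : ∀ a, a ∉ Z → ∀ i, 0 < i → i < N → (σ ^ i) a * a⁻¹ ∉ Z)
    (W : Submodule K V) (hWne : W ≠ ⊥) (hWinv : ∀ a : Γ, ∀ w ∈ W, ρ a w ∈ W)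
    (hWmin : ∀ U : Submodule K V, U ≤ W → (∀ a : Γ, ∀ w ∈ U, ρ a w ∈ U) → U = ⊥ ∨ U = W) :
    Module.finrank K W = N - 1 ∧ Z.index = (N - 1) ^ 2 ∧
      ∀ c : K, c ^ N = 1 → c ≠ 1 → ∃ v ∈ W, v ≠ 0 ∧ X v = c • v := by
  classical
  have hN0 : 0 < N := by omega
  haveI : Nontrivial W := Submodule.nontrivial_iff_ne_bot.mpr hWne
  obtain ⟨ρ₁, hρ₁⟩ : ∃ ρ₁ : Γ →* Module.End K W, ρ₁ = resRep ρ W hWinv := ⟨_, rfl⟩
  have hρ₁apply : ∀ (a : Γ) (w : W), ((ρ₁ a) w : V) = ρ a w := by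
    intro a w; rw [hρ₁]; rfl
  have hirr₁ : ∀ U : Submodule K W, (∀ a : Γ, ∀ w ∈ U, ρ₁ a w ∈ U) → U = ⊥ ∨ U = ⊤ := by
    rw [hρ₁]; exact resRep_irr ρ W hWinv hWmin
  have hZs₁ : ∀ z ∈ Z, ∃ c : K, ρ₁ z = c • 1 := by
    intro z hz
    obtain ⟨c, hc⟩ := hZs z hz
    refine ⟨c, ?_⟩
    ext w
    rw [hρ₁apply, hc]; rfl
  have hnd₁ : ∀ a : Γ, (∀ b : Γ, ρ₁ (b * a * b⁻¹ * a⁻¹) = 1) → a ∈ Z := by
    intro a ha
    apply hnd
    intro b
    obtain ⟨c, hc⟩ := hZs _ (hcomm b a)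
    have h1 := ha b
    obtain ⟨w, hw⟩ := exists_ne (0 : W)
    have h2 : ((ρ₁ (b * a * b⁻¹ * a⁻¹)) w : V) = c • (w : V) := by rw [hρ₁apply, hc]; rfl
    rw [h1] at h2
    have h3 : (1 - c) • (w : V) = 0 := by
      rw [sub_smul, one_smul]; exact sub_eq_zero.mpr h2
    rcases smul_eq_zero.mp h3 with h4 | h4
    · rw [hc, ← sub_eq_zero.mp h4, one_smul]
    · exact absurd (Subtype.ext h4) hw
  -- inverse of `X`
  obtain ⟨X', hX'def⟩ : ∃ X' : Module.End K V, X' = X ^ (N - 1) := ⟨_, rfl⟩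
  have hXX' : X * X' = 1 := by
    rw [hX'def, ← pow_succ', Nat.sub_add_cancel hN0, hXN]
  have hρσZ : ∀ z ∈ Z, ρ (σ z) = ρ z := by
    intro z hz
    obtain ⟨c, hc⟩ := hZs z hz
    have h1 := hXρ z
    rw [hc] at h1
    have h2 : ρ (σ z) = ρ (σ z) * X * X' := by rw [mul_assoc, hXX', mul_one]
    rw [h2, ← h1, hc, mul_smul_comm, mul_one, smul_mul_assoc, hXX']
  have hρσZ₁ : ∀ z ∈ Z, ρ₁ (σ z) = ρ₁ z := by
    intro z hz
    ext w
    rw [hρ₁apply, hρ₁apply, hρσZ z hz]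
  have hpow_iter : ∀ (i : ℕ) (a : Γ), (σ ^ i) a = (⇑σ)^[i] a := by
    intro i
    induction i with
    | zero => intro a; rfl
    | succ i ih =>
      intro a
      rw [pow_succ, MulAut.mul_apply, ih, Function.iterate_succ_apply]
  have hσm : ∀ a, (⇑σ)^[N] a = a := by
    intro a
    rw [← hpow_iter, hσN, MulAut.one_apply]
  obtain ⟨g, hg1, hgint⟩ := r2_exists_intertwiner ρ₁ Z N hN1 hcard hirr₁ hcomm hZs₁ hnd₁ σ hρσZ₁
    hσm (fun a ha => by simpa using hfree a ha 1 Nat.one_pos hN1)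
  obtain ⟨g', hg'def⟩ : ∃ g' : Module.End K W, g' = g ^ (N - 1) := ⟨_, rfl⟩
  have hgg' : g * g' = 1 := by
    rw [hg'def, ← pow_succ', Nat.sub_add_cancel hN0, hg1]
  have hg'g : g' * g = 1 := by
    rw [hg'def, ← pow_succ, Nat.sub_add_cancel hN0, hg1]
  have hg'N : g' ^ N = 1 := by
    rw [hg'def, ← pow_mul, mul_comm, pow_mul, hg1, one_pow]
  -- the operator `f ↦ X ∘ f ∘ g'`
  let T : Module.End K (W →ₗ[K] V) :=
    { toFun := fun f => X ∘ₗ f ∘ₗ g'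
      map_add' := by
        intro f₁ f₂
        ext w
        simp
      map_smul' := by
        intro c f
        ext w
        simp }
  have hTapply : ∀ f : W →ₗ[K] V, T f = X ∘ₗ f ∘ₗ g' := fun f => rfl
  have hTE : ∀ f ∈ equivMaps ρ₁ ρ, T f ∈ equivMaps ρ₁ ρ := by
    intro f hf a
    have h1 : ∀ b, g' * ρ₁ (σ b) = ρ₁ b * g' := by
      intro b
      calc g' * ρ₁ (σ b) = g' * (ρ₁ (σ b) * g) * g' := by
            rw [mul_assoc, mul_assoc, hgg', mul_one]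
        _ = g' * (g * ρ₁ b) * g' := by rw [hgint b]
        _ = ρ₁ b * g' := by rw [← mul_assoc, hg'g, one_mul]
    have h2 : g' * ρ₁ a = ρ₁ (σ.symm a) * g' := by
      have := h1 (σ.symm a)
      rwa [MulEquiv.apply_symm_apply] at this
    have h3 : X * ρ (σ.symm a) = ρ a * X := by
      have := hXρ (σ.symm a)
      rwa [MulEquiv.apply_symm_apply] at this
    rw [hTapply]
    calc (X ∘ₗ f ∘ₗ g') ∘ₗ ρ₁ a = X ∘ₗ f ∘ₗ (g' * ρ₁ a) := rfl
      _ = X ∘ₗ f ∘ₗ (ρ₁ (σ.symm a) * g') := by rw [h2]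
      _ = X ∘ₗ (f ∘ₗ ρ₁ (σ.symm a)) ∘ₗ g' := rfl
      _ = X ∘ₗ (ρ (σ.symm a) ∘ₗ f) ∘ₗ g' := by rw [hf]
      _ = (X * ρ (σ.symm a)) ∘ₗ f ∘ₗ g' := rfl
      _ = (ρ a * X) ∘ₗ f ∘ₗ g' := by rw [h3]
      _ = ρ a ∘ₗ (X ∘ₗ f ∘ₗ g') := rfl
  have hsubE : W.subtype ∈ equivMaps ρ₁ ρ := by
    intro a
    ext w
    simp only [LinearMap.comp_apply, Submodule.subtype_apply]
    exact hρ₁apply a w
  have hsubne : W.subtype ≠ 0 := by
    intro h1
    obtain ⟨w, hw⟩ := exists_ne (0 : W)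
    apply hw
    have h2 := congrArg (fun f : W →ₗ[K] V => f w) h1
    exact Subtype.ext h2
  -- Step A
  have hstepA : ∀ (c : K) (f : W →ₗ[K] V), f ∈ equivMaps ρ₁ ρ → f ≠ 0 →
      X ∘ₗ f ∘ₗ g' = c • f →
      c ^ N = 1 ∧ (∀ w : W, (c • g) w = w → w = 0) ∧ X ∘ₗ f = f ∘ₗ (c • g) := by
    intro c f hfE hfne hf1
    have hf2 : X ∘ₗ f = f ∘ₗ (c • g) := by
      have h1 : (X ∘ₗ f ∘ₗ g') ∘ₗ g = X ∘ₗ f := by
        calc (X ∘ₗ f ∘ₗ g') ∘ₗ g = X ∘ₗ f ∘ₗ (g' * g) := rfl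
          _ = X ∘ₗ f := by rw [hg'g]; rfl
      rw [← h1, hf1, LinearMap.smul_comp, LinearMap.comp_smul]
    have hpow := comp_pow_intertwine X (c • g) f hf2
    have hker : LinearMap.ker f = ⊥ := by
      rcases hirr₁ (LinearMap.ker f) (by
        intro a w hw
        rw [LinearMap.mem_ker] at hw ⊢
        have h1 := congrArg (fun φ : W →ₗ[K] V => φ w) (hfE a)
        simp only [LinearMap.comp_apply] at h1
        rw [h1, hw, map_zero]) with h | h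
      · exact h
      · exfalso
        apply hfne
        exact LinearMap.ker_eq_top.mp h
    have hcr : c ^ N = 1 := by
      have h1 := hpow N
      rw [hXN, smul_pow, hg1] at h1
      have h2 : f = c ^ N • f := by
        calc f = (1 : Module.End K V) ∘ₗ f := rfl
          _ = f ∘ₗ (c ^ N • (1 : Module.End K W)) := h1
          _ = c ^ N • f := by rw [LinearMap.comp_smul]; rfl
      have h3 : (c ^ N - 1) • f = 0 := by
        rw [sub_smul, one_smul, ← h2, sub_self]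
      rcases smul_eq_zero.mp h3 with h4 | h4
      · exact sub_eq_zero.mp h4
      · exact absurd h4 hfne
    refine ⟨hcr, ?_, hf2⟩
    intro w hw
    have h1 : X (f w) = f w := by
      have := congrArg (fun φ : W →ₗ[K] V => φ w) hf2
      simp only [LinearMap.comp_apply] at this
      rw [this, hw]
    have h2 : f w = 0 := hXfix _ h1
    have h3 : w ∈ LinearMap.ker f := h2
    rw [hker, Submodule.mem_bot] at h3
    exact h3
  -- Step B
  have hstepB : ∀ (c : K), c ^ N = 1 → (∀ w : W, (c • g) w = w → w = 0) →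
      Module.finrank K W = N - 1 ∧
        ∀ e : K, e ^ N = 1 → e ≠ 1 → ∃ v : W, v ≠ 0 ∧ (c • g) v = e • v := by
    intro c hcN hfp
    exact hIrr Γ K W ρ₁ Z N hN1 hNK hirr₁ hcomm hZs₁ hnd₁ hZtop σ hσN hfree (c • g)
      (by rw [smul_pow, hcN, hg1, one_smul])
      (fun a => by rw [smul_mul_assoc, hgint, mul_smul_comm]) hfp
  -- Step C: uniqueness of the eigenvalue
  have hstepC : ∀ (c c' : K) (f f' : W →ₗ[K] V), f ∈ equivMaps ρ₁ ρ → f ≠ 0 →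
      X ∘ₗ f ∘ₗ g' = c • f → f' ∈ equivMaps ρ₁ ρ → f' ≠ 0 → X ∘ₗ f' ∘ₗ g' = c' • f' →
      c' = c := by
    intro c c' f f' hfE hfne hf1 hfE' hfne' hf1'
    obtain ⟨hcN, hfp, -⟩ := hstepA c f hfE hfne hf1
    obtain ⟨hcN', hfp', -⟩ := hstepA c' f' hfE' hfne' hf1'
    by_contra hne
    have hc0 : c ≠ 0 := by
      rintro rfl
      rw [zero_pow hN0.ne'] at hcN
      exact zero_ne_one hcN
    have hc0' : c' ≠ 0 := by
      rintro rfl
      rw [zero_pow hN0.ne'] at hcN'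
      exact zero_ne_one hcN'
    obtain ⟨-, heig⟩ := hstepB c hcN hfp
    obtain ⟨v, hv0, hv⟩ := heig (c / c') (by rw [div_pow, hcN, hcN', div_one]) (by
      intro h
      apply hne
      rw [div_eq_one_iff_eq hc0'] at h
      exact h.symm)
    apply hv0
    apply hfp' v
    have h1 : (c' • g) v = (c' / c) • ((c • g) v) := by
      rw [LinearMap.smul_apply, LinearMap.smul_apply, smul_smul, div_mul_cancel₀ _ hc0]
    rw [h1, hv, smul_smul, div_mul_div_cancel₀ hc0, div_self hc0', one_smul]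
  -- Step D: the restriction of `T` to the equivariant maps has `N`-th power one
  obtain ⟨TE, hTEdef⟩ : ∃ TE : Module.End K (equivMaps ρ₁ ρ), TE = T.restrict hTE := ⟨_, rfl⟩
  have hTEapply : ∀ f : equivMaps ρ₁ ρ, ((TE f : equivMaps ρ₁ ρ) : W →ₗ[K] V) =
      X ∘ₗ (f : W →ₗ[K] V) ∘ₗ g' := by
    intro f
    rw [hTEdef]
    rfl
  have hTEpow : ∀ (i : ℕ) (f : equivMaps ρ₁ ρ) (w : W),
      (((TE ^ i) f : equivMaps ρ₁ ρ) : W →ₗ[K] V) w =
        (X ^ i) ((f : W →ₗ[K] V) ((g' ^ i) w)) := by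
    intro i
    induction i with
    | zero => intro f w; simp
    | succ i ih =>
      intro f w
      rw [pow_succ', Module.End.mul_apply, hTEapply, LinearMap.comp_apply, LinearMap.comp_apply,
        ih, pow_succ' X, Module.End.mul_apply, pow_succ g', Module.End.mul_apply]
  have hTEN : TE ^ N = 1 := by
    apply LinearMap.ext
    intro f
    apply Subtype.ext
    apply LinearMap.ext
    intro w
    rw [hTEpow, hXN, hg'N]
    rfl
  -- Step E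
  obtain ⟨ι, hιf, hιd, b, dd, hb⟩ := r2irr_eigenbasis TE N hNK hTEN
  have hbE : ∀ k : ι, X ∘ₗ ((b k : equivMaps ρ₁ ρ) : W →ₗ[K] V) ∘ₗ g' =
      dd k • ((b k : equivMaps ρ₁ ρ) : W →ₗ[K] V) := by
    intro k
    rw [← hTEapply, hb k]
    rfl
  have hbne : ∀ k : ι, ((b k : equivMaps ρ₁ ρ) : W →ₗ[K] V) ≠ 0 := by
    intro k h
    exact b.ne_zero k (Subtype.ext h)
  obtain ⟨incl, hincl⟩ : ∃ incl : equivMaps ρ₁ ρ, incl = ⟨W.subtype, hsubE⟩ := ⟨_, rfl⟩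
  have hinclne : incl ≠ 0 := by
    intro h
    apply hsubne
    rw [hincl] at h
    exact congrArg Subtype.val h
  haveI : Nonempty ι := by
    by_contra hemp
    rw [not_nonempty_iff] at hemp
    apply hinclne
    have h1 := b.repr.map_eq_zero_iff (x := incl)
    apply h1.mp
    ext k
    exact (hemp.false k).elim
  obtain ⟨k0⟩ := ‹Nonempty ι›
  have hall : ∀ k : ι, dd k = dd k0 := by
    intro k
    exact hstepC (dd k0) (dd k) _ _ (b k0).2 (hbne k0) (hbE k0) (b k).2 (hbne k) (hbE k)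
  have hTEscal : TE = dd k0 • (1 : Module.End K (equivMaps ρ₁ ρ)) := by
    apply b.ext
    intro k
    rw [hb k, hall k]
    rfl
  have hincl1 : X ∘ₗ W.subtype ∘ₗ g' = dd k0 • W.subtype := by
    have h1 : TE incl = dd k0 • incl := by rw [hTEscal]; rfl
    have h2 := congrArg (fun f : equivMaps ρ₁ ρ => (f : W →ₗ[K] V)) h1
    simp only [hTEapply] at h2
    rw [hincl] at h2
    exact h2
  obtain ⟨hc0N, hfp0, hX0⟩ := hstepA (dd k0) W.subtype hsubE hsubne hincl1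
  obtain ⟨hfr, heig⟩ := hstepB (dd k0) hc0N hfp0
  refine ⟨hfr, ?_, ?_⟩
  · rw [← finrank_sq_eq_index ρ₁ Z hirr₁ hcomm hZs₁ hnd₁, hfr]
  · intro c hcN hc1
    obtain ⟨v, hv0, hv⟩ := heig c hcN hc1
    refine ⟨(v : V), v.2, fun h => hv0 (Subtype.ext h), ?_⟩
    have h1 := congrArg (fun φ : W →ₗ[K] V => φ v) hX0
    simp only [LinearMap.comp_apply, Submodule.subtype_apply] at h1
    rw [h1, hv]
    rfl

theorem r2_holds (hIrr : R2IrrStatement.{u}) : R2Statement.{u} := by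
  intro Γ _ _ K _ _ V _ _ _ _ ρ Z k hk h2 hcard hcomm hZs hnd hZtop σ X hfpf hfree
  obtain ⟨hσN, hXN, hXρ, hXfix⟩ := hfpf
  have hNK : ((2 ^ k : ℕ) : K) ≠ 0 := by
    push_cast
    exact pow_ne_zero _ h2
  have hN1 : 1 < 2 ^ k := Nat.one_lt_two_pow hk.ne'
  have key := r2_key hIrr Γ K V ρ Z (2 ^ k) hN1 hNK hcard hcomm hZs hnd hZtop σ X hσN hXN hXρ
    hXfix hfree
  obtain ⟨W, hWne, hWinv, hWmin⟩ := exists_min_invariant ρ
  obtain ⟨hfr, hidx, -⟩ := key W hWne hWinv hWmin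
  refine ⟨hidx, ?_⟩
  intro U hUinv hUtop
  haveI : NeZero (Nat.card Γ : K) := ⟨hcard⟩
  obtain ⟨U', hU'inv, hU'⟩ := Cfsg.Agent.H98.SelfDual.exists_inv_compl ρ U hUinv
  have hU'ne : U' ≠ ⊥ := by
    rintro rfl
    apply hUtop
    have := hU'.sup_eq_top
    rwa [sup_bot_eq] at this
  obtain ⟨W0, hW0ne, hW0inv, hW0le, hW0min⟩ : ∃ W0 : Submodule K V, W0 ≠ ⊥ ∧
      (∀ a : Γ, ∀ w ∈ W0, ρ a w ∈ W0) ∧ W0 ≤ U' ∧
      ∀ U'' : Submodule K V, U'' ≤ W0 → (∀ a : Γ, ∀ w ∈ U'', ρ a w ∈ U'') →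
        U'' = ⊥ ∨ U'' = W0 := by
    have hwf : WellFounded ((· < ·) : Submodule K V → Submodule K V → Prop) := wellFounded_lt
    obtain ⟨W0, hW0, hmin⟩ := hwf.has_min
      {W : Submodule K V | W ≠ ⊥ ∧ (∀ a : Γ, ∀ w ∈ W, ρ a w ∈ W) ∧ W ≤ U'}
      ⟨U', hU'ne, hU'inv, le_refl _⟩
    refine ⟨W0, hW0.1, hW0.2.1, hW0.2.2, ?_⟩
    intro U'' hle hinv
    by_contra hcon
    push Not at hcon
    exact hmin U'' ⟨hcon.1, hinv, hle.trans hW0.2.2⟩ (lt_of_le_of_ne hle hcon.2)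
  obtain ⟨-, -, heig⟩ := key W0 hW0ne hW0inv hW0min
  have hk2 : 2 ≤ k := by
    by_contra hcon
    have hk1 : k = 1 := by omega
    subst hk1
    apply hZtop
    apply Subgroup.index_eq_one.mp
    rw [hidx]
    norm_num
  obtain ⟨ζ, hζ⟩ := IsAlgClosed.exists_pow_nat_eq (-1 : K) (show 0 < 2 ^ (k - 1) by positivity)
  have hNhalf : 2 ^ k = 2 ^ (k - 1) * 2 := by
    rw [← pow_succ]; congr 1; omega
  have hζN : ζ ^ (2 ^ k) = 1 := by
    rw [hNhalf, pow_mul, hζ]; norm_num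
  have hneg1 : (-1 : K) ≠ 1 := by
    intro h
    apply h2
    have h3 : (2 : K) = 1 - (-1) := by norm_num
    rw [h3, h, sub_self]
  have hζ1 : ζ ≠ 1 := by
    rintro rfl
    rw [one_pow] at hζ
    exact hneg1 hζ.symm
  have hζ3 : (ζ ^ 3) ^ (2 ^ (k - 1)) = -1 := by
    rw [← pow_mul, mul_comm, pow_mul, hζ]; norm_num
  have hζ3N : (ζ ^ 3) ^ (2 ^ k) = 1 := by
    rw [hNhalf, pow_mul, hζ3]; norm_num
  have hζ31 : ζ ^ 3 ≠ 1 := by
    intro h
    rw [h, one_pow] at hζ3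
    exact hneg1 hζ3.symm
  have hζne : ζ ^ 3 ≠ ζ := by
    intro h
    have hζ0 : ζ ≠ 0 := by
      rintro rfl
      rw [zero_pow (by positivity)] at hζ
      exact (neg_ne_zero.mpr one_ne_zero) hζ.symm
    have hsq : ζ ^ 2 = 1 := by
      have h4 : ζ * ζ ^ 2 = ζ * 1 := by
        rw [mul_one, ← pow_succ']; exact h
      exact mul_left_cancel₀ hζ0 h4
    have h5 : 2 ^ (k - 1) = 2 * 2 ^ (k - 2) := by
      rw [← pow_succ']; congr 1; omega
    rw [h5, pow_mul, hsq, one_pow] at hζ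
    exact hneg1 hζ.symm
  obtain ⟨v, hvW, hv0, hv⟩ := heig ζ hζN hζ1
  obtain ⟨w, hwW, hw0, hw⟩ := heig (ζ ^ 3) hζ3N hζ31
  refine ⟨v, w, ?_, ?_, ?_⟩
  · rw [pow_apply_eigen X v ζ hv, hζ, neg_one_smul]
  · rw [pow_apply_eigen X w (ζ ^ 3) hw, hζ3, neg_one_smul]
  · intro a b hab
    have h0 : a • v + b • w = 0 := by
      have h1 : a • v + b • w ∈ U ⊓ U' :=
        ⟨hab, hW0le (W0.add_mem (W0.smul_mem a hvW) (W0.smul_mem b hwW))⟩
      rw [hU'.inf_eq_bot] at h1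
      exact (Submodule.mem_bot K).mp h1
    have h1 : X (a • v + b • w) = 0 := by rw [h0, map_zero]
    rw [map_add, map_smul, map_smul, hv, hw] at h1
    have h3 : (b * (ζ ^ 3 - ζ)) • w = 0 := by
      have h4 : (b * (ζ ^ 3 - ζ)) • w =
          (a • ζ • v + b • ζ ^ 3 • w) - ζ • (a • v + b • w) := by
        module
      rw [h4, h1, h0, smul_zero, sub_zero]
    have hb0 : b = 0 := by
      rcases smul_eq_zero.mp h3 with h | h
      · rcases mul_eq_zero.mp h with h | h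
        · exact h
        · exact absurd (sub_eq_zero.mp h) hζne
      · exact absurd h hw0
    subst hb0
    rw [zero_smul, add_zero] at h0
    rcases smul_eq_zero.mp h0 with h | h
    · exact ⟨h, rfl⟩
    · exact absurd h hv0

end Cfsg.Agent.Lib.Helper96.Gross
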