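import Mathlib
import Cfsg.Agent.H20.HtDefs

/-!
# S3371-SW4 (helper96, for helper20's Passman project): in a swap structure on two lines with
equal stabilizers, the stabilizer of a nonzero vector of `Wp` acts on `Wm` as `±1`.
-/

set_option autoImplicit false

namespace Cfsg.Agent.Lib.Helper96.Ht

open Cfsg.Agent.H20.Ht

universe u v

/-- a submodule of `q` elements is the line through any of its nonzero vectors. -/
theorem exists_smul_of_card {q : ℕ} [Fact q.Prime] {V : Type v} [AddCommGroup V]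
    [Module (ZMod q) V] [Finite V] (W : Submodule (ZMod q) V) (b : V) (hb : b ∈ W) (hb0 : b ≠ 0)
    (hc : Nat.card W = q) : ∀ w ∈ W, ∃ c : ZMod q, c • b = w := by
  intro w hw
  let f : ZMod q → W := fun c => ⟨c • b, W.smul_mem c hb⟩
  have hf : Function.Injective f := by
    intro c c' hcc
    have h1 : c • b = c' • b := congrArg Subtype.val hcc
    have h2 : (c - c') • b = 0 := by rw [sub_smul, h1, sub_self]
    rcases smul_eq_zero.1 h2 with h3 | h3
    · exact sub_eq_zero.1 h3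
    · exact absurd h3 hb0
  have hbij := hf.bijective_of_nat_card_le (by rw [hc, Nat.card_zmod])
  obtain ⟨c, hc'⟩ := hbij.2 ⟨w, hw⟩
  exact ⟨c, congrArg Subtype.val hc'⟩

theorem two_smul_ne_zero {q : ℕ} [Fact q.Prime] {V : Type v} [AddCommGroup V]
    [Module (ZMod q) V] (hq2 : q ≠ 2) (b : V) (hb0 : b ≠ 0) : b ≠ -b := by
  intro h1
  have h2 : (2 : ZMod q) • b = 0 := by
    rw [two_smul]
    nth_rewrite 1 [h1]
    exact neg_add_cancel b
  rcases smul_eq_zero.1 h2 with h3 | h3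
  · have h4 : ((2 : ℕ) : ZMod q) = 0 := by exact_mod_cast h3
    rw [ZMod.natCast_eq_zero_iff] at h4
    exact hq2 ((Nat.prime_dvd_prime_iff_eq Fact.out Nat.prime_two).1 h4)
  · exact hb0 h3

theorem swap4 : StmtSwap4.{u, v} := by
  intro q _ V _ _ _ G _ _ ρ hq2 hinj hEq Wp Wm hSS hSA hcp hcm
  obtain ⟨hcompl, hWp0, hWm0, hps, a, hap, ham⟩ := hSS
  intro bp hbp hbp0 h hh
  obtain ⟨bm, hbm, hbm0⟩ := (Submodule.ne_bot_iff Wm).1 hWm0
  have hdec : ∀ v : V, ∃ x ∈ Wp, ∃ y ∈ Wm, x + y = v := by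
    intro v
    have hv : v ∈ Wp ⊔ Wm := by
      rw [hcompl.sup_eq_top]
      exact Submodule.mem_top
    exact Submodule.mem_sup.1 hv
  have huniq : ∀ x ∈ Wp, ∀ y ∈ Wm, ∀ x' ∈ Wp, ∀ y' ∈ Wm, x + y = x' + y' →
      x = x' ∧ y = y' := by
    intro x hx y hy x' hx' y' hy' he
    have h1 : x - x' = y' - y := by
      rw [sub_eq_sub_iff_add_eq_add, he, add_comm]
    have h2 : x - x' ∈ Wp ⊓ Wm := ⟨Wp.sub_mem hx hx', by rw [h1]; exact Wm.sub_mem hy' hy⟩
    rw [hcompl.inf_eq_bot, Submodule.mem_bot] at h2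
    have h3 : y' - y = 0 := by rw [← h1, h2]
    exact ⟨sub_eq_zero.1 h2, (sub_eq_zero.1 h3).symm⟩
  have hdet : ∀ g g' : G, ρ g bp = ρ g' bp → ρ g bm = ρ g' bm → g = g' := by
    intro g g' h1 h2
    apply hinj
    apply LinearEquiv.ext
    intro v
    obtain ⟨x, hx, y, hy, rfl⟩ := hdec v
    obtain ⟨c, rfl⟩ := exists_smul_of_card Wp bp hbp hbp0 hcp x hx
    obtain ⟨d, rfl⟩ := exists_smul_of_card Wm bm hbm hbm0 hcm y hy
    rw [map_add, map_add, map_smul, map_smul, map_smul, map_smul, h1, h2]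
  obtain ⟨g₀, hg₀p, hg₀m⟩ := hSA bp hbp hbp0 bm hbm hbm0
  have hstab2 : ∀ g ∈ stab ρ (bp + bm), g = 1 ∨ g = g₀ := by
    intro g hg
    rw [mem_stab, map_add] at hg
    rcases hps g with ⟨h1, h2⟩ | ⟨h1, h2⟩
    · obtain ⟨e1, e2⟩ := huniq _ (h1 bp hbp) _ (h2 bm hbm) bp hbp bm hbm hg
      left
      apply hdet
      · rw [e1, map_one]; rfl
      · rw [e2, map_one]; rfl
    · have hg' : ρ g bm + ρ g bp = bp + bm := by rw [add_comm]; exact hg
      obtain ⟨e1, e2⟩ := huniq _ (h2 bm hbm) _ (h1 bp hbp) bp hbp bm hbm hg'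
      right
      apply hdet
      · rw [e2, hg₀p]
      · rw [e1, hg₀m]
  have hsum0 : bp + bm ≠ 0 := by
    intro h0
    have := huniq bp hbp bm hbm 0 Wp.zero_mem 0 Wm.zero_mem (by rw [h0, add_zero])
    exact hbp0 this.1
  have hncard : ∀ S : Subgroup G, Nat.card S = (S : Set G).ncard := fun S =>
    Nat.card_coe_set_eq (S : Set G)
  have hcard : Nat.card (stab ρ bp) ≤ 2 := by
    rw [hEq bp (bp + bm) hbp0 hsum0, hncard]
    have hsub : ((stab ρ (bp + bm) : Subgroup G) : Set G) ⊆ {1, g₀} := by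
      intro g hg
      rcases hstab2 g hg with h | h
      · left; exact h
      · right; exact h
    refine (Set.ncard_le_ncard hsub (Set.toFinite _)).trans ?_
    refine (Set.ncard_insert_le _ _).trans ?_
    rw [Set.ncard_singleton]
  have ha1 : a ≠ 1 := by
    intro ha
    have h1 := ham bm hbm
    rw [ha, map_one] at h1
    exact two_smul_ne_zero hq2 bm hbm0 h1
  have hamem : a ∈ stab ρ bp := hap bp hbp
  have hhmem : h ∈ stab ρ bp := hh
  have hh1a : h = 1 ∨ h = a := by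
    by_contra hcon
    push Not at hcon
    have hsub : ({1, a, h} : Set G) ⊆ ((stab ρ bp : Subgroup G) : Set G) := by
      intro g hg
      rcases hg with rfl | rfl | rfl
      · exact (stab ρ bp).one_mem
      · exact hamem
      · exact hhmem
    have h3 : ({1, a, h} : Set G).ncard = 3 := by
      rw [Set.ncard_eq_three]
      exact ⟨1, a, h, Ne.symm ha1, Ne.symm hcon.1, Ne.symm hcon.2, rfl⟩
    have h4 := Set.ncard_le_ncard hsub (Set.toFinite _)
    rw [h3, ← hncard] at h4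
    omega
  rcases hh1a with rfl | rfl
  · left
    intro w _
    rw [map_one]
    rfl
  · right
    exact ham

example : Cfsg.Agent.H20.Ht.StmtSwap4.{u, v} := swap4

end Cfsg.Agent.Lib.Helper96.Ht
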