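import Mathlib
import Cfsg.Agent.H20.HtDefs
import Cfsg.Agent.Lib.Helper96.HtSW4

/-!
# S3371-UINV (helper96, for helper20's Passman project): with a cyclic subgroup of index 2 whose
involution is central, every nonzero vector is fixed by exactly one involution outside it.
-/

set_option autoImplicit false

namespace Cfsg.Agent.Lib.Helper96.Ht

open Cfsg.Agent.H20.Ht

universe u v

/-- a central involution of a faithful irreducible group acts as `-1`. -/
theorem central_invol_neg {q : ℕ} [Fact q.Prime] {V : Type v} [AddCommGroup V]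
    [Module (ZMod q) V] {G : Type u} [Group G] (ρ : G →* (V ≃ₗ[ZMod q] V))
    (hinj : Function.Injective ρ) (hIrr : Irr ρ) (z : G) (hz1 : z ≠ 1) (hz2 : z ^ 2 = 1)
    (hzc : ∀ g : G, g * z = z * g) : ∀ v : V, ρ z v = -v := by
  let W : Submodule (ZMod q) V := LinearMap.ker ((ρ z : V →ₗ[ZMod q] V) - LinearMap.id)
  have hW : ∀ v, v ∈ W ↔ ρ z v = v := by
    intro v
    simp [W, LinearMap.mem_ker, sub_eq_zero]
  have hinv : ∀ g : G, ∀ w ∈ W, ρ g w ∈ W := by
    intro g w hw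
    rw [hW] at hw ⊢
    have h0 : ρ z (ρ g w) = ρ g (ρ z w) := by
      have h1 : ρ (z * g) = ρ (g * z) := by rw [hzc g]
      rw [map_mul, map_mul] at h1
      exact congrArg (fun f : V ≃ₗ[ZMod q] V => f w) h1
    rw [h0, hw]
  rcases hIrr W hinv with hbot | htop
  · intro v
    have hmem : v + ρ z v ∈ W := by
      rw [hW, map_add]
      have h0 : ρ z (ρ z v) = v := by
        have h1 : ρ (z * z) = 1 := by rw [← pow_two, hz2, map_one]
        rw [map_mul] at h1
        exact congrArg (fun f : V ≃ₗ[ZMod q] V => f v) h1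
      rw [h0, add_comm]
    rw [hbot, Submodule.mem_bot] at hmem
    exact eq_neg_of_add_eq_zero_right hmem
  · exfalso
    apply hz1
    apply hinj
    rw [map_one]
    apply LinearEquiv.ext
    intro v
    have hv : v ∈ W := by rw [htop]; exact Submodule.mem_top
    exact (hW v).1 hv

/-- a cyclic group has at most one involution. -/
theorem invol_unique_of_cyclic {G : Type u} [Group G] [Finite G] (A : Subgroup G)
    (hcyc : IsCyclic A) (z : G) (hzA : z ∈ A) (hz1 : z ≠ 1) (hz2 : z ^ 2 = 1) :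
    ∀ b ∈ A, b ^ 2 = 1 → b ≠ 1 → b = z := by
  classical
  intro b hb hb2 hb1
  let _ : Fintype A := Fintype.ofFinite A
  have := hcyc
  have : Fact (Nat.Prime 2) := ⟨Nat.prime_two⟩
  have ob : orderOf (⟨b, hb⟩ : A) = 2 :=
    orderOf_eq_prime (Subtype.ext (by simpa using hb2))
      (fun h => hb1 (congrArg Subtype.val h))
  have oz : orderOf (⟨z, hzA⟩ : A) = 2 :=
    orderOf_eq_prime (Subtype.ext (by simpa using hz2))
      (fun h => hz1 (congrArg Subtype.val h))
  have hd : 2 ∣ Fintype.card A := by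
    rw [← ob]
    exact orderOf_dvd_card
  have hcard := IsCyclic.card_orderOf_eq_totient hd
  rw [Nat.totient_two] at hcard
  obtain ⟨x, hx⟩ := Finset.card_eq_one.1 hcard
  have h1 : (⟨b, hb⟩ : A) ∈ Finset.univ.filter (fun a : A => orderOf a = 2) := by simp [ob]
  have h2 : (⟨z, hzA⟩ : A) ∈ Finset.univ.filter (fun a : A => orderOf a = 2) := by simp [oz]
  rw [hx, Finset.mem_singleton] at h1 h2
  exact congrArg Subtype.val (h1.trans h2.symm)

theorem uniqInv : StmtUniqInv.{u, v} := by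
  intro q _ V _ _ _ _ G _ _ ρ hP hq2 hinj hIrr hEq hns A z k hCS
  obtain ⟨hcyc, hidx, hzA, hz1, hz2, hzc, -, -⟩ := hCS
  have hρz := central_invol_neg ρ hinj hIrr z hz1 hz2 hzc
  have huniqA := invol_unique_of_cyclic A hcyc z hzA hz1 hz2
  have hstabA : ∀ v : V, v ≠ 0 → ∀ a ∈ A, ρ a v = v → a = 1 := by
    intro v hv a haA hav
    by_contra ha1
    obtain ⟨k, hk⟩ := hP a
    obtain ⟨m, hm, hom⟩ := (Nat.dvd_prime_pow Nat.prime_two).1 (orderOf_dvd_of_pow_eq_one hk)
    have hm0 : m ≠ 0 := by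
      rintro rfl
      rw [pow_zero, orderOf_eq_one_iff] at hom
      exact ha1 hom
    obtain ⟨m', rfl⟩ : ∃ m', m = m' + 1 := ⟨m - 1, by omega⟩
    have hb2 : (a ^ (2 ^ m')) ^ 2 = 1 := by
      rw [← pow_mul, ← pow_succ, ← hom, pow_orderOf_eq_one]
    have hb1 : a ^ (2 ^ m') ≠ 1 := by
      apply pow_ne_one_of_lt_orderOf (by positivity)
      rw [hom]
      exact Nat.pow_lt_pow_right (by norm_num) (by omega)
    have hbA : a ^ (2 ^ m') ∈ A := A.pow_mem haA _
    have hbv : ρ (a ^ (2 ^ m')) v = v := by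
      have hmem : a ^ (2 ^ m') ∈ stab ρ v := (stab ρ v).pow_mem hav _
      exact hmem
    have hbz := huniqA _ hbA hb2 hb1
    rw [hbz, hρz] at hbv
    exact two_smul_ne_zero hq2 v hv hbv.symm
  have hout : ∀ v : V, v ≠ 0 → ∀ t t' : G, t ∉ A → t' ∉ A → ρ t v = v → ρ t' v = v →
      t = t' := by
    intro v hv t t' ht ht' htv ht'v
    have h1 : t⁻¹ * t' ∈ A := by
      rw [Subgroup.mul_mem_iff_of_index_two hidx, inv_mem_iff]
      exact ⟨fun h => absurd h ht, fun h => absurd h ht'⟩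
    have h2 : t⁻¹ * t' ∈ stab ρ v := (stab ρ v).mul_mem ((stab ρ v).inv_mem htv) ht'v
    have h3 := hstabA v hv _ h1 h2
    exact inv_mul_eq_one.1 h3
  obtain ⟨v₀, hv₀, g₀, hg₀v, hg₀1⟩ : ∃ v₀ : V, v₀ ≠ 0 ∧ ∃ g : G, ρ g v₀ = v₀ ∧ g ≠ 1 := by
    unfold Semireg at hns
    push Not at hns
    exact hns
  intro v hv
  have hnt₀ : Nontrivial (stab ρ v₀) :=
    nontrivial_of_ne ⟨g₀, hg₀v⟩ 1 (fun h => hg₀1 (congrArg Subtype.val h))
  have hc₀ : 1 < Nat.card (stab ρ v₀) := Finite.one_lt_card_iff_nontrivial.2 hnt₀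
  rw [hEq v₀ v hv₀ hv] at hc₀
  have hnt : Nontrivial (stab ρ v) := Finite.one_lt_card_iff_nontrivial.1 hc₀
  obtain ⟨⟨t, htv⟩, ht1⟩ := exists_ne (1 : stab ρ v)
  have ht1' : t ≠ 1 := fun h => ht1 (Subtype.ext h)
  have htA : t ∉ A := fun h => ht1' (hstabA v hv t h htv)
  have ht2 : t ^ 2 = 1 := by
    apply hstabA v hv
    · rw [pow_two, Subgroup.mul_mem_iff_of_index_two hidx]
    · exact (stab ρ v).pow_mem htv 2
  refine ⟨t, ⟨htA, ht2, htv⟩, ?_⟩
  rintro t' ⟨ht'A, -, ht'v⟩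
  exact hout v hv t' t ht'A htA ht'v htv

example : Cfsg.Agent.H20.Ht.StmtUniqInv.{u, v} := uniqInv

end Cfsg.Agent.Lib.Helper96.Ht
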