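import Mathlib
import Cfsg.Agent.H1.FPF

/-!
# helper96: theta data for Knörr's theorem (abelian point stabiliser)

For an abelian `p'`-group `C` acting on an elementary abelian `p`-group `W` we construct a
finite family of linear characters `lam x : C →* ℂˣ` and `p`-th roots of unity `w x` such that
`θ_k(c) = ∑ x, w x ^ k * lam x c` satisfies `‖θ_k(c)‖² · |C_W(c)| ≤ |W|` for `p ∤ k`, while
`θ_0 = N · 1_{C_C(W)}` with `p ∤ N`.  The `θ_k` are products of Gauss sums over a decomposition
of `W` into pieces on which every element of `C` acts trivially or fixed-point-freely.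
-/

set_option autoImplicit false
set_option linter.unusedSectionVars false
set_option linter.style.haveILetI false

universe u

namespace Cfsg.Agent.Lib.Helper96.Knoerr

open scoped ComplexConjugate

/-- Theta data for an action of `C` on `W`. -/
def ThetaData (p : ℕ) (C : Type*) [Group C] (W : Type*) [SMul C W] : Prop :=
  ∃ (I : Type) (_ : Fintype I) (lam : I → (C →* ℂˣ)) (w : I → ℂ) (N : ℤ),
    ¬ (p : ℤ) ∣ N ∧ (∀ x, w x ^ p = 1) ∧
    (∀ c : C, (∀ u : W, c • u = u) → ∑ x, ((lam x c : ℂˣ) : ℂ) = (N : ℂ)) ∧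
    (∀ c : C, ¬ (∀ u : W, c • u = u) → ∑ x, ((lam x c : ℂˣ) : ℂ) = 0) ∧
    ∀ k : ℕ, ¬ p ∣ k → ∀ c : C,
      ‖∑ x, w x ^ k * ((lam x c : ℂˣ) : ℂ)‖ ^ 2 * (Nat.card {u : W // c • u = u} : ℝ) ≤
        (Nat.card W : ℝ)

theorem thetaData_prod (p : ℕ) [hp : Fact p.Prime] {C : Type*} [Group C] {W W' W'' : Type*}
    [SMul C W] [SMul C W'] [SMul C W''] [Finite W'] [Finite W''] [Nonempty W'] [Nonempty W'']
    (e : W' × W'' ≃ W) (he : ∀ (c : C) (a : W' × W''), c • e a = e (c • a.1, c • a.2))
    (h1 : ThetaData p C W') (h2 : ThetaData p C W'') : ThetaData p C W := by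
  classical
  obtain ⟨I₁, _, lam₁, w₁, N₁, hN₁, hw₁, hA₁, hB₁, hC₁⟩ := h1
  obtain ⟨I₂, _, lam₂, w₂, N₂, hN₂, hw₂, hA₂, hB₂, hC₂⟩ := h2
  have hfixa : ∀ (c : C) (a : W' × W''), (c • a.1 = a.1 ∧ c • a.2 = a.2) ↔ c • e a = e a := by
    intro c a
    rw [he]
    constructor
    · rintro ⟨h1, h2⟩
      rw [h1, h2]
    · intro h
      have := e.injective h
      exact ⟨congrArg Prod.fst this, congrArg Prod.snd this⟩
  have hfix : ∀ c : C, (∀ u : W, c • u = u) ↔
      (∀ u : W', c • u = u) ∧ (∀ u : W'', c • u = u) := by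
    intro c
    constructor
    · intro h
      refine ⟨fun u' => ?_, fun u'' => ?_⟩
      · obtain ⟨b⟩ := (inferInstance : Nonempty W'')
        exact ((hfixa c (u', b)).mpr (h _)).1
      · obtain ⟨b⟩ := (inferInstance : Nonempty W')
        exact ((hfixa c (b, u'')).mpr (h _)).2
    · rintro ⟨h1, h2⟩ u
      obtain ⟨a, rfl⟩ := e.surjective u
      exact (hfixa c a).mp ⟨h1 _, h2 _⟩
  have hsum : ∀ (k : ℕ) (c : C),
      ∑ x : I₁ × I₂, (w₁ x.1 * w₂ x.2) ^ k * (((lam₁ x.1 * lam₂ x.2) c : ℂˣ) : ℂ) =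
        (∑ x, w₁ x ^ k * ((lam₁ x c : ℂˣ) : ℂ)) * (∑ y, w₂ y ^ k * ((lam₂ y c : ℂˣ) : ℂ)) := by
    intro k c
    rw [Fintype.sum_prod_type, Finset.sum_mul_sum]
    refine Finset.sum_congr rfl (fun x _ => Finset.sum_congr rfl (fun y _ => ?_))
    rw [MonoidHom.mul_apply, Units.val_mul, mul_pow]
    ring
  have hsum0 : ∀ c : C, ∑ x : I₁ × I₂, (((lam₁ x.1 * lam₂ x.2) c : ℂˣ) : ℂ) =
      (∑ x, ((lam₁ x c : ℂˣ) : ℂ)) * (∑ y, ((lam₂ y c : ℂˣ) : ℂ)) := by
    intro c
    have := hsum 0 c
    simpa using this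
  refine ⟨I₁ × I₂, inferInstance, fun x => lam₁ x.1 * lam₂ x.2, fun x => w₁ x.1 * w₂ x.2,
    N₁ * N₂, ?_, ?_, ?_, ?_, ?_⟩
  · intro h
    have hpi : Prime (p : ℤ) := Nat.prime_iff_prime_int.mp hp.out
    rcases hpi.dvd_or_dvd h with h | h
    · exact hN₁ h
    · exact hN₂ h
  · intro x
    rw [mul_pow, hw₁, hw₂, one_mul]
  · intro c hc
    rw [hsum0, hA₁ c ((hfix c).mp hc).1, hA₂ c ((hfix c).mp hc).2]
    push_cast
    ring
  · intro c hc
    rw [hsum0]
    by_cases h1 : ∀ u : W', c • u = u
    · have h2 : ¬ ∀ u : W'', c • u = u := fun h2 => hc ((hfix c).mpr ⟨h1, h2⟩)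
      rw [hB₂ c h2, mul_zero]
    · rw [hB₁ c h1, zero_mul]
  · intro k hk c
    rw [hsum k c, norm_mul, mul_pow]
    have hcardfix : Nat.card {u : W // c • u = u} =
        Nat.card {u : W' // c • u = u} * Nat.card {u : W'' // c • u = u} := by
      rw [← Nat.card_prod]
      exact Nat.card_congr
        (((Equiv.subtypeProdEquivProd (p := fun u' : W' => c • u' = u')
          (q := fun u'' : W'' => c • u'' = u'')).symm.trans
          (e.subtypeEquiv (fun a => hfixa c a))).symm)
    have hcardW : Nat.card W = Nat.card W' * Nat.card W'' := by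
      rw [← Nat.card_prod]
      exact (Nat.card_congr e).symm
    rw [hcardfix, hcardW]
    push_cast
    have h1 := hC₁ k hk c
    have h2 := hC₂ k hk c
    have h1' : 0 ≤ ‖∑ x, w₁ x ^ k * ((lam₁ x c : ℂˣ) : ℂ)‖ ^ 2 *
        (Nat.card {u : W' // c • u = u} : ℝ) := by positivity
    have h2' : 0 ≤ ‖∑ y, w₂ y ^ k * ((lam₂ y c : ℂˣ) : ℂ)‖ ^ 2 *
        (Nat.card {u : W'' // c • u = u} : ℝ) := by positivity
    calc ‖∑ x, w₁ x ^ k * ((lam₁ x c : ℂˣ) : ℂ)‖ ^ 2 *
          ‖∑ y, w₂ y ^ k * ((lam₂ y c : ℂˣ) : ℂ)‖ ^ 2 *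
          ((Nat.card {u : W' // c • u = u} : ℝ) * (Nat.card {u : W'' // c • u = u} : ℝ))
        = (‖∑ x, w₁ x ^ k * ((lam₁ x c : ℂˣ) : ℂ)‖ ^ 2 * (Nat.card {u : W' // c • u = u} : ℝ)) *
          (‖∑ y, w₂ y ^ k * ((lam₂ y c : ℂˣ) : ℂ)‖ ^ 2 *
            (Nat.card {u : W'' // c • u = u} : ℝ)) := by ring
      _ ≤ (Nat.card W' : ℝ) * (Nat.card W'' : ℝ) := mul_le_mul h1 h2 h2' (by positivity)

theorem sum_units_eq {F : Type*} [Field F] [Fintype F] [DecidableEq F] (f : F → ℂ) (h0 : f 0 = 0) :
    ∑ x : Fˣ, f (x : F) = ∑ a : F, f a := by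
  rw [← Finset.sum_erase Finset.univ h0]
  refine Finset.sum_bij' (fun x _ => (x : F))
    (fun a ha => Units.mk0 a (Finset.ne_of_mem_erase ha)) ?_ ?_ ?_ ?_ ?_
  · intro x _
    exact Finset.mem_erase.mpr ⟨x.ne_zero, Finset.mem_univ _⟩
  · intro a _
    exact Finset.mem_univ _
  · intro x _
    exact Units.ext rfl
  · intro a _
    rfl
  · intro x _
    rfl

/-- The restricted action on an invariant subgroup. -/
@[reducible] def subAction {C W : Type*} [Monoid C] [Group W] [MulDistribMulAction C W]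
    (S : Subgroup W) (hS : ∀ c : C, ∀ u ∈ S, c • u ∈ S) : MulDistribMulAction C S where
  smul c u := ⟨c • (u : W), hS c u u.2⟩
  one_smul u := Subtype.ext (one_smul C (u : W))
  mul_smul a b u := Subtype.ext (mul_smul a b (u : W))
  smul_mul c u u' := Subtype.ext (smul_mul' c (u : W) (u' : W))
  smul_one c := Subtype.ext (smul_one c)

theorem thetaData_base (p : ℕ) [hp : Fact p.Prime] {C : Type*} [Group C] [Finite C]
    {W : Type*} [CommGroup W] [Finite W] [MulDistribMulAction C W]
    (hcomm : ∀ a b : C, a * b = b * a) (hW : ∀ u : W, u ^ p = 1)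
    (hdich : ∀ c : C, (∀ u : W, c • u = u) ∨ (∀ u : W, c • u = u → u = 1)) :
    ThetaData p C W := by
  classical
  by_cases hsub : Subsingleton W
  · refine ⟨Unit, inferInstance, fun _ => 1, fun _ => 1, 1, ?_, ?_, ?_, ?_, ?_⟩
    · intro h
      have h2 : (p : ℤ) = 1 ∨ (p : ℤ) = -1 := Int.isUnit_iff.mp (isUnit_of_dvd_one h)
      have := hp.out.one_lt
      omega
    · intro x; simp
    · intro c _; simp
    · intro c hc; exact absurd (fun u => Subsingleton.elim _ _) hc
    · intro k _ c
      simp only [one_pow, MonoidHom.one_apply, Units.val_one, mul_one, Finset.univ_unique,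
        Finset.sum_const, Finset.card_singleton, one_smul, norm_one, one_mul]
      exact_mod_cast Nat.card_le_card_of_injective _ Subtype.val_injective
  · rw [not_subsingleton_iff_nontrivial] at hsub
    have hPG : IsPGroup p W := fun u => ⟨1, by rw [pow_one]; exact hW u⟩
    obtain ⟨d, hd⟩ := IsPGroup.iff_card.mp hPG
    have hd0 : d ≠ 0 := by
      rintro rfl
      rw [pow_zero] at hd
      have := Finite.one_lt_card (α := W)
      omega
    let φ : C →* MulAut W := MulDistribMulAction.toMulAut C W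
    have hφ : ∀ c u, φ c u = c • u := fun c u => rfl
    let A : Subgroup (MulAut W) := φ.range
    have hAcomm : ∀ a b : A, a * b = b * a := by
      rintro ⟨a, c, rfl⟩ ⟨b, c', rfl⟩
      apply Subtype.ext
      show φ c * φ c' = φ c' * φ c
      rw [← map_mul, ← map_mul, hcomm]
    have hAfpf : ∀ a : A, a ≠ 1 → ∀ u : W, a • u = u → u = 1 := by
      rintro ⟨a, c, rfl⟩ ha u hu
      rcases hdich c with h | h
      · exfalso
        apply ha
        apply Subtype.ext
        ext u'
        exact h u'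
      · exact h u hu
    haveI : Finite A := Finite.of_surjective φ.rangeRestrict φ.rangeRestrict_surjective
    have hAcyc : IsCyclic A := Cfsg.Agent.H1.FPF.isCyclic_of_comm hAfpf hAcomm
    set m := Nat.card A with hm
    have hm0 : m ≠ 0 := Nat.card_pos.ne'
    have hm_dvd : m ∣ p ^ d - 1 := by
      haveI : Fintype A := Fintype.ofFinite A
      haveI : Fintype W := Fintype.ofFinite W
      have hB := MulAction.sum_card_fixedBy_eq_card_orbits_mul_card_group A W
      have hfix : ∀ a : A, Fintype.card (MulAction.fixedBy W a) =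
          1 + (if a = 1 then p ^ d - 1 else 0) := by
        intro a
        by_cases ha : a = 1
        · rw [if_pos ha, ha]
          have : MulAction.fixedBy W (1 : A) = Set.univ := by
            ext u; simp
          rw [← Nat.card_eq_fintype_card, this, Nat.card_congr (Equiv.Set.univ W), hd]
          have := Nat.one_le_pow d p hp.out.pos
          omega
        · rw [if_neg ha, add_zero, Fintype.card_eq_one_iff]
          refine ⟨⟨1, by simp⟩, ?_⟩
          rintro ⟨u, hu⟩
          exact Subtype.ext (hAfpf a ha u hu)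
      rw [Finset.sum_congr rfl (fun a _ => hfix a), Finset.sum_add_distrib, Finset.sum_ite_eq'] at hB
      simp only [Finset.sum_const, Finset.card_univ, smul_eq_mul, mul_one, Finset.mem_univ,
        if_true] at hB
      rw [← Nat.card_eq_fintype_card (α := A), ← hm] at hB
      have : m ∣ m + (p ^ d - 1) := by rw [hB]; exact dvd_mul_left _ _
      exact (Nat.dvd_add_right (dvd_refl m)).mp this
    let F := GaloisField p d
    haveI : Fintype F := Fintype.ofFinite F
    have hFcard : Fintype.card F = p ^ d := by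
      rw [← Nat.card_eq_fintype_card]; exact GaloisField.card p d hd0
    obtain ⟨χ₀, hχ₀⟩ := MulChar.exists_mulChar_orderOf F (n := m) (R := ℂ)
      (by rw [hFcard]; exact hm_dvd) (Complex.isPrimitiveRoot_exp m hm0)
    obtain ⟨g, hg⟩ := IsCyclic.exists_generator (α := A)
    have hog : orderOf g = m := orderOf_eq_card_of_forall_mem_zpowers hg
    let f : A →* MulChar F ℂ := monoidHomOfForallMemZpowers hg (g' := χ₀) (by rw [hχ₀, hog])
    have hf_inj : ∀ a : A, f a = 1 → a = 1 := by
      intro a ha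
      obtain ⟨j, rfl⟩ := Subgroup.mem_zpowers_iff.mp (hg a)
      rw [map_zpow, monoidHomOfForallMemZpowers_apply_gen] at ha
      have h1 : (orderOf χ₀ : ℤ) ∣ j := orderOf_dvd_iff_zpow_eq_one.mpr ha
      rw [hχ₀, ← hog] at h1
      exact orderOf_dvd_iff_zpow_eq_one.mp h1
    let ι : C →* MulChar F ℂ := f.comp φ.rangeRestrict
    have hι : ∀ c : C, ι c = 1 ↔ ∀ u : W, c • u = u := by
      intro c
      constructor
      · intro h u
        have h1 : φ.rangeRestrict c = 1 := hf_inj _ h
        have h2 : φ c = 1 := congrArg Subtype.val h1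
        have h3 := congrArg (fun a : MulAut W => a u) h2
        simpa [hφ] using h3
      · intro h
        have h2 : φ c = 1 := by ext u; exact h u
        have h1 : φ.rangeRestrict c = 1 := Subtype.ext h2
        show f (φ.rangeRestrict c) = 1
        rw [h1, map_one]
    obtain ⟨ψ, hψ⟩ := (AddChar.exists_apply_ne_zero (α := F) (a := 1)).mpr one_ne_zero
    have hψp : ∀ a : F, ψ a ^ p = 1 := by
      intro a
      rw [← AddChar.map_nsmul_eq_pow, nsmul_eq_mul, CharP.cast_eq_zero F p, zero_mul,
        AddChar.map_zero_eq_one]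
    have hψk : ∀ k : ℕ, ¬ p ∣ k → ψ ^ k ≠ 1 := by
      intro k hk h
      have hp1 : ψ ^ p = 1 := by
        ext a
        rw [AddChar.pow_apply, hψp a]; rfl
      have hg1 := pow_gcd_eq_one.mpr ⟨hp1, h⟩
      rw [(Nat.Prime.coprime_iff_not_dvd hp.out).mpr hk, pow_one] at hg1
      rw [hg1] at hψ
      exact hψ rfl
    let lam : Fˣ → (C →* ℂˣ) := fun x =>
      { toFun := fun c => (ι c).toUnitHom x
        map_one' := by
          rw [map_one]; ext; rw [MulChar.coe_toUnitHom, MulChar.one_apply_coe]; rfl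
        map_mul' := fun c c' => by
          rw [map_mul]; ext
          rw [MulChar.coe_toUnitHom, MulChar.mul_apply, Units.val_mul, MulChar.coe_toUnitHom,
            MulChar.coe_toUnitHom] }
    have hlam : ∀ (x : Fˣ) (c : C), ((lam x c : ℂˣ) : ℂ) = ι c (x : F) :=
      fun x c => MulChar.coe_toUnitHom _ _
    have hgs : ∀ (k : ℕ) (c : C), ∑ x : Fˣ, ψ (x : F) ^ k * ((lam x c : ℂˣ) : ℂ) =
        gaussSum (ι c) (ψ ^ k) := by
      intro k c
      unfold gaussSum
      rw [← sum_units_eq (fun a => ι c a * (ψ ^ k) a) (by rw [MulChar.map_zero, zero_mul])]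
      refine Finset.sum_congr rfl (fun x _ => ?_)
      rw [hlam, AddChar.pow_apply, mul_comm]
    refine ⟨Fˣ, inferInstance, lam, fun x => ψ (x : F), ((Fintype.card Fˣ : ℕ) : ℤ),
      ?_, ?_, ?_, ?_, ?_⟩
    · intro h
      rw [Int.natCast_dvd_natCast, Fintype.card_units, hFcard] at h
      have h2 : p ∣ p ^ d := dvd_pow_self p hd0
      have h3 : p ∣ 1 := by
        have := Nat.dvd_sub h2 h
        have h4 : p ^ d - (p ^ d - 1) = 1 := by
          have := Nat.one_le_pow d p hp.out.pos
          omega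
        rwa [h4] at this
      exact hp.out.one_lt.ne' (Nat.dvd_one.mp h3)
    · intro x
      exact hψp x
    · intro c hc
      have h1 : ι c = 1 := (hι c).mpr hc
      rw [Finset.sum_congr rfl (fun x _ => by rw [hlam, h1, MulChar.one_apply_coe])]
      simp
    · intro c hc
      have h1 : ι c ≠ 1 := fun h => hc ((hι c).mp h)
      rw [Finset.sum_congr rfl (fun x _ => hlam x c),
        sum_units_eq (fun a => ι c a) (MulChar.map_zero _)]
      exact MulChar.sum_eq_zero_of_ne_one h1
    · intro k hk c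
      rw [hgs k c]
      by_cases h1 : ι c = 1
      · rw [h1, gaussSum_one_left (hψk k hk), norm_neg, norm_one, one_pow, one_mul]
        exact_mod_cast Nat.card_le_card_of_injective _ Subtype.val_injective
      · have h2 := gaussSum_mul_gaussSum_eq_card (R := F) (R' := ℂ) h1
          (AddChar.IsPrimitive.of_ne_one (hψk k hk))
        rw [← star_gaussSum_eq, Complex.star_def, Complex.mul_conj', hFcard] at h2
        have h3 : ‖gaussSum (ι c) (ψ ^ k)‖ ^ 2 = (p ^ d : ℝ) := by exact_mod_cast h2
        have hfpf : ∀ u : W, c • u = u → u = 1 := by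
          rcases hdich c with h | h
          · exact absurd ((hι c).mpr h) h1
          · exact h
        have h4 : Nat.card {u : W // c • u = u} = 1 := by
          rw [Nat.card_eq_one_iff_unique]
          refine ⟨⟨?_⟩, ⟨⟨1, smul_one c⟩⟩⟩
          rintro ⟨u, hu⟩ ⟨u', hu'⟩
          exact Subtype.ext ((hfpf u hu).trans (hfpf u' hu').symm)
        rw [h3, h4, hd]
        push_cast
        linarith

theorem thetaData_exists (p : ℕ) [hp : Fact p.Prime] {C : Type*} [Group C] [Finite C]
    (hcomm : ∀ a b : C, a * b = b * a) (hC : ¬ p ∣ Nat.card C) :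
    ∀ (n : ℕ) (W : Type u) [CommGroup W] [Finite W] [MulDistribMulAction C W],
      Nat.card W = n → (∀ u : W, u ^ p = 1) → ThetaData p C W := by
  intro n
  induction n using Nat.strong_induction_on with
  | _ n ih =>
    intro W _ _ _ hn hW
    by_cases hdich : ∀ c : C, (∀ u : W, c • u = u) ∨ (∀ u : W, c • u = u → u = 1)
    · exact thetaData_base p hcomm hW hdich
    · push Not at hdich
      obtain ⟨c₀, ⟨u₁, hu₁⟩, ⟨u₂, hu₂, hu₂1⟩⟩ := hdich
      let δ : W →* W := MulDistribMulAction.toMonoidHom W c₀ / MonoidHom.id W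
      have hδ : ∀ u, δ u = c₀ • u / u := fun u => rfl
      have hinv : ∀ (c : C) (u : W), c • δ u = δ (c • u) := by
        intro c u
        rw [hδ, hδ, smul_div', smul_smul, smul_smul, hcomm c c₀]
      have hker : ∀ c : C, ∀ u ∈ δ.ker, c • u ∈ δ.ker := by
        intro c u hu
        rw [MonoidHom.mem_ker] at hu ⊢
        rw [← hinv, hu, smul_one]
      have hrange : ∀ c : C, ∀ u ∈ δ.range, c • u ∈ δ.range := by
        rintro c _ ⟨y, rfl⟩
        exact ⟨c • y, (hinv c y).symm⟩
      letI a1 : MulDistribMulAction C δ.ker := subAction δ.ker hker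
      letI a2 : MulDistribMulAction C δ.range := subAction δ.range hrange
      have hmemker : ∀ u : W, u ∈ δ.ker ↔ c₀ • u = u := by
        intro u
        rw [MonoidHom.mem_ker, hδ, div_eq_one]
      have hcop : Nat.Coprime (Nat.card C) p :=
        ((Nat.Prime.coprime_iff_not_dvd hp.out).mpr hC).symm
      have hdisj : ∀ u : W, u ∈ δ.ker → u ∈ δ.range → u = 1 := by
        rintro u hu ⟨y, rfl⟩
        rw [hmemker] at hu
        have hfixpow : ∀ i : ℕ, c₀ ^ i • δ y = δ y := by
          intro i
          induction i with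
          | zero => rw [pow_zero, one_smul]
          | succ i ih => rw [pow_succ, mul_smul, hu, ih]
        have h1 : ∏ i ∈ Finset.range (Nat.card C), c₀ ^ i • δ y = δ y ^ Nat.card C := by
          rw [Finset.prod_congr rfl (fun i _ => hfixpow i), Finset.prod_const, Finset.card_range]
        have h2 : ∏ i ∈ Finset.range (Nat.card C), c₀ ^ i • δ y = 1 := by
          have h3 : ∀ i : ℕ, c₀ ^ i • δ y = (c₀ ^ (i + 1) • y) / (c₀ ^ i • y) := by
            intro i
            rw [hδ, smul_div', smul_smul, ← pow_succ]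
          rw [Finset.prod_congr rfl (fun i _ => h3 i),
            Finset.prod_range_div (fun i => c₀ ^ i • y), pow_card_eq_one', pow_zero, div_self']
        have h4 : δ y ^ Nat.card C = 1 := h1.symm.trans h2
        have h5 := pow_gcd_eq_one.mpr ⟨h4, hW (δ y)⟩
        rwa [hcop, pow_one] at h5
      have hcard : Nat.card δ.ker * Nat.card δ.range = Nat.card W := by
        rw [← Subgroup.index_ker, Subgroup.card_mul_index]
      have hk1 : 1 < Nat.card δ.ker := by
        rw [Finite.one_lt_card_iff_nontrivial]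
        exact ⟨⟨⟨u₂, (hmemker u₂).mpr hu₂⟩, 1, fun h => hu₂1 (congrArg Subtype.val h)⟩⟩
      have hWpos : 0 < Nat.card W := Nat.card_pos
      have hrpos : 0 < Nat.card δ.range := Nat.card_pos
      have hklt : Nat.card δ.ker < Nat.card W := by
        have hne : δ.ker ≠ ⊤ := by
          intro h
          have : u₁ ∈ δ.ker := by rw [h]; exact Subgroup.mem_top _
          exact hu₁ ((hmemker u₁).mp this)
        exact lt_of_le_of_ne (Subgroup.card_le_card_group _)
          (fun h => hne (Subgroup.eq_top_of_card_eq _ h))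
      have hrlt : Nat.card δ.range < Nat.card W := by
        nlinarith
      let e₀ : δ.ker × δ.range → W := fun a => (a.1 : W) * (a.2 : W)
      have he₀inj : Function.Injective e₀ := by
        rintro ⟨a, b⟩ ⟨a', b'⟩ h
        have h' : (a : W) * b = a' * b' := h
        have h1 : (a : W) / a' = b' / b := by
          rw [div_eq_div_iff_mul_eq_mul, h', mul_comm]
        have h2 : (a : W) / a' = 1 :=
          hdisj _ (δ.ker.div_mem a.2 a'.2) (by rw [h1]; exact δ.range.div_mem b'.2 b.2)
        have h3 : (b' : W) / b = 1 := by rw [← h1, h2]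
        rw [div_eq_one] at h2 h3
        exact Prod.ext (Subtype.ext h2) (Subtype.ext h3.symm)
      have he₀bij : Function.Bijective e₀ :=
        (Nat.bijective_iff_injective_and_card e₀).mpr ⟨he₀inj, by rw [Nat.card_prod, hcard]⟩
      have h1 := @ih (Nat.card δ.ker) (by rw [← hn]; exact hklt) (↥δ.ker) _ _ a1 rfl
        (fun u => Subtype.ext (hW u))
      have h2 := @ih (Nat.card δ.range) (by rw [← hn]; exact hrlt) (↥δ.range) _ _ a2 rfl
        (fun u => Subtype.ext (hW u))
      exact thetaData_prod p (Equiv.ofBijective e₀ he₀bij)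
        (fun c a => smul_mul' c (a.1 : W) (a.2 : W)) h1 h2

end Cfsg.Agent.Lib.Helper96.Knoerr
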