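import Mathlib
import Cfsg.Prelude.Def_Characters
import Cfsg.Agent.H4.Irr
import Cfsg.Agent.H4.Chars
import Cfsg.Agent.H4.IrrCount
import Cfsg.Agent.H4.BrauerBasic
import Cfsg.Agent.H84.RootSum

/-!
# helper96: the character-theoretic inequality behind Knörr's theorem

Given theta data `θ_k(c) = ∑ x, w x ^ k * lam x c` on `C = C_G(v)`, the numbers
`α_χ^(k) = |C|⁻¹ ∑_c χ(v^k c) conj(θ_k(c))` are sums of `p`-th roots of unity whose number is
prime to `p`; column orthogonality bounds `∑_χ |α_χ^(k)|²`.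
-/

set_option autoImplicit false
set_option linter.unusedSectionVars false
set_option linter.style.haveILetI false

universe u

namespace Cfsg.Agent.Lib.Helper96.Knoerr

open Cfsg Cfsg.Agent.H4
open scoped ComplexConjugate

/-- The homomorphism `j ↦ z ^ j` from the cyclic group of order `p`, for `z ^ p = 1`. -/
def powHom {M : Type*} [Monoid M] (p : ℕ) [NeZero p] (z : M) (hz : z ^ p = 1) :
    Multiplicative (ZMod p) →* M where
  toFun j := z ^ (Multiplicative.toAdd j).val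
  map_one' := by simp
  map_mul' a b := by
    rw [← pow_add, toAdd_mul, ZMod.val_add, ← pow_eq_pow_mod _ hz]

theorem powHom_apply {M : Type*} [Monoid M] (p : ℕ) [NeZero p] (z : M) (hz : z ^ p = 1)
    (j : Multiplicative (ZMod p)) : powHom p z hz j = z ^ (Multiplicative.toAdd j).val := rfl

theorem sum_mult_zmod {M : Type*} [AddCommMonoid M] (p : ℕ) [NeZero p] (F : ℕ → M) :
    ∑ j : Multiplicative (ZMod p), F (Multiplicative.toAdd j).val = ∑ j ∈ Finset.range p, F j := by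
  rw [Fintype.sum_equiv Multiplicative.toAdd (fun j => F (Multiplicative.toAdd j).val)
    (fun i : ZMod p => F i.val) (fun _ => rfl)]
  cases p with
  | zero => exact absurd rfl (NeZero.ne 0)
  | succ n => exact Fin.sum_univ_eq_sum_range F (n + 1)

theorem exists_mult {X : Type*} [Group X] (p : ℕ) [hp : Fact p.Prime] {χ : X → ℂ}
    (hχ : IsCharacter X χ) (v : X) (hvp : v ^ p = 1) (C : Subgroup X) [Fintype C]
    (hCv : ∀ c ∈ C, c * v = v * c) (lam : ↥C →* ℂˣ) (ζ : ℂ) (hζ : IsPrimitiveRoot ζ p) :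
    ∃ n : ℕ → ℕ, ∀ k : ℕ,
      (Nat.card C : ℂ)⁻¹ * ∑ c : C, χ (v ^ k * c) * conj ((lam c : ℂˣ) : ℂ) =
        ∑ i ∈ Finset.range p, (n i : ℂ) * (ζ ^ i) ^ k := by
  classical
  haveI : NeZero p := ⟨hp.out.ne_zero⟩
  have hcomm : ∀ (j : Multiplicative (ZMod p)) (c : C),
      Commute (powHom p v hvp j) (C.subtype c) := by
    intro j c
    exact ((show Commute v (c : X) from (hCv c c.2).symm).pow_left _)
  let m : Multiplicative (ZMod p) × ↥C →* X :=
    MonoidHom.noncommCoprod (powHom p v hvp) C.subtype hcomm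
  have hm : ∀ (j : Multiplicative (ZMod p)) (c : C),
      m (j, c) = v ^ (Multiplicative.toAdd j).val * (c : X) := fun j c => rfl
  have hζ0 : ζ ≠ 0 := hζ.ne_zero hp.out.ne_zero
  let ζu : ℂˣ := Units.mk0 ζ hζ0
  have hζu : ∀ i : ℕ, (ζu ^ i) ^ p = 1 := by
    intro i
    apply Units.ext
    simp only [Units.val_pow_eq_pow_val, Units.val_mk0, Units.val_one, ζu]
    rw [← pow_mul, mul_comm, pow_mul, hζ.pow_eq_one, one_pow]
  let Λ : ℕ → (Multiplicative (ZMod p) × ↥C →* ℂˣ) :=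
    fun i => (powHom p (ζu ^ i) (hζu i)).coprod lam
  have hΛ : ∀ (i : ℕ) (j : Multiplicative (ZMod p)) (c : C),
      ((Λ i (j, c) : ℂˣ) : ℂ) = (ζ ^ i) ^ (Multiplicative.toAdd j).val * ((lam c : ℂˣ) : ℂ) := by
    intro i j c
    simp [Λ, MonoidHom.coprod_apply, powHom_apply, ζu]
  have hψ : IsCharacter (Multiplicative (ZMod p) × ↥C) (fun a => χ (m a)) :=
    isCharacter_comp m hχ
  have hΛc : ∀ i, IsCharacter (Multiplicative (ZMod p) × ↥C) (fun a => ((Λ i a : ℂˣ) : ℂ)) :=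
    fun i => isCharacter_of_hom (Λ i)
  choose n hn using fun i => classInner_isCharacter_nat hψ (hΛc i)
  refine ⟨n, fun k => ?_⟩
  have hcardA : (Nat.card (Multiplicative (ZMod p) × ↥C) : ℂ) = (p : ℂ) * (Nat.card C : ℂ) := by
    rw [Nat.card_prod, Nat.card_congr Multiplicative.toAdd, Nat.card_zmod]
    push_cast
    ring
  have hni : ∀ i : ℕ, (n i : ℂ) = ((p : ℂ) * (Nat.card C : ℂ))⁻¹ *
      ∑ j ∈ Finset.range p, ∑ c : C,
        χ (v ^ j * (c : X)) * conj ((ζ ^ i) ^ j * ((lam c : ℂˣ) : ℂ)) := by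
    intro i
    rw [← hn i]
    unfold classInner
    rw [hcardA, Fintype.sum_prod_type]
    congr 1
    rw [← sum_mult_zmod p (fun j => ∑ c : C,
      χ (v ^ j * (c : X)) * conj ((ζ ^ i) ^ j * ((lam c : ℂˣ) : ℂ)))]
    refine Finset.sum_congr rfl (fun j _ => Finset.sum_congr rfl (fun c _ => ?_))
    show χ (m (j, c)) * conj ((Λ i (j, c) : ℂˣ) : ℂ) = _
    rw [hm, hΛ]
  have hpC : (p : ℂ) ≠ 0 := by exact_mod_cast hp.out.ne_zero
  have hnorm : ‖ζ‖ = 1 := hζ.norm'_eq_one hp.out.ne_zero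
  have hinner : ∀ j ∈ Finset.range p,
      ∑ i ∈ Finset.range p, conj ((ζ ^ i) ^ j) * (ζ ^ i) ^ k =
        if j = k % p then (p : ℂ) else 0 := by
    intro j hj
    have h1 : ∀ i, conj ((ζ ^ i) ^ j) * (ζ ^ i) ^ k = (conj (ζ ^ j) * ζ ^ k) ^ i := by
      intro i
      rw [mul_pow, ← map_pow, ← pow_mul, ← pow_mul, ← pow_mul, ← pow_mul, mul_comm i j,
        mul_comm i k]
    have hpow : (conj (ζ ^ j) * ζ ^ k) ^ p = 1 := by
      rw [mul_pow, ← map_pow, ← pow_mul, ← pow_mul, mul_comm j p, mul_comm k p, pow_mul, pow_mul,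
        hζ.pow_eq_one, one_pow, one_pow, map_one, one_mul]
    rw [Finset.sum_congr rfl (fun i _ => h1 i), Cfsg.Agent.H84.geom_sum_of_pow_eq_one _ p hpow]
    have hiff : conj (ζ ^ j) * ζ ^ k = 1 ↔ j = k % p := by
      have hn1 : ‖ζ ^ j‖ = 1 := by rw [norm_pow, hnorm, one_pow]
      have hne : ζ ^ j ≠ 0 := pow_ne_zero _ hζ0
      rw [← Complex.inv_eq_conj hn1, inv_mul_eq_one₀ hne, pow_eq_pow_mod k hζ.pow_eq_one]
      constructor
      · intro h
        exact hζ.pow_inj (Finset.mem_range.mp hj) (Nat.mod_lt _ hp.out.pos) h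
      · intro h
        rw [h]
    simp only [hiff]
  calc (Nat.card C : ℂ)⁻¹ * ∑ c : C, χ (v ^ k * c) * conj ((lam c : ℂˣ) : ℂ)
      = ((p : ℂ) * (Nat.card C : ℂ))⁻¹ * ∑ j ∈ Finset.range p,
          (∑ c : C, χ (v ^ j * (c : X)) * conj ((lam c : ℂˣ) : ℂ)) *
            (if j = k % p then (p : ℂ) else 0) := by
        have hsingle : ∑ j ∈ Finset.range p,
            (∑ c : C, χ (v ^ j * (c : X)) * conj ((lam c : ℂˣ) : ℂ)) *
              (if j = k % p then (p : ℂ) else 0) =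
            (∑ c : C, χ (v ^ (k % p) * (c : X)) * conj ((lam c : ℂˣ) : ℂ)) * (p : ℂ) := by
          rw [Finset.sum_eq_single (k % p)]
          · rw [if_pos rfl]
          · intro j _ hj
            rw [if_neg hj, mul_zero]
          · intro h
            exact absurd (Finset.mem_range.mpr (Nat.mod_lt _ hp.out.pos)) h
        rw [hsingle, ← pow_eq_pow_mod k hvp, mul_inv]
        field_simp
    _ = ((p : ℂ) * (Nat.card C : ℂ))⁻¹ * ∑ j ∈ Finset.range p,
          (∑ c : C, χ (v ^ j * (c : X)) * conj ((lam c : ℂˣ) : ℂ)) *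
            (∑ i ∈ Finset.range p, conj ((ζ ^ i) ^ j) * (ζ ^ i) ^ k) := by
        congr 1
        exact Finset.sum_congr rfl (fun j hj => by rw [hinner j hj])
    _ = ∑ i ∈ Finset.range p, (n i : ℂ) * (ζ ^ i) ^ k := by
        have e1 : ∑ i ∈ Finset.range p, (n i : ℂ) * (ζ ^ i) ^ k =
            ((p : ℂ) * (Nat.card C : ℂ))⁻¹ * ∑ i ∈ Finset.range p, ∑ j ∈ Finset.range p,
              ∑ c : C, χ (v ^ j * (c : X)) * conj ((ζ ^ i) ^ j * ((lam c : ℂˣ) : ℂ)) *
                (ζ ^ i) ^ k := by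
          rw [Finset.mul_sum]
          refine Finset.sum_congr rfl (fun i _ => ?_)
          rw [hni i, mul_assoc, Finset.sum_mul]
          congr 1
          refine Finset.sum_congr rfl (fun j _ => ?_)
          rw [Finset.sum_mul]
        have e2 : ∑ j ∈ Finset.range p,
            (∑ c : C, χ (v ^ j * (c : X)) * conj ((lam c : ℂˣ) : ℂ)) *
              (∑ i ∈ Finset.range p, conj ((ζ ^ i) ^ j) * (ζ ^ i) ^ k) =
            ∑ j ∈ Finset.range p, ∑ c : C, ∑ i ∈ Finset.range p,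
              (χ (v ^ j * (c : X)) * conj ((lam c : ℂˣ) : ℂ)) *
                (conj ((ζ ^ i) ^ j) * (ζ ^ i) ^ k) := by
          refine Finset.sum_congr rfl (fun j _ => ?_)
          rw [Finset.sum_mul_sum]
        rw [e1, e2]
        congr 1
        symm
        rw [Finset.sum_comm]
        refine Finset.sum_congr rfl (fun j _ => ?_)
        rw [Finset.sum_comm]
        refine Finset.sum_congr rfl (fun c _ => Finset.sum_congr rfl (fun i _ => ?_))
        rw [map_mul]
        ring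

theorem rootsum_weighted (p : ℕ) (hp : p.Prime) {J : Type*} [Fintype J] (n : J → ℕ) (z : J → ℂ)
    (hz : ∀ j, z j ^ p = 1) (hn : ¬ p ∣ ∑ j, n j) :
    ((p - 1 : ℕ) : ℝ) ≤ ∑ k ∈ (Finset.range p).filter (fun k => ¬ p ∣ k),
      ‖∑ j, (n j : ℂ) * z j ^ k‖ ^ 2 := by
  classical
  have h := Cfsg.Agent.H84.rootsum_lower p hp 1 Nat.one_pos
    (Finset.univ.sigma (fun j : J => Finset.range (n j))) (fun t => z t.1)
    (by intro t _; rw [mul_one]; exact hz t.1)
    (by rw [Finset.card_sigma]; simpa using hn)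
  rw [mul_one] at h
  refine h.trans (le_of_eq ?_)
  refine Finset.sum_congr rfl (fun k _ => ?_)
  congr 2
  rw [Finset.sum_sigma]
  refine Finset.sum_congr rfl (fun j _ => ?_)
  dsimp only
  rw [Finset.sum_const, Finset.card_range, nsmul_eq_mul]

end Cfsg.Agent.Lib.Helper96.Knoerr
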