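import Mathlib
import Cfsg.Agent.Lib.Helper96.Knoerr2

/-!
# helper96: Knörr's inequality from theta data

`knoerr_main`: abstract form of `k(X) ≤ B` from theta data on `C`, the orthogonality facts for
the elements `v^k c` and the coprimality of the character degrees to `p`.
-/

set_option autoImplicit false
set_option linter.unusedSectionVars false
set_option linter.style.haveILetI false

universe u

namespace Cfsg.Agent.Lib.Helper96.Knoerr

open Cfsg Cfsg.Agent.H4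
open scoped ComplexConjugate

/-- The numbers `α_χ^(k)`. -/
noncomputable def alphaK {X : Type*} [Group X] (C : Subgroup X) [Fintype C] (v : X) {I : Type}
    [Fintype I] (lam : I → (↥C →* ℂˣ)) (w : I → ℂ) (k : ℕ) (χ : X → ℂ) : ℂ :=
  (Nat.card C : ℂ)⁻¹ * ∑ c : C, χ (v ^ k * c) * conj (∑ x, w x ^ k * ((lam x c : ℂˣ) : ℂ))

theorem knoerr_main {X : Type u} [Group X] [Finite X] (p : ℕ) [hp : Fact p.Prime] (C : Subgroup X)
    (v : X) (hvp : v ^ p = 1) (hCv : ∀ c ∈ C, c * v = v * c)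
    (I : Type) [Fintype I] (lam : I → (↥C →* ℂˣ)) (w : I → ℂ) (N : ℤ) (hN : ¬ (p : ℤ) ∣ N)
    (hw : ∀ x, w x ^ p = 1)
    (h0 : ∑ x, ((lam x 1 : ℂˣ) : ℂ) = (N : ℂ))
    (h0' : ∀ c : C, c ≠ 1 → ∑ x, ((lam x c : ℂˣ) : ℂ) = 0)
    (F : C → ℕ) (B : ℕ)
    (h1 : ∀ k : ℕ, ¬ p ∣ k → ∀ c : C,
      ‖∑ x, w x ^ k * ((lam x c : ℂˣ) : ℂ)‖ ^ 2 * (F c : ℝ) ≤ B)
    (hO1 : ∀ k : ℕ, ¬ p ∣ k → ∀ c c' : C, c ≠ c' →
      ∀ x : X, x * (v ^ k * c) * x⁻¹ ≠ v ^ k * c')
    (hO2 : ∀ k : ℕ, ¬ p ∣ k → ∀ c : C,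
      Nat.card {x : X // x * (v ^ k * c) * x⁻¹ = v ^ k * c} ≤ Nat.card C * F c)
    (hdeg : ∀ χ : IrrCharacter X, ∃ d : ℕ, (χ : X → ℂ) 1 = d ∧ ¬ p ∣ d) :
    Nat.card (IrrCharacter X) ≤ B := by
  classical
  haveI : Fintype X := Fintype.ofFinite X
  letI := fintypeIrr X
  haveI : Fintype C := Fintype.ofFinite C
  have hp0 : p ≠ 0 := hp.out.ne_zero
  have hζ : IsPrimitiveRoot (Complex.exp (2 * Real.pi * Complex.I / p)) p :=
    Complex.isPrimitiveRoot_exp p hp0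
  generalize Complex.exp (2 * Real.pi * Complex.I / p) = ζ at hζ
  have hCpos : 0 < Nat.card C := Nat.card_pos
  have hCne : (Nat.card C : ℂ) ≠ 0 := by exact_mod_cast hCpos.ne'
  have hM := fun (χ : IrrCharacter X) (x : I) =>
    exists_mult p (isCharacter_of_isIrrCharacter χ.2) v hvp C hCv (lam x) ζ hζ
  choose n hn using hM
  have hwc : ∀ x, (conj (w x)) ^ p = 1 := fun x => by rw [← map_pow, hw, map_one]
  have hα : ∀ (k : ℕ) (χ : IrrCharacter X), alphaK C v lam w k (χ : X → ℂ) =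
      ∑ t : I × Fin p, (n χ t.1 t.2 : ℂ) * (conj (w t.1) * ζ ^ (t.2 : ℕ)) ^ k := by
    intro k χ
    unfold alphaK
    rw [Fintype.sum_prod_type]
    have hx : ∀ x : I, ∑ i : Fin p, (n χ x i : ℂ) * (conj (w x) * ζ ^ (i : ℕ)) ^ k =
        conj (w x) ^ k * ((Nat.card C : ℂ)⁻¹ *
          ∑ c : C, (χ : X → ℂ) (v ^ k * c) * conj ((lam x c : ℂˣ) : ℂ)) := by
      intro x
      rw [hn χ x k, Finset.mul_sum,
        Fin.sum_univ_eq_sum_range (fun i => (n χ x i : ℂ) * (conj (w x) * ζ ^ i) ^ k) p]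
      refine Finset.sum_congr rfl (fun i _ => ?_)
      rw [mul_pow]
      ring
    rw [Finset.sum_congr rfl (fun x _ => hx x)]
    simp_rw [map_sum, map_mul, map_pow, Finset.mul_sum]
    rw [Finset.sum_comm]
    refine Finset.sum_congr rfl (fun x _ => Finset.sum_congr rfl (fun c _ => ?_))
    ring
  have hlow : ∀ χ : IrrCharacter X, ((p - 1 : ℕ) : ℝ) ≤
      ∑ k ∈ (Finset.range p).filter (fun k => ¬ p ∣ k), ‖alphaK C v lam w k (χ : X → ℂ)‖ ^ 2 := by
    intro χ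
    obtain ⟨d, hd, hpd⟩ := hdeg χ
    have hsumn : ¬ p ∣ ∑ t : I × Fin p, n χ t.1 t.2 := by
      intro hdvd
      have h := hα 0 χ
      unfold alphaK at h
      simp only [pow_zero, one_mul, mul_one] at h
      have hL : (Nat.card C : ℂ)⁻¹ * ∑ c : C, (χ : X → ℂ) (c : X) *
          conj (∑ x, ((lam x c : ℂˣ) : ℂ)) = (Nat.card C : ℂ)⁻¹ * ((d : ℂ) * (N : ℂ)) := by
        congr 1
        rw [Finset.sum_eq_single (1 : C)]
        · rw [h0, OneMemClass.coe_one, hd, map_intCast]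
        · intro c _ hc
          rw [h0' c hc, map_zero, mul_zero]
        · intro h
          exact absurd (Finset.mem_univ _) h
      rw [hL] at h
      have h2 : ((d : ℤ) * N : ℤ) =
          (Nat.card C : ℤ) * ((∑ t : I × Fin p, n χ t.1 t.2 : ℕ) : ℤ) := by
        have h3 : ((d : ℂ) * (N : ℂ)) =
            (Nat.card C : ℂ) * ∑ t : I × Fin p, (n χ t.1 t.2 : ℂ) := by
          rw [← h]
          field_simp
        exact_mod_cast h3
      have h3 : (p : ℤ) ∣ (d : ℤ) * N := by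
        rw [h2]
        exact Dvd.dvd.mul_left (Int.natCast_dvd_natCast.mpr hdvd) _
      rcases (Nat.prime_iff_prime_int.mp hp.out).dvd_or_dvd h3 with h4 | h4
      · exact hpd (Int.natCast_dvd_natCast.mp h4)
      · exact hN h4
    have hrs := rootsum_weighted p hp.out (fun t : I × Fin p => n χ t.1 t.2)
      (fun t => conj (w t.1) * ζ ^ (t.2 : ℕ))
      (fun t => by
        rw [mul_pow, hwc, one_mul, ← pow_mul, mul_comm, pow_mul, hζ.pow_eq_one, one_pow]) hsumn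
    refine hrs.trans (le_of_eq ?_)
    refine Finset.sum_congr rfl (fun k _ => ?_)
    rw [hα k χ]
  have hup : ∀ k : ℕ, ¬ p ∣ k →
      ∑ χ : IrrCharacter X, ‖alphaK C v lam w k (χ : X → ℂ)‖ ^ 2 ≤ (B : ℝ) := by
    intro k hk
    have horth : ∀ c c' : C, ∑ χ : IrrCharacter X,
        (χ : X → ℂ) (v ^ k * c) * conj ((χ : X → ℂ) (v ^ k * c')) =
          if c = c' then (Nat.card {x : X // x * (v ^ k * c) * x⁻¹ = v ^ k * c} : ℂ) else 0 := by
      intro c c'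
      have hco := column_orthogonality (G := X) (v ^ k * (c : X)) (v ^ k * (c' : X))
      rw [finsum_irr_eq_sum] at hco
      rw [hco]
      split_ifs with h
      · subst h
        rfl
      · have hemp : IsEmpty {x : X // x * (v ^ k * c) * x⁻¹ = v ^ k * c'} :=
          ⟨fun ⟨x, hx⟩ => hO1 k hk c c' h x hx⟩
        rw [Nat.card_of_isEmpty, Nat.cast_zero]
    have hterm : ∀ χ : IrrCharacter X,
        ((‖alphaK C v lam w k (χ : X → ℂ)‖ : ℝ) : ℂ) ^ 2 =
          ((Nat.card C : ℂ)⁻¹) ^ 2 * ∑ c : C, ∑ c' : C,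
            conj (∑ x, w x ^ k * ((lam x c : ℂˣ) : ℂ)) * (∑ x, w x ^ k * ((lam x c' : ℂˣ) : ℂ)) *
              ((χ : X → ℂ) (v ^ k * c) * conj ((χ : X → ℂ) (v ^ k * c'))) := by
      intro χ
      rw [← Complex.mul_conj']
      unfold alphaK
      rw [map_mul, map_inv₀, Complex.conj_natCast, map_sum, mul_mul_mul_comm, ← sq,
        Finset.sum_mul_sum]
      congr 1
      refine Finset.sum_congr rfl (fun c _ => Finset.sum_congr rfl (fun c' _ => ?_))
      rw [map_mul, Complex.conj_conj]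
      ring
    have hcomplex : ((∑ χ : IrrCharacter X, ‖alphaK C v lam w k (χ : X → ℂ)‖ ^ 2 : ℝ) : ℂ) =
        ((Nat.card C : ℂ)⁻¹) ^ 2 * ∑ c : C,
          ((‖∑ x, w x ^ k * ((lam x c : ℂˣ) : ℂ)‖ ^ 2 : ℝ) : ℂ) *
            (Nat.card {x : X // x * (v ^ k * c) * x⁻¹ = v ^ k * c} : ℂ) := by
      push_cast
      rw [Finset.sum_congr rfl (fun χ _ => hterm χ), ← Finset.mul_sum]
      congr 1
      rw [Finset.sum_comm]
      refine Finset.sum_congr rfl (fun c _ => ?_)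
      rw [Finset.sum_comm]
      simp_rw [← Finset.mul_sum, horth]
      rw [Finset.sum_eq_single c]
      · rw [if_pos rfl, ← Complex.mul_conj']
        ring
      · intro c' _ hc'
        rw [if_neg (Ne.symm hc'), mul_zero]
      · intro h
        exact absurd (Finset.mem_univ _) h
    have hreal : ∑ χ : IrrCharacter X, ‖alphaK C v lam w k (χ : X → ℂ)‖ ^ 2 =
        ((Nat.card C : ℝ)⁻¹) ^ 2 * ∑ c : C, ‖∑ x, w x ^ k * ((lam x c : ℂˣ) : ℂ)‖ ^ 2 *
          (Nat.card {x : X // x * (v ^ k * c) * x⁻¹ = v ^ k * c} : ℝ) := by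
      apply Complex.ofReal_injective
      rw [hcomplex]
      push_cast
      rfl
    rw [hreal]
    have hbound : ∀ c : C, ‖∑ x, w x ^ k * ((lam x c : ℂˣ) : ℂ)‖ ^ 2 *
        (Nat.card {x : X // x * (v ^ k * c) * x⁻¹ = v ^ k * c} : ℝ) ≤ (Nat.card C : ℝ) * B := by
      intro c
      have h3 : (Nat.card {x : X // x * (v ^ k * c) * x⁻¹ = v ^ k * c} : ℝ) ≤
          (Nat.card C : ℝ) * (F c : ℝ) := by exact_mod_cast hO2 k hk c
      calc ‖∑ x, w x ^ k * ((lam x c : ℂˣ) : ℂ)‖ ^ 2 *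
            (Nat.card {x : X // x * (v ^ k * c) * x⁻¹ = v ^ k * c} : ℝ)
          ≤ ‖∑ x, w x ^ k * ((lam x c : ℂˣ) : ℂ)‖ ^ 2 * ((Nat.card C : ℝ) * (F c : ℝ)) :=
            mul_le_mul_of_nonneg_left h3 (by positivity)
        _ = (Nat.card C : ℝ) * (‖∑ x, w x ^ k * ((lam x c : ℂˣ) : ℂ)‖ ^ 2 * (F c : ℝ)) := by ring
        _ ≤ (Nat.card C : ℝ) * B := mul_le_mul_of_nonneg_left (h1 k hk c) (by positivity)
    have hCR : (Nat.card C : ℝ) ≠ 0 := by exact_mod_cast hCpos.ne'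
    calc ((Nat.card C : ℝ)⁻¹) ^ 2 * ∑ c : C, ‖∑ x, w x ^ k * ((lam x c : ℂˣ) : ℂ)‖ ^ 2 *
          (Nat.card {x : X // x * (v ^ k * c) * x⁻¹ = v ^ k * c} : ℝ)
        ≤ ((Nat.card C : ℝ)⁻¹) ^ 2 * ∑ _c : C, (Nat.card C : ℝ) * B :=
          mul_le_mul_of_nonneg_left (Finset.sum_le_sum (fun c _ => hbound c)) (by positivity)
      _ = B := by
          rw [Finset.sum_const, Finset.card_univ, ← Nat.card_eq_fintype_card, nsmul_eq_mul]
          field_simp
  have hK : ((Finset.range p).filter (fun k => ¬ p ∣ k)).card = p - 1 := by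
    have := Cfsg.Agent.H84.card_filter_not_dvd_range p 1 hp.out.pos
    simpa using this
  have hp1 : 0 < p - 1 := by
    have := hp.out.one_lt
    omega
  have htotal : ((p - 1 : ℕ) : ℝ) * (Nat.card (IrrCharacter X) : ℝ) ≤ ((p - 1 : ℕ) : ℝ) * (B : ℝ) := by
    calc ((p - 1 : ℕ) : ℝ) * (Nat.card (IrrCharacter X) : ℝ)
        = ∑ _χ : IrrCharacter X, ((p - 1 : ℕ) : ℝ) := by
          rw [Finset.sum_const, Finset.card_univ, Nat.card_eq_fintype_card, nsmul_eq_mul]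
          ring
      _ ≤ ∑ χ : IrrCharacter X, ∑ k ∈ (Finset.range p).filter (fun k => ¬ p ∣ k),
            ‖alphaK C v lam w k (χ : X → ℂ)‖ ^ 2 := Finset.sum_le_sum (fun χ _ => hlow χ)
      _ = ∑ k ∈ (Finset.range p).filter (fun k => ¬ p ∣ k), ∑ χ : IrrCharacter X,
            ‖alphaK C v lam w k (χ : X → ℂ)‖ ^ 2 := Finset.sum_comm
      _ ≤ ∑ _k ∈ (Finset.range p).filter (fun k => ¬ p ∣ k), (B : ℝ) :=
          Finset.sum_le_sum (fun k hk => hup k (Finset.mem_filter.mp hk).2)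
      _ = ((p - 1 : ℕ) : ℝ) * B := by rw [Finset.sum_const, hK, nsmul_eq_mul]
  have hp1' : (0 : ℝ) < ((p - 1 : ℕ) : ℝ) := by exact_mod_cast hp1
  have hfin := le_of_mul_le_mul_left htotal hp1'
  exact_mod_cast hfin

end Cfsg.Agent.Lib.Helper96.Knoerr
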