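import Mathlib
import Cfsg.Agent.Lib.Helper96.Knoerr1
import Cfsg.Agent.Lib.Helper96.Knoerr3
import Cfsg.Agent.H4.Ito

/-!
# helper96: Knörr's theorem for an abelian point stabiliser

`knoerr_abelian`: if `X = V ⋊ G` with `V` an elementary abelian self-centralising normal
`p`-subgroup of `p'`-index and `C_G(v)` is abelian for some `v ∈ V`, then `k(X) ≤ |V|`.
-/

set_option autoImplicit false
set_option linter.unusedSectionVars false
set_option linter.style.haveILetI false

universe u

namespace Cfsg.Agent.Lib.Helper96.Knoerr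

open Cfsg Cfsg.Agent.H4
open scoped ComplexConjugate

theorem knoerr_abelian {X : Type u} [Group X] [Finite X] (p : ℕ) [hp : Fact p.Prime]
    (V : Subgroup X) [V.Normal] (hVexp : ∀ v ∈ V, v ^ p = 1) (hidx : ¬ p ∣ V.index)
    (hself : Subgroup.centralizer (V : Set X) = V) (G : Subgroup X)
    (hGV : Subgroup.IsComplement' V G) (v : X) (hv : v ∈ V)
    (hab : ∀ a ∈ G ⊓ Subgroup.centralizer ({v} : Set X),
      ∀ b ∈ G ⊓ Subgroup.centralizer ({v} : Set X), a * b = b * a) :
    Nat.card (ConjClasses X) ≤ Nat.card V := by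
  classical
  rw [← card_irr_eq_card_conjClasses]
  have hVab : ∀ a ∈ V, ∀ b ∈ V, a * b = b * a := by
    intro a ha b hb
    have h : a ∈ Subgroup.centralizer (V : Set X) := by rw [hself]; exact ha
    exact (Subgroup.mem_centralizer_iff.mp h b hb).symm
  have hVG : ∀ x, x ∈ V → x ∈ G → x = 1 := by
    intro x hxV hxG
    exact Subgroup.disjoint_def.mp hGV.disjoint hxV hxG
  have hGcard : Nat.card G = V.index := (hGV.symm.index_eq_card).symm
  have hpG : ¬ p ∣ Nat.card G := by rw [hGcard]; exact hidx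
  have hCG : G ⊓ Subgroup.centralizer ({v} : Set X) ≤ G := inf_le_left
  have hpC : ¬ p ∣ Nat.card (G ⊓ Subgroup.centralizer ({v} : Set X) : Subgroup X) := fun h =>
    hpG (h.trans (Subgroup.card_dvd_of_le hCG))
  have hCv : ∀ c ∈ (G ⊓ Subgroup.centralizer ({v} : Set X) : Subgroup X), c * v = v * c := by
    intro c hc
    exact (Subgroup.mem_centralizer_singleton_iff.mp hc.2)
  have hvp : v ^ p = 1 := hVexp v hv
  have hCcomm : ∀ a b : (G ⊓ Subgroup.centralizer ({v} : Set X) : Subgroup X), a * b = b * a :=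
    fun a b => Subtype.ext (hab a a.2 b b.2)
  letI iCG : CommGroup V :=
    { (inferInstance : Group V) with mul_comm := fun a b => Subtype.ext (hVab a a.2 b b.2) }
  have hnorm : (G ⊓ Subgroup.centralizer ({v} : Set X) : Subgroup X) ≤
      Subgroup.normalizer (V : Set X) := by
    rw [Subgroup.normalizer_eq_top]; exact le_top
  letI iAct : MulDistribMulAction (G ⊓ Subgroup.centralizer ({v} : Set X) : Subgroup X) V :=
    Cfsg.Agent.H1.FPF.conjAction _ V hnorm
  have hsm : ∀ (c : (G ⊓ Subgroup.centralizer ({v} : Set X) : Subgroup X)) (u : V),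
      ((c • u : V) : X) = (c : X) * u * (c : X)⁻¹ := fun c u => rfl
  have hfaith : ∀ c : (G ⊓ Subgroup.centralizer ({v} : Set X) : Subgroup X),
      (∀ u : V, c • u = u) → c = 1 := by
    intro c hc
    have h1 : (c : X) ∈ Subgroup.centralizer (V : Set X) := by
      rw [Subgroup.mem_centralizer_iff]
      intro h hh
      have h2 := congrArg Subtype.val (hc ⟨h, hh⟩)
      rw [hsm] at h2
      change (c : X) * h * (c : X)⁻¹ = h at h2
      calc h * (c : X) = ((c : X) * h * (c : X)⁻¹) * c := by rw [h2]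
        _ = c * h := by group
    rw [hself] at h1
    exact Subtype.ext (hVG _ h1 c.2.1)
  obtain ⟨I, _, lam, w, N, hN, hw, hA, hB, hC⟩ :=
    thetaData_exists p hCcomm hpC (Nat.card V) V rfl (fun u => Subtype.ext (hVexp u u.2))
  -- the key conjugacy lemma
  have hP : ∀ k : ℕ, ¬ p ∣ k →
      ∀ c c' : (G ⊓ Subgroup.centralizer ({v} : Set X) : Subgroup X), ∀ x : X,
      x * (v ^ k * c) * x⁻¹ = v ^ k * c' →
      c = c' ∧ ∃ (g : (G ⊓ Subgroup.centralizer ({v} : Set X) : Subgroup X)) (u : V),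
        x = (u : X) * (g : X) ∧ c • u = u := by
    intro k hk c c' x hx
    obtain ⟨n, hn⟩ : ∃ n : ℕ, n = Nat.card G := ⟨_, rfl⟩
    have hpn : ¬ p ∣ n := by rw [hn]; exact hpG
    have hcn : ∀ d : (G ⊓ Subgroup.centralizer ({v} : Set X) : Subgroup X), (d : X) ^ n = 1 := by
      intro d
      have h1 : (⟨(d : X), d.2.1⟩ : G) ^ Nat.card G = 1 := pow_card_eq_one'
      have h2 := congrArg Subtype.val h1
      rw [Subgroup.coe_pow] at h2
      rw [hn]
      exact h2
    have hcomm : ∀ d : (G ⊓ Subgroup.centralizer ({v} : Set X) : Subgroup X),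
        Commute (v ^ k) (d : X) := fun d =>
      (show Commute v (d : X) from (hCv d d.2).symm).pow_left k
    have hpow : ∀ d : (G ⊓ Subgroup.centralizer ({v} : Set X) : Subgroup X),
        (v ^ k * (d : X)) ^ n = v ^ (k * n) := by
      intro d
      rw [(hcomm d).mul_pow, hcn, mul_one, ← pow_mul]
    have h1 : x * v ^ (k * n) * x⁻¹ = v ^ (k * n) := by
      calc x * v ^ (k * n) * x⁻¹ = x * (v ^ k * (c : X)) ^ n * x⁻¹ := by rw [hpow c]
        _ = (x * (v ^ k * (c : X)) * x⁻¹) ^ n := by rw [conj_pow]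
        _ = v ^ (k * n) := by rw [hx, hpow c']
    have hkn : ¬ p ∣ k * n := by
      intro h
      rcases hp.out.dvd_mul.mp h with h | h
      · exact hk h
      · exact hpn h
    obtain ⟨t, -, ht⟩ := Nat.exists_mul_mod_eq_one_of_coprime
      ((Nat.Prime.coprime_iff_not_dvd hp.out).mpr hkn).symm hp.out.one_lt
    have hvt : v ^ (k * n * t) = v := by
      rw [pow_eq_pow_mod _ hvp, ht, pow_one]
    have h2 : x * v * x⁻¹ = v := by
      calc x * v * x⁻¹ = x * (v ^ (k * n)) ^ t * x⁻¹ := by rw [← pow_mul, hvt]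
        _ = (x * v ^ (k * n) * x⁻¹) ^ t := by rw [conj_pow]
        _ = v := by rw [h1, ← pow_mul, hvt]
    have h3 : x * (c : X) * x⁻¹ = c' := by
      have h4 : x * (v ^ k * c) * x⁻¹ = (x * v * x⁻¹) ^ k * (x * c * x⁻¹) := by
        rw [conj_pow]; group
      rw [h4, h2] at hx
      exact mul_left_cancel hx
    obtain ⟨⟨u, g⟩, hug⟩ := hGV.2 x
    change (u : X) * (g : X) = x at hug
    have hgv : (g : X) * v * (g : X)⁻¹ ∈ V := ‹V.Normal›.conj_mem v hv g
    have h5 : (g : X) * v * (g : X)⁻¹ = v := by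
      have h6 : x * v * x⁻¹ = (u : X) * ((g : X) * v * (g : X)⁻¹) * (u : X)⁻¹ := by
        rw [← hug]; group
      rw [h2] at h6
      have h7 : (u : X) * ((g : X) * v * (g : X)⁻¹) = ((g : X) * v * (g : X)⁻¹) * u :=
        hVab _ u.2 _ hgv
      rw [h7, mul_inv_cancel_right] at h6
      exact h6.symm
    have hgC : (g : X) ∈ (G ⊓ Subgroup.centralizer ({v} : Set X) : Subgroup X) := by
      have h6 : (g : X) ∈ Subgroup.centralizer ({v} : Set X) := by
        rw [Subgroup.mem_centralizer_singleton_iff]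
        calc (g : X) * v = ((g : X) * v * (g : X)⁻¹) * g := by group
          _ = v * g := by rw [h5]
      exact ⟨g.2, h6⟩
    have h8 : (u : X) * c * (u : X)⁻¹ = c' := by
      have h9 : x * (c : X) * x⁻¹ = (u : X) * ((g : X) * c * (g : X)⁻¹) * (u : X)⁻¹ := by
        rw [← hug]; group
      rw [h3, hab _ hgC _ c.2, mul_inv_cancel_right] at h9
      exact h9.symm
    have h10 : (c : X)⁻¹ * c' = 1 := by
      apply hVG
      · have h11 : (c : X)⁻¹ * c' = ((c : X)⁻¹ * u * ((c : X)⁻¹)⁻¹) * (u : X)⁻¹ := by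
          rw [← h8]; group
        rw [h11]
        exact V.mul_mem (‹V.Normal›.conj_mem _ u.2 _) (V.inv_mem u.2)
      · exact G.mul_mem (G.inv_mem c.2.1) c'.2.1
    have hcc : (c : X) = c' := by
      have := inv_mul_eq_one.mp h10
      exact this
    refine ⟨Subtype.ext hcc, ⟨(g : X), hgC⟩, u, hug.symm, ?_⟩
    apply Subtype.ext
    rw [hsm]
    rw [← hcc] at h8
    calc (c : X) * u * (c : X)⁻¹ = ((u : X) * c * (u : X)⁻¹)⁻¹⁻¹ * u * (c : X)⁻¹ := by
          rw [h8]; group
      _ = u := by group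
  have hdeg : ∀ χ : IrrCharacter X, ∃ d : ℕ, (χ : X → ℂ) 1 = d ∧ ¬ p ∣ d := by
    intro χ
    obtain ⟨n, ρ, hirr, hχ⟩ := χ.2
    refine ⟨n, ?_, ?_⟩
    · rw [← hχ, Representation.char_one]
      simp
    · haveI := hirr
      have h := ito_dvd_index ρ V hVab
      rw [Module.finrank_fin_fun] at h
      exact fun h' => hidx (h'.trans h)
  refine knoerr_main p (G ⊓ Subgroup.centralizer ({v} : Set X)) v hvp hCv I lam w N hN hw
    (hA 1 (fun u => one_smul _ u)) (fun c hc => hB c (fun h => hc (hfaith c h)))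
    (fun c => Nat.card {u : V // c • u = u}) (Nat.card V) (fun k hk c => hC k hk c)
    ?_ ?_ hdeg
  · intro k hk c c' hcc x hx
    exact hcc (hP k hk c c' x hx).1
  · intro k hk c
    have hex : ∀ x : {x : X // x * (v ^ k * c) * x⁻¹ = v ^ k * c},
        ∃ q : (G ⊓ Subgroup.centralizer ({v} : Set X) : Subgroup X) × {u : V // c • u = u},
          (x : X) = ((q.2 : V) : X) * (q.1 : X) := by
      intro x
      obtain ⟨-, g, u, hxu, hcu⟩ := hP k hk c c x x.2
      exact ⟨(g, ⟨u, hcu⟩), hxu⟩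
    choose f hf using hex
    have hinj : Function.Injective f := by
      intro x y hxy
      apply Subtype.ext
      rw [hf x, hf y, hxy]
    have := Nat.card_le_card_of_injective f hinj
    rw [Nat.card_prod] at this
    exact this

end Cfsg.Agent.Lib.Helper96.Knoerr
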