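import Cfsg.Agent.H90.NSDefs
import Cfsg.Agent.H86.GrpLemmas
import Cfsg.Agent.H86.FusGroup
import Cfsg.Agent.H87.Syl
import Cfsg.Agent.S5093

set_option autoImplicit false

/-!
Piece A9 of the team project S5121 (helper90): `S ∩ H ≤ T` for `H = K T`, `K = O^p(B₁)`,
by the hyperfocal subgroup theorem (S5093) applied inside the group `B₁`.
-/

namespace Cfsg.Agent.Lib.Helper96.NS

open Cfsg Cfsg.FusionSystem Cfsg.Agent.H86 Cfsg.Agent.H90.NS

universe u

variable {G : Type u} [Group G]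

/-- `K = O^p(B₁)` is the image in `G` of the `p`-residual of the group `B₁`. -/
theorem kSub_eq_map (p : ℕ) (T : Subgroup G) (E : FusionSystem T)
    (hB : ((bSub p T E : Subgroup G) : Set G) = b1 p T E) :
    kSub p T E = (pResidual p ↥(bSub p T E)).map (bSub p T E).subtype := by
  unfold kSub pResidual
  rw [MonoidHom.map_closure]
  congr 1
  ext g
  constructor
  · rintro ⟨hg, hc⟩
    have hgB : g ∈ bSub p T E := by rw [← SetLike.mem_coe, hB]; exact hg
    refine ⟨⟨g, hgB⟩, ?_, rfl⟩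
    show (orderOf (⟨g, hgB⟩ : ↥(bSub p T E))).Coprime p
    rw [← Subgroup.orderOf_coe]
    exact hc
  · rintro ⟨y, hy, rfl⟩
    refine ⟨by rw [← hB]; exact y.2, ?_⟩
    have hy' : (orderOf y).Coprime p := hy
    rw [← Subgroup.orderOf_coe] at hy'
    exact hy'

/-- `K = O^p(B₁)` is normal in `G` when `B₁` is. -/
theorem kSub_normal (p : ℕ) (T : Subgroup G) (E : FusionSystem T)
    (hB : ((bSub p T E : Subgroup G) : Set G) = b1 p T E) (hBn : (bSub p T E).Normal) :
    (kSub p T E).Normal := by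
  have hset : Group.conjugatesOfSet {g | g ∈ b1 p T E ∧ (orderOf g).Coprime p} =
      {g | g ∈ b1 p T E ∧ (orderOf g).Coprime p} := by
    apply Set.Subset.antisymm
    · intro a ha
      rw [Group.mem_conjugatesOfSet_iff] at ha
      obtain ⟨b, ⟨hb1, hb2⟩, hba⟩ := ha
      obtain ⟨c, hc⟩ := isConj_iff.1 hba
      subst hc
      refine ⟨?_, ?_⟩
      · rw [← hB] at hb1 ⊢
        exact hBn.conj_mem b hb1 c
      · have h1 : orderOf (c * b * c⁻¹) = orderOf b := by
          have := (MulAut.conj c).orderOf_eq b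
          simpa [MulAut.conj_apply] using this
        rw [h1]; exact hb2
    · exact Group.subset_conjugatesOfSet
  have h2 : kSub p T E = Subgroup.normalClosure {g | g ∈ b1 p T E ∧ (orderOf g).Coprime p} := by
    unfold kSub Subgroup.normalClosure
    rw [hset]
  rw [h2]
  exact Subgroup.normalClosure_normal

theorem a9 : A9Stmt.{u} := by
  intro G _ _ p _ S T E hyp hSC hRn hBOK hSB
  obtain ⟨hB, hBn, hTB⟩ := hBOK
  have hQn : (pCore p G).Normal := pCore_normal p G
  have hQS : pCore p G ≤ (S : Subgroup G) := pCore_le_sylow S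
  have hTS : T ≤ (S : Subgroup G) := hyp.2.1
  -- the Sylow subgroup `S ∩ B₁` of `B₁`
  have hsyl : Cfsg.Agent.H87.IsSylIn p ((S : Subgroup G) ⊓ bSub p T E) (bSub p T E) := by
    have h0 : Cfsg.Agent.H87.IsSylIn p (S : Subgroup G) ⊤ :=
      Cfsg.Agent.H87.Sylow.isSylIn_of_le S le_top
    refine h0.inf_of_normal le_top le_top ?_
    intro g _
    rw [Subgroup.mem_normalizer_iff]
    intro h
    constructor
    · intro hh; exact hBn.conj_mem h hh g
    · intro hh
      have := hBn.conj_mem _ hh g⁻¹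
      simpa [mul_assoc] using this
  obtain ⟨T1, hT1⟩ := hsyl
  have h5093 := Cfsg.Agent.S5093.result p T1
  have hT1S : ∀ z : ↥(bSub p T E), z ∈ (T1 : Subgroup ↥(bSub p T E)) → (z : G) ∈ (S : Subgroup G) := by
    intro z hz
    rw [hT1, Subgroup.mem_subgroupOf] at hz
    exact hz.1
  -- step (i): `S ∩ K ≤ T`
  have hi : ∀ x : G, x ∈ (S : Subgroup G) → x ∈ kSub p T E → x ∈ T := by
    intro x hxS hxK
    rw [kSub_eq_map p T E hB] at hxK
    obtain ⟨y, hy, rfl⟩ := hxK
    have hyT1 : y ∈ (T1 : Subgroup ↥(bSub p T E)) := by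
      rw [hT1, Subgroup.mem_subgroupOf]; exact ⟨hxS, y.2⟩
    have hyH : y ∈ (groupFusionSystem (T1 : Subgroup ↥(bSub p T E))).hyperfocalSubgroup p := by
      rw [h5093]; exact ⟨hyT1, hy⟩
    have hle : (groupFusionSystem (T1 : Subgroup ↥(bSub p T E))).hyperfocalSubgroup p ≤
        T.subgroupOf (bSub p T E) := by
      unfold hyperfocalSubgroup
      rw [Subgroup.closure_le]
      rintro _ ⟨P, α, x, hP, -, rfl⟩
      have hα : Mor (groupFusionSystem (T1 : Subgroup ↥(bSub p T E))) P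
          (autFun P (α : MulAut P)) := (mem_autGroup_iff hP _).1 α.2
      obtain ⟨-, -, b, hb⟩ := mor_groupFusionSystem_iff.1 hα
      have hbx := hb x x.2
      rw [autFun_apply] at hbx
      -- facts in `G`
      have hxS' : ((x : ↥(bSub p T E)) : G) ∈ (S : Subgroup G) := hT1S _ (hP x.2)
      have hαxS : ((((α : MulAut P) x : P) : ↥(bSub p T E)) : G) ∈ (S : Subgroup G) :=
        hT1S _ (hP ((α : MulAut P) x).2)
      have hxb1 : ((x : ↥(bSub p T E)) : G) ∈ b1 p T E := by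
        rw [← hB]; exact (x : ↥(bSub p T E)).2
      have hbb1 : (b : G) ∈ b1 p T E := by
        rw [← hB]; exact b.2
      obtain ⟨t, ht, q, hq, hxtq⟩ := hSB _ hxS' hxb1
      have hbx' : ((((α : MulAut P) x : P) : ↥(bSub p T E)) : G) =
          (b : G) * ((x : ↥(bSub p T E)) : G) * (b : G)⁻¹ := by
        rw [hbx]; rfl
      show ((x : ↥(bSub p T E))⁻¹ * (((α : MulAut P) x : P) : ↥(bSub p T E))) ∈
        T.subgroupOf (bSub p T E)
      rw [Subgroup.mem_subgroupOf]
      push_cast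
      rw [hbx', hxtq]
      rw [hbx', hxtq] at hαxS
      -- `b q b⁻¹ ∈ Q`
      have hbq : (b : G) * q * (b : G)⁻¹ ∈ pCore p G := hQn.conj_mem q hq b
      -- `b t b⁻¹ ∈ T`
      have hbtS : (b : G) * t * (b : G)⁻¹ ∈ (S : Subgroup G) := by
        have h1 := (S : Subgroup G).mul_mem hαxS ((S : Subgroup G).inv_mem (hQS hbq))
        have h2 : (b : G) * (t * q) * (b : G)⁻¹ * ((b : G) * q * (b : G)⁻¹)⁻¹ =
            (b : G) * t * (b : G)⁻¹ := by group
        rw [h2] at h1; exact h1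
      have hbtT : (b : G) * t * (b : G)⁻¹ ∈ T := hSC b t ht hbtS
      have hτ : t⁻¹ * ((b : G) * t * (b : G)⁻¹) ∈ T := T.mul_mem (T.inv_mem ht) hbtT
      have hqτ : q⁻¹ * (t⁻¹ * ((b : G) * t * (b : G)⁻¹)) * q⁻¹⁻¹ ∈ T := by
        refine hSC q⁻¹ _ hτ ?_
        exact (S : Subgroup G).mul_mem ((S : Subgroup G).mul_mem
          ((S : Subgroup G).inv_mem (hQS hq)) (hTS hτ))
          ((S : Subgroup G).inv_mem ((S : Subgroup G).inv_mem (hQS hq)))
      have hr : q⁻¹ * ((b : G) * q * (b : G)⁻¹) ∈ T := (hbb1.1 q hq).1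
      have h3 : (t * q)⁻¹ * ((b : G) * (t * q) * (b : G)⁻¹) =
          q⁻¹ * (t⁻¹ * ((b : G) * t * (b : G)⁻¹)) * q⁻¹⁻¹ * (q⁻¹ * ((b : G) * q * (b : G)⁻¹)) := by
        group
      rw [h3]
      exact T.mul_mem hqτ hr
    exact Subgroup.mem_subgroupOf.1 (hle hyH)
  -- step (ii)
  have hKn : (kSub p T E).Normal := kSub_normal p T E hB hBn
  intro x ⟨hxS, hxH⟩
  have hxH' : x ∈ ((kSub p T E ⊔ T : Subgroup G) : Set G) := hxH
  rw [Subgroup.normal_mul] at hxH'
  obtain ⟨k, hk, t, ht, rfl⟩ := Set.mem_mul.1 hxH'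
  have hkS : k ∈ (S : Subgroup G) := by
    have := (S : Subgroup G).mul_mem hxS ((S : Subgroup G).inv_mem (hTS ht))
    simpa [mul_assoc] using this
  exact T.mul_mem (hi k hkS hk) ht

end Cfsg.Agent.Lib.Helper96.NS
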