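import Mathlib

/-!
# S4706 / S4707 piece D5 (`fix_arith`): pure arithmetic with `Σf`, `Σf²`, `Σf³`
-/

set_option autoImplicit false

namespace Cfsg.Agent.Lib.Helper96.PD

open Equiv MulAction

theorem fix_arith {G : Type*} [Fintype G] (p : ℕ) (hp : 3 ≤ p) (f : G → ℕ)
    (S : Finset G) (hf : ∀ g, f g ≤ p) (hS : ∀ g ∈ S, f g = 0)
    (h1 : ∑ g, f g = Fintype.card G) (h2 : ∑ g, f g ^ 2 = 2 * Fintype.card G)
    (h3 : ∑ g, f g ^ 3 = 5 * Fintype.card G)
    (hcount : 2 * p * S.card = (p - 1) * Fintype.card G) (g : G) (hg : 3 ≤ f g) : f g = p := by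
  classical
  obtain ⟨T, hT⟩ : ∃ T : G → ℤ,
      T = fun x => ((f x : ℤ) - 1) * ((f x : ℤ) - 2) * ((p : ℤ) - f x) := ⟨_, rfl⟩
  have hTexp : ∀ x, T x =
      -(f x : ℤ) ^ 3 + ((p : ℤ) + 3) * (f x : ℤ) ^ 2 - (3 * (p : ℤ) + 2) * (f x : ℤ) + 2 * p := by
    intro x
    rw [hT]
    ring
  have h1' : ∑ x, (f x : ℤ) = Fintype.card G := by exact_mod_cast h1
  have h2' : ∑ x, (f x : ℤ) ^ 2 = 2 * Fintype.card G := by exact_mod_cast h2
  have h3' : ∑ x, (f x : ℤ) ^ 3 = 5 * Fintype.card G := by exact_mod_cast h3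
  have hsum : ∑ x, T x = ((p : ℤ) - 1) * Fintype.card G := by
    rw [Finset.sum_congr rfl (fun x _ => hTexp x)]
    rw [Finset.sum_add_distrib, Finset.sum_sub_distrib, Finset.sum_add_distrib,
      Finset.sum_neg_distrib, ← Finset.mul_sum, ← Finset.mul_sum, Finset.sum_const,
      Finset.card_univ, h1', h2', h3', nsmul_eq_mul]
    ring
  have hTS : ∀ x ∈ S, T x = 2 * p := by
    intro x hx
    rw [hT]
    simp only [hS x hx]
    push_cast
    ring
  have hTnn : ∀ x, 0 ≤ T x := by
    intro x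
    have hfx : (f x : ℤ) ≤ p := by exact_mod_cast hf x
    rcases Nat.lt_or_ge (f x) 3 with h | h
    · have h012 : f x = 0 ∨ f x = 1 ∨ f x = 2 := by omega
      rcases h012 with h | h | h
      · have : T x = 2 * p := by
          rw [hT]; simp only [h]; push_cast; ring
        rw [this]; positivity
      · have : T x = 0 := by
          rw [hT]; simp only [h]; push_cast; ring
        rw [this]
      · have : T x = 0 := by
          rw [hT]; simp only [h]; push_cast; ring
        rw [this]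
    · have h3x : (3 : ℤ) ≤ f x := by exact_mod_cast h
      rw [hT]
      exact mul_nonneg (mul_nonneg (by linarith) (by linarith)) (by linarith)
  have hsplit := Finset.sum_add_sum_compl S T
  have hcountZ : (2 * (p : ℤ) * S.card) = ((p : ℤ) - 1) * Fintype.card G := by
    have h0 : ((2 * p * S.card : ℕ) : ℤ) = (((p - 1) * Fintype.card G : ℕ) : ℤ) := by
      rw [hcount]
    rw [Nat.cast_mul ((p - 1)), Nat.cast_sub (by omega)] at h0
    push_cast at h0
    linarith
  have hSsum : ∑ x ∈ S, T x = ((p : ℤ) - 1) * Fintype.card G := by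
    rw [Finset.sum_congr rfl hTS, Finset.sum_const, nsmul_eq_mul]
    linarith
  have hcompl : ∑ x ∈ Sᶜ, T x = 0 := by linarith
  have hgS : g ∉ S := by
    intro h
    have := hS g h
    omega
  have hTg : T g = 0 :=
    (Finset.sum_eq_zero_iff_of_nonneg (fun x _ => hTnn x)).mp hcompl g (Finset.mem_compl.mpr hgS)
  rw [hT] at hTg
  have hfg : (3 : ℤ) ≤ f g := by exact_mod_cast hg
  rcases mul_eq_zero.mp hTg with h | h
  · rcases mul_eq_zero.mp h with h | h
    · exfalso; linarith
    · exfalso; linarith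
  · have h5 : (p : ℤ) = f g := by linarith
    exact_mod_cast h5.symm

end Cfsg.Agent.Lib.Helper96.PD
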