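import Mathlib

/-!
# S4706 / S4707 pieces G1, G2 (abstract Sylow facts)
-/

set_option autoImplicit false

namespace Cfsg.Agent.Lib.Helper96.PD

open Equiv MulAction

theorem card_sylow_of_normalizer {G : Type*} [Group G] [Finite G] {p : ℕ} [Fact p.Prime]
    (hp : 2 < p) (P : Sylow p G)
    (hN : Nat.card (Subgroup.normalizer ((P : Subgroup G) : Set G)) = 2 * p) :
    Nat.card P = p := by
  have hpp : p.Prime := Fact.out
  have hle : (P : Subgroup G) ≤ Subgroup.normalizer ((P : Subgroup G) : Set G) :=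
    Subgroup.le_normalizer
  have hdvd : Nat.card P ∣ 2 * p := by
    rw [← hN]
    exact Subgroup.card_dvd_of_le hle
  obtain ⟨n, hn⟩ := IsPGroup.iff_card.mp P.isPGroup'
  have hn' : Nat.card (P : Subgroup G) = p ^ n := hn
  have hpG : p ∣ Nat.card G := by
    have h1 : Nat.card (Subgroup.normalizer ((P : Subgroup G) : Set G)) ∣ Nat.card G :=
      Subgroup.card_subgroup_dvd_card _
    rw [hN] at h1
    exact (Dvd.intro_left 2 rfl).trans h1
  have hn0 : n ≠ 0 := by
    rintro rfl
    rw [pow_zero] at hn'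
    have h1 : (P : Subgroup G) = ⊥ := Subgroup.card_eq_one.mp hn'
    have h2 := P.ne_bot_of_dvd_card hpG
    exact h2 h1
  have hn1 : n ≤ 1 := by
    by_contra hcon
    push Not at hcon
    have h1 : p ^ 2 ∣ 2 * p := by
      rw [hn'] at hdvd
      exact (pow_dvd_pow p hcon).trans hdvd
    have h2 : p ∣ 2 := by
      rw [pow_two] at h1
      exact Nat.dvd_of_mul_dvd_mul_right hpp.pos h1
    have h3 : p ≤ 2 := Nat.le_of_dvd (by norm_num) h2
    omega
  have hn2 : n = 1 := by omega
  rw [hn', hn2, pow_one]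

theorem relIndex_eq_two {G : Type*} [Group G] [Finite G] {p : ℕ} [Fact p.Prime]
    (P : Sylow p G) (hP : Nat.card P = p)
    (hN : Nat.card (Subgroup.normalizer ((P : Subgroup G) : Set G)) = 2 * p)
    (hC : Subgroup.centralizer ((P : Subgroup G) : Set G) = (P : Subgroup G)) :
    (Subgroup.centralizer ((P : Subgroup G) : Set G)).relIndex
      (Subgroup.normalizer ((P : Subgroup G) : Set G)) = 2 := by
  have hpp : p.Prime := Fact.out
  have hle : (P : Subgroup G) ≤ Subgroup.normalizer ((P : Subgroup G) : Set G) :=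
    Subgroup.le_normalizer
  rw [hC]
  have h1 := Subgroup.relIndex_mul_relIndex (⊥ : Subgroup G) (P : Subgroup G)
    (Subgroup.normalizer ((P : Subgroup G) : Set G)) bot_le hle
  rw [Subgroup.relIndex_bot_left, Subgroup.relIndex_bot_left] at h1
  have hP' : Nat.card (P : Subgroup G) = p := hP
  rw [hP', hN, mul_comm 2 p] at h1
  exact Nat.eq_of_mul_eq_mul_left hpp.pos h1

end Cfsg.Agent.Lib.Helper96.PD
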