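import Cfsg.Agent.H22.ReeC
import Cfsg.Agent.H23.Core
import Cfsg.Agent.H23.TabG2
import Cfsg.Agent.H23.ChkG2
import Cfsg.Agent.H23.NconjG2
import Cfsg.Agent.H23.CommG2
import Cfsg.Agent.H23.Tab2G2
import Cfsg.Agent.H23.PerfG2

set_option autoImplicit false

/-!
The Weyl element of the small Ree group `²G₂` as a product of Ree words, and the normal core of
`B¹` (helper96; on top of helper22's Ree context and helper23's Chevalley engine).
-/

namespace Cfsg.Agent.Lib.Helper96.Ree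

open Cfsg Cfsg.Lie Cfsg.Agent.H22 Cfsg.Agent.H22.Ree Cfsg.Agent.H23

/-- the word of Ree words `y(1) y⁻(1) y(1)` (with `t = v = 0`, `u = 1`) -/
def nW1 : List (ℕ × Cfsg.Agent.H22.Poly) :=
  [(7, []), (6, []), (8, kc 1 0), (9, []), (10, kc 1 0), (11, []),
   (4, []), (5, []), (3, kc 0 1), (2, []), (1, kc 0 1), (0, []),
   (7, []), (6, []), (8, kc 1 0), (9, []), (10, kc 1 0), (11, [])]

/-- the word `n_a n_b n_a n_b n_a n_b` of the longest element -/
def nW0 : List (ℕ × Cfsg.Agent.H22.Poly) :=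
  [(7, kc 1 0), (4, kc 0 1), (7, kc 1 0), (6, kc 1 0), (5, kc 0 1), (6, kc 1 0),
   (7, kc 1 0), (4, kc 0 1), (7, kc 1 0), (6, kc 1 0), (5, kc 0 1), (6, kc 1 0),
   (7, kc 1 0), (4, kc 0 1), (7, kc 1 0), (6, kc 1 0), (5, kc 0 1), (6, kc 1 0)]

theorem nW_check : wordEqCheckN chevG2 64 32 64 32 nW1 nW0 = true := by decide +kernel

theorem nW_eq {F : Type*} [Field F] (ρ : Val F) :
    chevG2.wordMat F (evalWord ρ nW1) = chevG2.wordMat F (evalWord ρ nW0) :=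
  wordMat_eq_of_checkN tablesCheck_G2 maskCheck_G2 64 32 64 32 nW1 nW0 nW_check ρ

/-- helper23's package for `G₂`. -/
theorem packB (F : Type*) [Field F] :
    PackB chevG2 F (zR chevG2 ctblG2) (fun i s => etaBit (etaG2.getD i 0) s) :=
  ⟨chk_G2.sem F, nconj_G2.semN chk_G2.tblOK F, comm_G2.semC chk_G2.tblOK F, tab_G2, tabC_G2,
    etaNeg_G2, tab2_G2⟩

theorem semV (F : Type*) [Field F] : SemV chevG2 F := trin_G2.semV chk_G2.tblOK F

variable {K : Type*} [Field K] [CharP K 3] {e : ℕ} (C : Ctx K e)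

/-- The Weyl element of `²G₂`: a product of three Ree words. -/
def nEl : GL chevG2.Idx K :=
  (C.SP.R C.τ 0 1 0 : GL chevG2.Idx K) * (C.SN.R C.τ 0 1 0 : GL chevG2.Idx K) *
    (C.SP.R C.τ 0 1 0 : GL chevG2.Idx K)

theorem nEl_mem : nEl C ∈ twistedG2 K e :=
  mul_mem (mul_mem (C.RP_mem _ _ _) (C.RN_mem _ _ _)) (C.RP_mem _ _ _)

/-- The Weyl element is helper23's `n_{w₀}`. -/
theorem nEl_eq : nEl C = nWU (packB K).sem w0G2 := by
  apply Units.ext
  have hR : ((nWU (packB K).sem w0G2 : GL chevG2.Idx K) : Matrix chevG2.Idx chevG2.Idx K) =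
      chevG2.wordMat K (evalWord (⟨1, 1, one_ne_zero, one_ne_zero⟩ : Val K) nW0) := by
    have s0 : chevG2.simple 0 = 7 := by decide
    have s1 : chevG2.simple 1 = 6 := by decide
    have n7 : chevG2.neg 7 = 4 := by decide
    have n6 : chevG2.neg 6 = 5 := by decide
    unfold nWU w0G2
    simp only [List.map_cons, List.map_nil, List.prod_cons, List.prod_nil, mul_one, Units.val_mul,
      nU_val, s0, s1]
    unfold ChevalleyDatum.nMat
    simp only [← Cfsg.Agent.H22.wordMat_append]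
    congr 1
    simp only [evalWord, nW0, List.map_cons, List.map_nil, kc_eval, ChevalleyDatum.nWord,
      List.cons_append, List.nil_append, n7, n6]
    norm_num
  unfold nEl
  rw [hR, ← nW_eq, Units.val_mul, Units.val_mul, C.RP_val', C.RN_val',
    ← Cfsg.Agent.H22.wordMat_append, ← Cfsg.Agent.H22.wordMat_append]
  congr 1
  simp only [evalWord, nW1, List.map_cons, List.map_nil, kc_eval, Poly.eval_nil, map_zero, map_one,
    List.cons_append, List.nil_append]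
  norm_num

/-- Conjugation by the Weyl element maps `B` into the opposite triangular group. -/
theorem nEl_conj_borel (b : GL chevG2.Idx K) (hb : b ∈ chevG2.borelSubgroup K) :
    nEl C * b * (nEl C)⁻¹ ∈ triGroup (F := K) (lvlM chevG2) := by
  rw [nEl_eq C]
  exact nWU_conj_borel_le (packB K) (semV K) w0G2 tabW_G2 b hb

/-- Conjugation by the Weyl element maps `U` into `V`. -/
theorem nEl_conj_pos (u : GL chevG2.Idx K) (hu : u ∈ chevG2.posUnipotent K) :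
    nEl C * u * (nEl C)⁻¹ ∈ chevG2.negUnipotent K := by
  rw [nEl_eq C]
  have hS := (packB K).sem
  apply conj_mem_of_closure _ (chevG2.negUnipotent K) (nWU hS w0G2) _ u hu
  rintro x ⟨r, t, hr, hx⟩
  rw [eq_xU hS x r t hx]
  obtain ⟨c, _, hc⟩ := nWU_conj hS (packB K).semN (packB K).tab w0G2 tabW_G2.lt r hr.1
  rw [hc t]
  exact xU_mem_rootGen hS chevG2.IsNegRoot _ (tabW_G2.neg r hr.1 hr) _

/-- Conjugation by the inverse of the Weyl element maps `V` into `U`. -/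
theorem nEl_conj_neg (v : GL chevG2.Idx K) (hv : v ∈ chevG2.negUnipotent K) :
    (nEl C)⁻¹ * v * nEl C ∈ chevG2.posUnipotent K := by
  rw [nEl_eq C]
  have hS := (packB K).sem
  have key := conj_mem_of_closure _ (chevG2.posUnipotent K) (nWU hS w0G2)⁻¹ (fun x hx => by
    obtain ⟨r, t, hr, hx⟩ := hx
    rw [eq_xU hS x r t hx, inv_inv]
    obtain ⟨c, _, hc⟩ := nWU_conj' hS (packB K).semN (packB K).tab w0G2 tabW_G2.lt r hr.1
    rw [hc t]
    exact xU_mem_rootGen hS chevG2.IsPosRoot _ (tabW_G2.pos r hr.1 hr) _) v hv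
  rwa [inv_inv] at key

include C in
/-- A normal subgroup of `²G₂` inside `B` lies in `H`. -/
theorem core_le_diag (κ : GL chevG2.Idx K) (hκ : κ ∈ twistedG2 K e)
    (h : ∀ g ∈ twistedG2 K e, g * κ * g⁻¹ ∈ chevG2.borelSubgroup K) :
    κ ∈ chevG2.diagonalSubgroup K := by
  have hS := (packB K).sem
  have h1 := h (nEl C)⁻¹ (inv_mem (nEl_mem C))
  have h2 := nEl_conj_borel C _ h1
  have e1 : nEl C * ((nEl C)⁻¹ * κ * (nEl C)⁻¹⁻¹) * (nEl C)⁻¹ = κ := by group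
  rw [e1] at h2
  have hκB : κ ∈ chevG2.borelSubgroup K := by
    have := h 1 (one_mem _)
    simpa using this
  obtain ⟨u, hu, t, ht, rfl⟩ := exists_mul_of_mem_sup _ _
    (diagonal_le_normalizer_rootGen hS chevG2.IsPosRoot (fun _ hr => hr.1)) κ hκB
  have h3 : u ∈ triGroup (F := K) (lvlM chevG2) := by
    have e2 : u = u * t * t⁻¹ := by group
    rw [e2]
    exact Subgroup.mul_mem _ h2
      (Subgroup.inv_mem _ (torus_le_tri _ (diagonal_le_torus hS (packB K).tab ht)))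
  have h4 : u ∈ uniGroup (lvl chevG2) 1 ⊓ triGroup (F := K) (lvlM chevG2) :=
    ⟨posUnipotent_le_uni hS hu, h3⟩
  rw [uni_inf_triM, Subgroup.mem_bot] at h4
  rw [h4, one_mul]
  exact ht

include C in
/-- A normal subgroup of `²G₂` inside `B` is trivial (element form). -/
theorem core_eq_one (κ : GL chevG2.Idx K) (hκ : κ ∈ twistedG2 K e)
    (h : ∀ g ∈ twistedG2 K e, g * κ * g⁻¹ ∈ chevG2.borelSubgroup K) : κ = 1 := by
  have hS := (packB K).sem
  have hκH := core_le_diag C κ hκ h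
  obtain ⟨t, ht, rfl⟩ := C.exists_of_mem_H1 κ ⟨hκH, hκ⟩
  have hτt : C.τ t ≠ 0 := (map_ne_zero C.τ).mpr ht
  have hu₀T : (C.SP.R C.τ 1 0 0 : GL chevG2.Idx K) ∈ twistedG2 K e := C.RP_mem 1 0 0
  have hu₀E : C.SP.R C.τ 1 0 0 = C.SP.E 1 (C.τ 1) (C.τ 0) (C.τ 0) (0 + C.τ 1 ^ 3 * 1)
      (0 + C.τ 1 ^ 3 * 1 ^ 2) := USys.R_eq_E (signs_pos K C.θ) C.τ 1 0 0
  have hu₀U : (C.SP.R C.τ 1 0 0 : GL chevG2.Idx K) ∈ chevG2.posUnipotent K := by
    rw [hu₀E]
    exact C.E_mem_U _ _ _ _ _ _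
  -- the commutator of `u₀` and `κ` lies in the core and in `U`
  have hc1 : (C.SP.R C.τ 1 0 0 : GL chevG2.Idx K) * (C.hh (C.τ t) t : GL chevG2.Idx K) *
      (C.SP.R C.τ 1 0 0 : GL chevG2.Idx K)⁻¹ * (C.hh (C.τ t) t : GL chevG2.Idx K)⁻¹ ∈
      chevG2.diagonalSubgroup K := by
    apply core_le_diag C
    · exact mul_mem (mul_mem (mul_mem hu₀T hκ) (inv_mem hu₀T)) (inv_mem hκ)
    · intro g hg
      have e2 : g * ((C.SP.R C.τ 1 0 0 : GL chevG2.Idx K) * (C.hh (C.τ t) t : GL chevG2.Idx K) *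
          (C.SP.R C.τ 1 0 0 : GL chevG2.Idx K)⁻¹ * (C.hh (C.τ t) t : GL chevG2.Idx K)⁻¹) * g⁻¹ =
          ((g * (C.SP.R C.τ 1 0 0 : GL chevG2.Idx K)) * (C.hh (C.τ t) t : GL chevG2.Idx K) *
            (g * (C.SP.R C.τ 1 0 0 : GL chevG2.Idx K))⁻¹) *
            (g * (C.hh (C.τ t) t : GL chevG2.Idx K) * g⁻¹)⁻¹ := by group
      rw [e2]
      exact Subgroup.mul_mem _ (h _ (mul_mem hg hu₀T)) (Subgroup.inv_mem _ (h g hg))
  have hc2 : (C.SP.R C.τ 1 0 0 : GL chevG2.Idx K) * (C.hh (C.τ t) t : GL chevG2.Idx K) *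
      (C.SP.R C.τ 1 0 0 : GL chevG2.Idx K)⁻¹ * (C.hh (C.τ t) t : GL chevG2.Idx K)⁻¹ ∈
      chevG2.posUnipotent K := by
    have e3 : (C.SP.R C.τ 1 0 0 : GL chevG2.Idx K) * (C.hh (C.τ t) t : GL chevG2.Idx K) *
        (C.SP.R C.τ 1 0 0 : GL chevG2.Idx K)⁻¹ * (C.hh (C.τ t) t : GL chevG2.Idx K)⁻¹ =
        (C.SP.R C.τ 1 0 0 : GL chevG2.Idx K) * ((C.hh (C.τ t) t : GL chevG2.Idx K) *
          (C.SP.R C.τ 1 0 0 : GL chevG2.Idx K)⁻¹ * (C.hh (C.τ t) t : GL chevG2.Idx K)⁻¹) := by group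
    rw [e3]
    refine Subgroup.mul_mem _ hu₀U ?_
    exact (Subgroup.mem_normalizer_iff.mp
      (diagonal_le_normalizer_rootGen hS chevG2.IsPosRoot (fun _ hr => hr.1) hκH) _).mp
      (Subgroup.inv_mem _ hu₀U)
  have hc3 : (C.SP.R C.τ 1 0 0 : GL chevG2.Idx K) * (C.hh (C.τ t) t : GL chevG2.Idx K) *
      (C.SP.R C.τ 1 0 0 : GL chevG2.Idx K)⁻¹ * (C.hh (C.τ t) t : GL chevG2.Idx K)⁻¹ = 1 := by
    have hmem : (C.SP.R C.τ 1 0 0 : GL chevG2.Idx K) * (C.hh (C.τ t) t : GL chevG2.Idx K) *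
        (C.SP.R C.τ 1 0 0 : GL chevG2.Idx K)⁻¹ * (C.hh (C.τ t) t : GL chevG2.Idx K)⁻¹ ∈
        chevG2.posUnipotent K ⊓ chevG2.monomialSubgroup K := ⟨hc2, diagonal_le_monomial hc1⟩
    rwa [posUnipotent_inf_monomial hS, Subgroup.mem_bot] at hmem
  -- hence `κ` commutes with `u₀`
  have hcomm : C.hh (C.τ t) t * C.SP.R C.τ 1 0 0 = C.SP.R C.τ 1 0 0 * C.hh (C.τ t) t := by
    apply Subtype.ext
    rw [Subgroup.coe_mul, Subgroup.coe_mul]
    have e4 : (C.SP.R C.τ 1 0 0 : GL chevG2.Idx K) * (C.hh (C.τ t) t : GL chevG2.Idx K) =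
        ((C.SP.R C.τ 1 0 0 : GL chevG2.Idx K) * (C.hh (C.τ t) t : GL chevG2.Idx K) *
          (C.SP.R C.τ 1 0 0 : GL chevG2.Idx K)⁻¹ * (C.hh (C.τ t) t : GL chevG2.Idx K)⁻¹) *
          ((C.hh (C.τ t) t : GL chevG2.Idx K) * (C.SP.R C.τ 1 0 0 : GL chevG2.Idx K)) := by group
    rw [e4, hc3, one_mul]
  rw [hu₀E, C.hh_mul_E _ _ hτt ht] at hcomm
  obtain ⟨a6, a7, -, -, -, -⟩ := C.E_inj _ _ _ _ _ _ _ _ _ _ _ _ (mul_right_cancel hcomm)
  rw [mul_one] at a6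
  rw [map_one, mul_one] at a7
  obtain ⟨v6, v7, -, -, -, -⟩ := chi_vals (C.τ t) t
  rw [v6, zpow_neg, zpow_ofNat, zpow_ofNat] at a6
  rw [v7, zpow_neg, zpow_ofNat, zpow_one] at a7
  -- `t² = (τ t)³` and `(τ t)² = t`
  have e6 : t ^ 2 = C.τ t ^ 3 := by field_simp at a6; exact a6
  have e7 : C.τ t ^ 2 = t := by field_simp at a7; exact a7
  have hτ1 : C.τ t = 1 := by
    obtain ⟨s, hs⟩ : ∃ s, s = C.τ t := ⟨_, rfl⟩
    have hs0 : s ≠ 0 := by rw [hs]; exact hτt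
    have e6' : t ^ 2 = s ^ 3 := by rw [hs]; exact e6
    have e7' : s ^ 2 = t := by rw [hs]; exact e7
    have e8 : s ^ 3 * (s - 1) = 0 := by rw [← e7'] at e6'; linear_combination e6'
    rcases mul_eq_zero.mp e8 with h0 | h0
    · exact absurd (pow_eq_zero_iff (by norm_num) |>.mp h0) hs0
    · rw [← hs]; exact sub_eq_zero.mp h0
  have ht1 : t = 1 := by rw [← e7, hτ1, one_pow]
  apply Units.ext
  rw [C.hh_val _ _ hτt ht, hτ1, ht1]
  unfold dg
  have hcc : cc (1 : K) 1 = fun _ => (1 : K) := by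
    funext i; unfold cc; split_ifs <;> rfl
  rw [hcc, torusDiag_one, Units.val_one]
  exact Matrix.diagonal_one

include C in
/-- **The normal core of `B¹` in `²G₂` is trivial.** -/
theorem core_eq_bot :
    ((chevG2.borelSubgroup K ⊓ twistedG2 K e).subgroupOf (twistedG2 K e)).normalCore = ⊥ := by
  rw [eq_bot_iff]
  intro k hk
  rw [Subgroup.mem_bot]
  have hcore : ∀ g ∈ twistedG2 K e, g * (k : GL chevG2.Idx K) * g⁻¹ ∈ chevG2.borelSubgroup K := by
    intro g hg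
    have := hk ⟨g, hg⟩
    exact (Subgroup.mem_subgroupOf.mp this).1
  exact Subtype.ext (core_eq_one C k.1 k.2 hcore)

end Cfsg.Agent.Lib.Helper96.Ree
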