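import Mathlib
import Cfsg.Agent.H42.SpnDefs

/-!
# SPN-INV2STRUCT (helper96, for helper42's S5956): invariant nondegenerate subspaces of an
involution in characteristic 2, of every admissible dimension.
-/

set_option autoImplicit false

namespace Cfsg.Agent.Lib.Helper96.Spn

open Cfsg.Agent.H45 Cfsg.Agent.H42.Spd Cfsg.Agent.H42.Spn Module

universe u v

theorem inv2Struct (hP : StInv2Piece.{u, v}) (hC : StIsoCompl.{u, v}) (hS : StIsoSum.{u, v})
    (hE : StEven.{u, v}) : StInv2Struct.{u, v} := by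
  intro F _ _ V _ _ _ B T h2 hIso hTT
  have key : ∀ n : ℕ, ∀ W : Submodule F V, Module.finrank F W = n → Nd B T W → ∀ m' : ℕ,
      m' ≤ n → (4 ∣ m' ∨ (Even m' ∧ n % 4 = 2)) →
      ∃ U : Submodule F V, U ≤ W ∧ Nd B T U ∧ Module.finrank F U = m' := by
    intro n
    induction n using Nat.strong_induction_on with
    | _ n ih =>
      intro W hn hW m' hm' hcond
      have hEven : Even n := hn ▸ hE F V B T hIso W hW.2
      rw [Nat.even_iff] at hEven
      by_cases hm0 : m' = 0
      · subst hm0
        refine ⟨⊥, bot_le, ⟨?_, ?_⟩, finrank_bot F V⟩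
        · rw [Module.End.mem_invtSubmodule]
          exact bot_le
        · exact bot_inf_eq _
      have hWne : W ≠ ⊥ := by
        rintro rfl
        rw [finrank_bot] at hn
        omega
      obtain ⟨P, hPW, hNdP, hdimP⟩ := hP F V B T h2 hIso hTT W hW hWne
      obtain ⟨hNdW', -, hdimW'⟩ := hC F V B T hIso P W hNdP hW hPW
      have hW'W : W ⊓ perp B P ≤ W := inf_le_left
      have hW'P : W ⊓ perp B P ≤ perp B P := inf_le_right
      -- adding `P` to a subspace of the complement
      have hadd : ∀ U' : Submodule F V, U' ≤ W ⊓ perp B P → Nd B T U' →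
          P ⊔ U' ≤ W ∧ Nd B T (P ⊔ U') ∧
            Module.finrank F ↥(P ⊔ U') = Module.finrank F P + Module.finrank F U' := by
        intro U' hU' hNdU'
        obtain ⟨h1, h2'⟩ := hS F V B T hIso P U' hNdP hNdU' (hU'.trans hW'P)
        exact ⟨sup_le hPW (hU'.trans hW'W), h1, h2'⟩
      have hcond' : 4 ∣ m' ∨ (m' % 4 = 2 ∧ n % 4 = 2) := by
        rcases hcond with h | ⟨h, h'⟩
        · exact Or.inl h
        · rw [Nat.even_iff] at h
          by_cases h4 : 4 ∣ m'
          · exact Or.inl h4
          · exact Or.inr ⟨by omega, h'⟩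
      rcases hdimP with hdP | hdP
      · -- a plane
        have hn' : Module.finrank F ↥(W ⊓ perp B P) = n - 2 := by omega
        have hn2 : 2 ≤ n := by omega
        rcases hcond' with h4 | ⟨hm2, hn4⟩
        · by_cases hle : m' ≤ n - 2
          · obtain ⟨U, hU, hNdU, hdU⟩ := ih (n - 2) (by omega) (W ⊓ perp B P) hn' hNdW' m' hle
              (Or.inl h4)
            exact ⟨U, hU.trans hW'W, hNdU, hdU⟩
          · exact ⟨W, le_rfl, hW, by omega⟩
        · obtain ⟨U', hU', hNdU', hdU'⟩ := ih (n - 2) (by omega) (W ⊓ perp B P) hn' hNdW'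
            (m' - 2) (by omega) (Or.inl (by omega))
          obtain ⟨h1, h2', h3⟩ := hadd U' hU' hNdU'
          exact ⟨P ⊔ U', h1, h2', by omega⟩
      · -- dimension four
        have hn' : Module.finrank F ↥(W ⊓ perp B P) = n - 4 := by omega
        have hn4' : 4 ≤ n := by omega
        rcases hcond' with h4 | ⟨hm2, hn4⟩
        · obtain ⟨U', hU', hNdU', hdU'⟩ := ih (n - 4) (by omega) (W ⊓ perp B P) hn' hNdW'
            (m' - 4) (by omega) (Or.inl (by omega))
          obtain ⟨h1, h2', h3⟩ := hadd U' hU' hNdU'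
          exact ⟨P ⊔ U', h1, h2', by omega⟩
        · by_cases hle : m' ≤ n - 4
          · obtain ⟨U, hU, hNdU, hdU⟩ := ih (n - 4) (by omega) (W ⊓ perp B P) hn' hNdW' m' hle
              (Or.inr ⟨by rw [Nat.even_iff]; omega, by omega⟩)
            exact ⟨U, hU.trans hW'W, hNdU, hdU⟩
          · exact ⟨W, le_rfl, hW, by omega⟩
  intro W hW m' hm' hcond
  exact key _ W rfl hW m' hm' hcond

example (hP : StInv2Piece.{u, v}) (hC : StIsoCompl.{u, v}) (hS : StIsoSum.{u, v})
    (hE : StEven.{u, v}) : Cfsg.Agent.H42.Spn.StInv2Struct.{u, v} := inv2Struct hP hC hS hE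

end Cfsg.Agent.Lib.Helper96.Spn
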