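import Mathlib
import Cfsg.Agent.H42.SpnDefs

/-!
# SPN-MODALL (helper96, for helper42's S5956): models of all symplectic Jordan types.
-/

set_option autoImplicit false

namespace Cfsg.Agent.Lib.Helper96.Spn

open Cfsg.Agent.H45 Cfsg.Agent.H42.Spd Cfsg.Agent.H42.Spn Module

universe u

/-- the zero model. -/
theorem modelN_zero (F : Type u) [Field F] : ModelN F 0 0 := by
  refine ⟨PUnit.{u + 1}, inferInstance, inferInstance, inferInstance, 0, 0, ?_, ?_, ?_, ?_, ?_⟩
  · intro x
    rfl
  · intro x _
    exact Subsingleton.elim _ _
  · intro x y
    simp
  · exact Module.finrank_zero_of_subsingleton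
  · intro e
    rw [Module.finrank_zero_of_subsingleton]
    simp

theorem modAll (hE : StModEven.{u}) (hP : StModPair.{u}) (hS : StModSum.{u}) : StModAll.{u} := by
  classical
  intro F _
  have key : ∀ n : ℕ, ∀ μ : Multiset ℕ, Multiset.card μ = n → (∀ a ∈ μ, 0 < a) →
      (∀ a : ℕ, Odd a → Even (μ.count a)) → ModelN F μ.sum μ := by
    intro n
    induction n using Nat.strong_induction_on with
    | _ n ih =>
      intro μ hn hpos hpar
      by_cases hμ : μ = 0
      · subst hμ
        exact modelN_zero F
      obtain ⟨a, ha⟩ := Multiset.exists_mem_of_ne_zero hμ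
      have ha0 : 0 < a := hpos a ha
      rcases Nat.even_or_odd a with hev | hodd
      · -- remove one even part
        have hlt : Multiset.card (μ.erase a) < n := hn ▸ Multiset.card_erase_lt_of_mem ha
        have hpos' : ∀ b ∈ μ.erase a, 0 < b := fun b hb => hpos b (Multiset.mem_of_mem_erase hb)
        have hpar' : ∀ b : ℕ, Odd b → Even ((μ.erase a).count b) := by
          intro b hb
          have hba : b ≠ a := by
            rintro rfl
            exact (Nat.not_even_iff_odd.2 hb) hev
          rw [Multiset.count_erase_of_ne hba]
          exact hpar b hb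
        have h := hS F a _ {a} (μ.erase a) (hE F a hev ha0)
          (ih _ hlt (μ.erase a) rfl hpos' hpar')
        have e2 : a + (μ.erase a).sum = μ.sum := by
          rw [← Multiset.sum_cons, Multiset.cons_erase ha]
        rw [Multiset.singleton_add, Multiset.cons_erase ha, e2] at h
        exact h
      · -- remove two copies of an odd part
        have hc : Even (μ.count a) := hpar a hodd
        have hc1 : 1 ≤ μ.count a := Multiset.one_le_count_iff_mem.2 ha
        have hc2 : 2 ≤ μ.count a := by
          obtain ⟨t, ht⟩ := hc
          omega
        have hmem2 : a ∈ μ.erase a := by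
          rw [← Multiset.one_le_count_iff_mem, Multiset.count_erase_self]
          omega
        have hlt : Multiset.card ((μ.erase a).erase a) < n := by
          have h1 := Multiset.card_erase_lt_of_mem ha
          have h2 := Multiset.card_erase_lt_of_mem hmem2
          omega
        have hpos' : ∀ b ∈ (μ.erase a).erase a, 0 < b := fun b hb =>
          hpos b (Multiset.mem_of_mem_erase (Multiset.mem_of_mem_erase hb))
        have hpar' : ∀ b : ℕ, Odd b → Even (((μ.erase a).erase a).count b) := by
          intro b hb
          by_cases hba : b = a
          · subst hba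
            rw [Multiset.count_erase_self, Multiset.count_erase_self]
            obtain ⟨t, ht⟩ := hc
            exact ⟨t - 1, by omega⟩
          · rw [Multiset.count_erase_of_ne hba, Multiset.count_erase_of_ne hba]
            exact hpar b hb
        have h := hS F (2 * a) _ {a, a} ((μ.erase a).erase a) (hP F a ha0)
          (ih _ hlt ((μ.erase a).erase a) rfl hpos' hpar')
        have e1 : ({a, a} : Multiset ℕ) + (μ.erase a).erase a = μ := by
          rw [Multiset.insert_eq_cons, Multiset.cons_add, Multiset.singleton_add,
            Multiset.cons_erase hmem2, Multiset.cons_erase ha]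
        have e2 : 2 * a + ((μ.erase a).erase a).sum = μ.sum := by
          have e3 : μ.sum = a + (a + ((μ.erase a).erase a).sum) := by
            rw [← Multiset.sum_cons, Multiset.cons_erase hmem2, ← Multiset.sum_cons,
              Multiset.cons_erase ha]
          omega
        rw [e1, e2] at h
        exact h
  intro μ hpos hpar
  exact key _ μ rfl hpos hpar

example (hE : StModEven.{u}) (hP : StModPair.{u}) (hS : StModSum.{u}) :
    Cfsg.Agent.H42.Spn.StModAll.{u} := modAll hE hP hS

end Cfsg.Agent.Lib.Helper96.Spn
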