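import Mathlib
import Cfsg.Agent.H42.SpnDefs

/-!
# SPN-UBLOCK (helper96, for helper42's S5956): a nonzero invariant nondegenerate subspace of a
unipotent isometry (odd characteristic) contains a nondegenerate block.
-/

set_option autoImplicit false

namespace Cfsg.Agent.Lib.Helper96.Spn

open Cfsg.Agent.H45 Cfsg.Agent.H42.Spd Cfsg.Agent.H42.Spn Module

universe u v

/-- an invariant subspace of `T` is invariant under the powers of `T - 1`. -/
theorem pow_sub_one_mem {F : Type u} [Field F] {V : Type v} [AddCommGroup V] [Module F V]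
    {T : Module.End F V} {W : Submodule F V} (hW : W ∈ T.invtSubmodule) (j : ℕ) :
    ∀ w ∈ W, ((T - 1) ^ j) w ∈ W := by
  rw [Module.End.mem_invtSubmodule] at hW
  induction j with
  | zero => intro w hw; simpa using hw
  | succ j ih =>
    intro w hw
    rw [pow_succ, Module.End.mul_apply]
    apply ih
    rw [LinearMap.sub_apply, Module.End.one_apply]
    exact W.sub_mem (hW hw) hw

theorem uniBlock (hF : StUniForm.{u, v}) (h1 : StUniCyc1.{u, v}) (h2 : StUniCyc2.{u, v}) :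
    StUniBlock.{u, v} := by
  classical
  intro F _ _ V _ _ _ B T h2F hIso hnil W hW hWne
  obtain ⟨k, hk⟩ := hnil
  have hex : ∃ e : ℕ, ∀ w ∈ W, ((T - 1) ^ e) w = 0 := ⟨k, fun w _ => by rw [hk]; rfl⟩
  obtain ⟨w₁, hw₁W, hw₁0⟩ := (Submodule.ne_bot_iff W).1 hWne
  set e := Nat.find hex with he_def
  have he : ∀ w ∈ W, ((T - 1) ^ e) w = 0 := Nat.find_spec hex
  have he0 : 0 < e := by
    rcases Nat.eq_zero_or_pos e with h0 | h0
    · exfalso
      have := he w₁ hw₁W
      rw [h0, pow_zero, Module.End.one_apply] at this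
      exact hw₁0 this
    · exact h0
  have hmin : ¬ ∀ w ∈ W, ((T - 1) ^ (e - 1)) w = 0 := Nat.find_min hex (by omega)
  push Not at hmin
  obtain ⟨w₀, hw₀W, hw₀⟩ := hmin
  have hyW : ((T - 1) ^ (e - 1)) w₀ ∈ W := pow_sub_one_mem hW.1 (e - 1) w₀ hw₀W
  -- nondegeneracy of `W`
  have hex2 : ∃ u₀ ∈ W, B u₀ (((T - 1) ^ (e - 1)) w₀) ≠ 0 := by
    by_contra hcon
    push Not at hcon
    have hperp : ((T - 1) ^ (e - 1)) w₀ ∈ W ⊓ perp B W :=
      ⟨hyW, (mem_perp B W _).2 hcon⟩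
    rw [hW.2] at hperp
    exact hw₀ ((Submodule.mem_bot F).1 hperp)
  obtain ⟨u₀, hu₀W, hu₀⟩ := hex2
  have hsym := hF F V B T hIso W hW.1 e he0 he
  rcases Nat.even_or_odd e with hev | hodd
  · -- `e` even: the form is symmetric
    have hs : ∀ u ∈ W, ∀ v ∈ W,
        B v (((T - 1) ^ (e - 1)) u) = B u (((T - 1) ^ (e - 1)) v) := by
      intro u hu v hv
      rw [hsym u hu v hv, hev.neg_one_pow, one_mul]
    have hex3 : ∃ u ∈ W, B u (((T - 1) ^ (e - 1)) u) ≠ 0 := by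
      by_contra hcon
      push Not at hcon
      have ha := hcon (u₀ + w₀) (W.add_mem hu₀W hw₀W)
      have hb := hcon u₀ hu₀W
      have hc := hcon w₀ hw₀W
      have hd := hs u₀ hu₀W w₀ hw₀W
      simp only [map_add, LinearMap.add_apply] at ha
      rw [hb, hc, hd, zero_add, add_zero, ← two_mul] at ha
      rcases mul_eq_zero.1 ha with h | h
      · exact h2F h
      · exact hu₀ h
    obtain ⟨u, huW, hu⟩ := hex3
    obtain ⟨P, hPW, hNdP, hdim⟩ := h1 F V B T hIso W hW.1 e he0 u huW (he u huW) hu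
    exact ⟨P, e, hPW, hNdP, he0, Or.inl ⟨hev, hdim⟩⟩
  · -- `e` odd: the form is skew
    have hs : ∀ u ∈ W, ∀ v ∈ W,
        B v (((T - 1) ^ (e - 1)) u) = - B u (((T - 1) ^ (e - 1)) v) := by
      intro u hu v hv
      rw [hsym u hu v hv, hodd.neg_one_pow, neg_one_mul]
    have hdiag : ∀ u ∈ W, B u (((T - 1) ^ (e - 1)) u) = 0 := by
      intro u hu
      have h := hs u hu u hu
      have h' : (2 : F) * B u (((T - 1) ^ (e - 1)) u) = 0 := by
        rw [two_mul]
        nth_rewrite 1 [h]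
        exact neg_add_cancel _
      rcases mul_eq_zero.1 h' with h'' | h''
      · exact absurd h'' h2F
      · exact h''
    have hw₀u₀ : B w₀ (((T - 1) ^ (e - 1)) u₀) ≠ 0 := by
      rw [hs u₀ hu₀W w₀ hw₀W]
      exact neg_ne_zero.2 hu₀
    obtain ⟨P, hPW, hNdP, hdim⟩ := h2 F V B T hIso W hW.1 e he0 u₀ hu₀W w₀ hw₀W (he u₀ hu₀W)
      (he w₀ hw₀W) (hdiag u₀ hu₀W) (hdiag w₀ hw₀W) hu₀ hw₀u₀
    exact ⟨P, e, hPW, hNdP, he0, Or.inr ⟨hodd, hdim⟩⟩

example (hF : StUniForm.{u, v}) (h1 : StUniCyc1.{u, v}) (h2 : StUniCyc2.{u, v}) :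
    Cfsg.Agent.H42.Spn.StUniBlock.{u, v} := uniBlock hF h1 h2

end Cfsg.Agent.Lib.Helper96.Spn
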