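import Mathlib
import Cfsg.Agent.H42.SpnDefs
import Cfsg.Agent.Lib.Helper96.SpnUBlock

/-!
# SPN-UTYPE (helper96, for helper42's S5956): the Jordan type of a unipotent isometry on an
invariant nondegenerate subspace, and the subspaces realizing its sub-types.
-/

set_option autoImplicit false

namespace Cfsg.Agent.Lib.Helper96.Spn

open Cfsg.Agent.H45 Cfsg.Agent.H42.Spd Cfsg.Agent.H42.Spn Module

universe u v

theorem uniType (hB : StUniBlock.{u, v}) (hC : StIsoCompl.{u, v}) (hS : StIsoSum.{u, v})
    (hK : StKerAdd.{u, v}) : StUniType.{u, v} := by
  classical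
  intro F _ _ V _ _ _ B T h2 hIso hnil
  have hnil' := hnil
  obtain ⟨k, hk⟩ := hnil'
  have key : ∀ n : ℕ, ∀ W : Submodule F V, Module.finrank F W = n → Nd B T W →
      ∃ μ : Multiset ℕ, (∀ a ∈ μ, 0 < a) ∧ (∀ a : ℕ, Odd a → Even (μ.count a)) ∧
        (∀ e : ℕ, Module.finrank F ↥(W ⊓ LinearMap.ker ((T - 1) ^ e)) =
          (μ.map (fun s => min e s)).sum) ∧
        ∀ ν : Multiset ℕ, ν ≤ μ → (∀ a : ℕ, Odd a → Even (ν.count a)) →
          ∃ U : Submodule F V, U ≤ W ∧ Nd B T U ∧ Module.finrank F U = ν.sum := by
    intro n
    induction n using Nat.strong_induction_on with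
    | _ n ih =>
      intro W hn hW
      have hNdBot : Nd B T (⊥ : Submodule F V) :=
        ⟨(Module.End.mem_invtSubmodule T).2 bot_le, bot_inf_eq _⟩
      by_cases hWne : W = ⊥
      · subst hWne
        refine ⟨0, by simp, by simp, ?_, ?_⟩
        · intro e
          rw [bot_inf_eq, finrank_bot]
          simp
        · intro ν hν _
          rw [Multiset.le_zero] at hν
          subst hν
          exact ⟨⊥, bot_le, hNdBot, by simp⟩
      obtain ⟨P, e, hPW, hNdP, he0, hcase⟩ := hB F V B T h2 hIso hnil W hW hWne
      have hW'W : W ⊓ perp B P ≤ W := inf_le_left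
      have hW'P : W ⊓ perp B P ≤ perp B P := inf_le_right
      obtain ⟨hNdW', hsup, hdim⟩ := hC F V B T hIso P W hNdP hW hPW
      generalize W ⊓ perp B P = W' at hW'W hW'P hNdW' hsup hdim
      have hdisj : P ⊓ W' = ⊥ := by
        rw [eq_bot_iff, ← hNdP.2]
        exact inf_le_inf_left P hW'P
      have hinv : ∀ (X : Submodule F V), X ∈ T.invtSubmodule → ∀ j : ℕ,
          X ∈ ((T - 1) ^ j).invtSubmodule := by
        intro X hX j
        rw [Module.End.mem_invtSubmodule]
        exact fun w hw => pow_sub_one_mem hX j w hw
      have hker : ∀ j : ℕ, Module.finrank F ↥(W ⊓ LinearMap.ker ((T - 1) ^ j)) =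
          Module.finrank F ↥(P ⊓ LinearMap.ker ((T - 1) ^ j)) +
            Module.finrank F ↥(W' ⊓ LinearMap.ker ((T - 1) ^ j)) := by
        intro j
        have h := hK F V ((T - 1) ^ j) P W' (hinv P hNdP.1 j) (hinv W' hNdW'.1 j) hdisj
        rw [hsup] at h
        exact h
      have hPtop : P ⊓ LinearMap.ker ((T - 1) ^ (max k e)) = P := by
        rw [pow_eq_zero_of_le (le_max_left k e) hk, LinearMap.ker_zero, inf_top_eq]
      have hPfull : Module.finrank F ↥(P ⊓ LinearMap.ker ((T - 1) ^ (max k e))) =
          Module.finrank F P := congrArg (fun X : Submodule F V => Module.finrank F X) hPtop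
      have hP1 : Module.finrank F ↥(P ⊓ LinearMap.ker ((T - 1) ^ 1)) ≤ Module.finrank F P :=
        Submodule.finrank_mono inf_le_left
      have hmin1 : min 1 e = 1 := Nat.min_eq_left he0
      have hminE : min (max k e) e = e := Nat.min_eq_right (le_max_right k e)
      have hadd : ∀ U' : Submodule F V, U' ≤ W' → Nd B T U' →
          P ⊔ U' ≤ W ∧ Nd B T (P ⊔ U') ∧
            Module.finrank F ↥(P ⊔ U') = Module.finrank F P + Module.finrank F U' := by
        intro U' hU' hNdU'
        obtain ⟨h1, h2'⟩ := hS F V B T hIso P U' hNdP hNdU' (hU'.trans hW'P)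
        exact ⟨sup_le hPW (hU'.trans hW'W), h1, h2'⟩
      rcases hcase with ⟨hev, hPker⟩ | ⟨hodd, hPker⟩
      · -- one block of even size
        have hPdim : Module.finrank F P = e := by
          rw [← hPfull, hPker, hminE]
        have hlt : Module.finrank F W' < n := by
          have := hPker 1
          rw [hmin1] at this
          omega
        obtain ⟨μ', hpos', hpar', hker', hsel'⟩ := ih (Module.finrank F W') hlt W' rfl hNdW'
        refine ⟨e ::ₘ μ', ?_, ?_, ?_, ?_⟩
        · intro a ha
          rw [Multiset.mem_cons] at ha
          rcases ha with rfl | ha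
          · exact he0
          · exact hpos' a ha
        · intro a ha
          have hae : a ≠ e := by
            rintro rfl
            exact (Nat.not_even_iff_odd.2 ha) hev
          rw [Multiset.count_cons_of_ne hae]
          exact hpar' a ha
        · intro j
          rw [Multiset.map_cons, Multiset.sum_cons, ← hker' j, hker j, hPker j]
        · intro ν hν hpar
          by_cases hmem : e ∈ ν
          · have hν' : ν.erase e ≤ μ' := Multiset.erase_le_iff_le_cons.2 hν
            have hpar1 : ∀ a : ℕ, Odd a → Even ((ν.erase e).count a) := by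
              intro a ha
              have hae : a ≠ e := by
                rintro rfl
                exact (Nat.not_even_iff_odd.2 ha) hev
              rw [Multiset.count_erase_of_ne hae]
              exact hpar a ha
            obtain ⟨U', hU', hNdU', hdU'⟩ := hsel' (ν.erase e) hν' hpar1
            obtain ⟨h1, h2', h3⟩ := hadd U' hU' hNdU'
            refine ⟨P ⊔ U', h1, h2', ?_⟩
            rw [h3, hdU', hPdim, ← Multiset.sum_cons, Multiset.cons_erase hmem]
          · have hν' : ν ≤ μ' := by
              have := Multiset.erase_le_iff_le_cons.2 hν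
              rwa [Multiset.erase_of_notMem hmem] at this
            obtain ⟨U, hU, hNdU, hdU⟩ := hsel' ν hν' hpar
            exact ⟨U, hU.trans hW'W, hNdU, hdU⟩
      · -- two blocks of the same odd size
        have hPdim : Module.finrank F P = 2 * e := by
          rw [← hPfull, hPker, hminE]
        have hlt : Module.finrank F W' < n := by
          have := hPker 1
          rw [hmin1] at this
          omega
        obtain ⟨μ', hpos', hpar', hker', hsel'⟩ := ih (Module.finrank F W') hlt W' rfl hNdW'
        refine ⟨e ::ₘ e ::ₘ μ', ?_, ?_, ?_, ?_⟩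
        · intro a ha
          rw [Multiset.mem_cons, Multiset.mem_cons] at ha
          rcases ha with rfl | rfl | ha
          · exact he0
          · exact he0
          · exact hpos' a ha
        · intro a ha
          by_cases hae : a = e
          · subst hae
            rw [Multiset.count_cons_self, Multiset.count_cons_self]
            obtain ⟨t, ht⟩ := hpar' a ha
            exact ⟨t + 1, by omega⟩
          · rw [Multiset.count_cons_of_ne hae, Multiset.count_cons_of_ne hae]
            exact hpar' a ha
        · intro j
          rw [Multiset.map_cons, Multiset.map_cons, Multiset.sum_cons, Multiset.sum_cons,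
            ← hker' j, hker j, hPker j]
          ring
        · intro ν hν hpar
          by_cases hmem : e ∈ ν
          · have hc : Even (ν.count e) := hpar e hodd
            have hc1 : 1 ≤ ν.count e := Multiset.one_le_count_iff_mem.2 hmem
            have hc2 : 2 ≤ ν.count e := by
              obtain ⟨t, ht⟩ := hc
              omega
            have hmem2 : e ∈ ν.erase e := by
              rw [← Multiset.one_le_count_iff_mem, Multiset.count_erase_self]
              omega
            have hν' : (ν.erase e).erase e ≤ μ' :=
              Multiset.erase_le_iff_le_cons.2 (Multiset.erase_le_iff_le_cons.2 hν)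
            have hpar1 : ∀ a : ℕ, Odd a → Even (((ν.erase e).erase e).count a) := by
              intro a ha
              by_cases hae : a = e
              · subst hae
                rw [Multiset.count_erase_self, Multiset.count_erase_self]
                obtain ⟨t, ht⟩ := hc
                exact ⟨t - 1, by omega⟩
              · rw [Multiset.count_erase_of_ne hae, Multiset.count_erase_of_ne hae]
                exact hpar a ha
            obtain ⟨U', hU', hNdU', hdU'⟩ := hsel' _ hν' hpar1
            obtain ⟨h1, h2', h3⟩ := hadd U' hU' hNdU'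
            refine ⟨P ⊔ U', h1, h2', ?_⟩
            have e1 : ν = e ::ₘ e ::ₘ (ν.erase e).erase e := by
              rw [Multiset.cons_erase hmem2, Multiset.cons_erase hmem]
            rw [h3, hdU', hPdim]
            conv_rhs => rw [e1]
            rw [Multiset.sum_cons, Multiset.sum_cons]
            ring
          · have hν' : ν ≤ μ' := by
              have := Multiset.erase_le_iff_le_cons.2 (Multiset.erase_le_iff_le_cons.2 hν)
              rwa [Multiset.erase_of_notMem hmem, Multiset.erase_of_notMem hmem] at this
            obtain ⟨U, hU, hNdU, hdU⟩ := hsel' ν hν' hpar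
            exact ⟨U, hU.trans hW'W, hNdU, hdU⟩
  intro W hW
  exact key _ W rfl hW

example (hB : StUniBlock.{u, v}) (hC : StIsoCompl.{u, v}) (hS : StIsoSum.{u, v})
    (hK : StKerAdd.{u, v}) : Cfsg.Agent.H42.Spn.StUniType.{u, v} := uniType hB hC hS hK

end Cfsg.Agent.Lib.Helper96.Spn
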