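import Cfsg.Agent.Lib.Helper96.TWDefs
import Cfsg.Agent.H95.Quad

set_option autoImplicit false

/-! S5707 team project (helper96): the core of the assembly, in the standard model:
`tensorWreathStandard ⊓ Ω < NL ⊓ Ω < Ω`, from the pieces. -/

namespace Cfsg.Agent.Lib.Helper96.TW

open Cfsg Cfsg.Geo Matrix
open scoped MatrixGroups

universe u

theorem loc_zero {F : Type u} [Field F] {k t : ℕ} (j : Fin t) :
    (loc j (0 : Matrix (Fin k) (Fin k) F) : Matrix (Idx k t) (Idx k t) F) = 0 := by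
  ext x y
  simp [loc]

theorem core (hAlg : StAlg.{u}) (hNF : StNF.{u}) (hSim : StSim.{u}) (hCC : StCConj.{u})
    (hNLGen : StNLGen.{u}) (hCliff : StCliff.{u}) (hGamma : StGamma.{u}) (hIso : StIso.{u})
    (hG1Iso : StG1Iso.{u}) (hG1Not : StG1Not.{u}) (hG2Perm : StG2Perm.{u}) (hG2Not : StG2Not.{u})
    (F : Type u) [Field F] (k t : ℕ) (Q : (Idx k t → F) → F) (c : F) (hc : Cases k t)
    (hS : SM k t Q c) :
    ∃ K : Subgroup (GL (Idx k t) F),
      tensorWreathStandard k t F ⊓ omegaGL Q < K ∧ K < omegaGL Q := by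
  have hk : k = 2 ∨ k = 4 := by
    rcases hc with ⟨h, _⟩ | ⟨h, _⟩
    · exact Or.inl h
    · exact Or.inr h
  have ht : 2 ≤ t := by
    rcases hc with ⟨_, h⟩ | ⟨_, h⟩ <;> omega
  have hkpos : 0 < k := by
    rcases hk with h | h <;> omega
  obtain ⟨h1C, h0C, -, -, hXC, hNC, hUC, hXX, hNN, hUU⟩ := hCliff F k hS.two hk
  refine ⟨NL F k t ⊓ omegaGL Q, ?_, ?_⟩
  · rw [SetLike.lt_iff_le_and_exists]
    refine ⟨le_inf (hNLGen hAlg hNF hSim hCC F k t Q c hc hS) inf_le_right, ?_⟩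
    have hij : (⟨0, by omega⟩ : Fin t) ≠ ⟨1, by omega⟩ := by
      intro h
      have := congrArg Fin.val h
      simp at this
    obtain ⟨γ, b, hγ, hb, hγI, hbI⟩ :=
      hG1Iso hAlg hCliff hIso F k t Q c hc hS ⟨0, by omega⟩ ⟨1, by omega⟩ hij
    have hγN : γ ∈ NL F k t :=
      hGamma hAlg hCliff F k t hS.two hk ⟨0, by omega⟩ ⟨1, by omega⟩ hij (Xm F k) hXC (Nm F k) hNC
        (by rw [hXX, hNN, add_zero]) γ hγ
    have hbN : b ∈ NL F k t :=
      hGamma hAlg hCliff F k t hS.two hk ⟨0, by omega⟩ ⟨1, by omega⟩ hij (Um F k) hUC 0 h0C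
        (by rw [hUU, mul_zero, add_zero]) b (by rw [hb, loc_zero, add_zero])
    refine ⟨γ * b * γ⁻¹ * b⁻¹, ⟨?_, ?_⟩, ?_⟩
    · exact (NL F k t).mul_mem ((NL F k t).mul_mem ((NL F k t).mul_mem hγN hbN)
        ((NL F k t).inv_mem hγN)) ((NL F k t).inv_mem hbN)
    · exact Cfsg.Agent.H95.commutator_mem_omegaGL hγI hbI
    · intro h
      exact hG1Not hAlg hCliff hNF F k t hS.two hc ⟨0, by omega⟩ ⟨1, by omega⟩ hij γ b hγ hb h.1
  · rw [SetLike.lt_iff_le_and_exists]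
    refine ⟨inf_le_right, ?_⟩
    obtain ⟨g, hgΩ, hgact⟩ :=
      hG2Perm hAlg hCliff hIso F k t Q c hc hS (fun _ => ⟨0, hkpos⟩) ⟨0, by omega⟩
    refine ⟨g, hgΩ, ?_⟩
    intro h
    exact hG2Not hCliff F k t hS.two hc (fun _ => ⟨0, hkpos⟩) ⟨0, by omega⟩ rfl g hgact h.1

end Cfsg.Agent.Lib.Helper96.TW
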