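import Cfsg.Agent.Lib.Helper96.TWCore

set_option autoImplicit false

/-! S5707 team project (helper96): the final assembly, from the standardisation, the transport and
the core. -/

namespace Cfsg.Agent.Lib.Helper96.TW

open Cfsg Cfsg.Geo Matrix
open scoped MatrixGroups

universe u

theorem final (hAlg : StAlg.{u}) (hSympB : StSympB.{u}) (hStd : StStd.{u}) (hTr : StTransport.{u})
    (hCore : ∀ (F : Type u) [Field F] (k t : ℕ) (Q : (Idx k t → F) → F) (c : F), Cases k t →
      SM k t Q c → ∃ K : Subgroup (GL (Idx k t) F),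
        tensorWreathStandard k t F ⊓ omegaGL Q < K ∧ K < omegaGL Q)
    {F : Type u} [Field F] [Fintype F] {n : ℕ} (hn : 13 ≤ n) (Q : (Fin n → F) → F)
    (hQ : IsNondegenerateQuadraticForm Q) (hchar : ¬ Odd (Fintype.card F)) (k t : ℕ) (ht : 2 ≤ t)
    (hk : k ≤ 4) (e : Fin n ≃ (Fin t → Fin k)) (P : GL (Fin n) F)
    (f₁ : (Fin k → F) → (Fin k → F) → F) (hf₁ : IsSymplecticForm f₁)
    (hT : IsTensorPowerFormStructure id (QuadraticMap.polar Q) f₁ e P)
    (hpure : ∀ xs : Fin t → (Fin k → F), Q ((P : Matrix (Fin n) (Fin n) F) *ᵥ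
        ((fun a : Fin t → Fin k => ∏ i, xs i (a i)) ∘ e)) = 0) :
    ∃ K : Subgroup (GL (Fin n) F),
      tensorWreathSubgroup k t e P ⊓ omegaGL Q < K ∧ K < omegaGL Q := by
  obtain ⟨hc, h2, P', c, hc0, hsub, hpol, hbas⟩ :=
    hStd hAlg hSympB F hn Q hQ hchar k t ht hk e P f₁ hf₁ hT hpure
  obtain ⟨hnd, hinj, hΩ, htw⟩ := hTr F Q hQ e P'
  have hS : SM k t (fun x : Idx k t → F => Q ((P' : Matrix (Fin n) (Fin n) F) *ᵥ (x ∘ e))) c :=
    { nd := hnd
      two := h2
      c_ne := hc0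
      polar := by
        intro x y
        rw [← hpol x y]
        unfold QuadraticMap.polar
        have h1 : (x + y) ∘ e = x ∘ e + y ∘ e := rfl
        simp only [h1, Matrix.mulVec_add]
      basis := hbas }
  obtain ⟨K, hK1, hK2⟩ := hCore F k t _ c hc hS
  refine ⟨K.map ((MulAut.conj P').toMonoidHom.comp (glReindex (F := F) e.symm).toMonoidHom), ?_, ?_⟩
  · rw [← hsub, ← htw, ← hΩ, ← Subgroup.map_inf _ _ _ hinj]
    exact (Subgroup.map_lt_map_iff_of_injective hinj).2 hK1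
  · rw [← hΩ]
    exact (Subgroup.map_lt_map_iff_of_injective hinj).2 hK2

end Cfsg.Agent.Lib.Helper96.TW
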