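import Mathlib
import Cfsg.Agent.Lib.Helper96.TqPlusDefs
import Cfsg.Agent.H3.TqFwd
import Cfsg.Agent.H49.Disc
import Cfsg.Agent.H49.Basic
import Cfsg.Agent.H49.GraphInv2

/-!
# S5977 (helper96): the assemblies of the pieces

`fwdP` (elements of odd prime order), `typeBP` (elements of square `-1`), `tqp_main` (S5977 from
`StFwdP`, `StTypeA`, `StTypeBP`).
-/

set_option autoImplicit false
open scoped MatrixGroups
open scoped Matrix

namespace Cfsg.Agent.Lib.Helper96.TqP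

open Module
open Cfsg.Agent.H77.Tq

universe u

/-- The standing hypotheses for the plus-type form. -/
theorem ko_plus {F : Type u} [Field F] [Fintype F] (hodd : Odd (Fintype.card F)) (d : ℕ)
    (K : Subalgebra F (Matrix (Fin d ⊕ Fin d) (Fin d ⊕ Fin d) F))
    (hK : Cfsg.Geo.IsFieldSubalgebra 2 K)
    (hKf : Cfsg.Geo.IsSelfAdjointFor (QuadraticMap.polar (Cfsg.quadFormPlus d F)) K) :
    KO (Cfsg.Agent.H49.QP d F) K :=
  ⟨Cfsg.Agent.H49.two_ne_zero_of_odd_card hodd, Cfsg.Agent.H49.QP_nondeg d F, hK, hKf⟩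

/-- A scalar square of an isometry of the plus-type form is `±1`. -/
theorem sq_scalar_plus {F : Type u} [Field F] (d : ℕ) (hd : 0 < d) (x : GL (Fin d ⊕ Fin d) F)
    (hx : x ∈ Cfsg.isometryGroup F (Cfsg.quadFormPlus d F)) (z : F)
    (hz : (x : Matrix (Fin d ⊕ Fin d) (Fin d ⊕ Fin d) F) *
      (x : Matrix (Fin d ⊕ Fin d) (Fin d ⊕ Fin d) F) = z • 1) :
    z = 1 ∨ z = -1 := by
  classical
  have hiso := Cfsg.Agent.H49.mem_isometryGroup_iff.mp hx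
  set v₀ : Fin d ⊕ Fin d → F := Pi.single (Sum.inl ⟨0, hd⟩) 1 + Pi.single (Sum.inr ⟨0, hd⟩) 1
    with hv₀
  have hQ1 : Cfsg.quadFormPlus d F v₀ = 1 := by
    simp only [Cfsg.quadFormPlus, hv₀, Pi.add_apply]
    rw [Finset.sum_eq_single (⟨0, hd⟩ : Fin d)]
    · simp
    · intro j _ hj
      simp [hj]
    · intro h; exact absurd (Finset.mem_univ _) h
  have h1 : Cfsg.quadFormPlus d F
      ((x : Matrix (Fin d ⊕ Fin d) (Fin d ⊕ Fin d) F) *ᵥ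
        ((x : Matrix (Fin d ⊕ Fin d) (Fin d ⊕ Fin d) F) *ᵥ v₀)) = 1 := by
    rw [hiso, hiso, hQ1]
  rw [Matrix.mulVec_mulVec, hz, Matrix.smul_mulVec, Matrix.one_mulVec] at h1
  have h2 : Cfsg.quadFormPlus d F (z • v₀) = z * z * Cfsg.quadFormPlus d F v₀ := by
    have := QuadraticMap.map_smul (Cfsg.Agent.H49.QP d F) z v₀
    rw [smul_eq_mul] at this
    exact this
  rw [h2, hQ1, mul_one] at h1
  have h3 : (z - 1) * (z + 1) = 0 := by linear_combination h1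
  rcases mul_eq_zero.mp h3 with h | h
  · left; linear_combination h
  · right; linear_combination h

/-- S5977-FWD. -/
theorem fwdP (hSiegel : StSiegelP.{u}) (hAut : StAutG.{u}) (hR2 : StRankTwo.{u})
    (hIdx : StIdxP.{u}) (hMinO : StMinElOddP.{u}) (hMinE : StMinElEvenP.{u})
    (hKB : StKBound.{u}) (hCC : StArithCC) : StFwdP.{u} := by
  intro F _ _ p _ _ d K hd hKO r hr hr2 hdvd
  have h2 : (2 : F) ≠ 0 := hKO.two
  have hp : p.Prime := Fact.out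
  have hodd : Odd r := hr.odd_of_ne_two hr2
  -- consequences of a conjugate lying in `N(K)`
  have key : ∀ (x g : GL (Fin d ⊕ Fin d) F), x ∈ Cfsg.Geo.omegaGL (Cfsg.quadFormPlus d F) →
      g ∈ Cfsg.Geo.omegaGL (Cfsg.quadFormPlus d F) → x ^ r = 1 →
      g⁻¹ * x * g ∈ Cfsg.Geo.subalgebraNormalizer K →
      (g⁻¹ * x * g) ∈ Cfsg.isometryGroup F ⇑(Cfsg.Agent.H49.QP d F) ∧
      (∀ a' ∈ K, ((g⁻¹ * x * g : GL (Fin d ⊕ Fin d) F) :
          Matrix (Fin d ⊕ Fin d) (Fin d ⊕ Fin d) F) * a' =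
        a' * ((g⁻¹ * x * g : GL (Fin d ⊕ Fin d) F) :
          Matrix (Fin d ⊕ Fin d) (Fin d ⊕ Fin d) F)) ∧
      (g⁻¹ * x * g) ^ r = 1 := by
    intro x g hx hg hxr hN
    have hyr := Cfsg.Agent.H3.Tq.conj_pow_eq_one x g r hxr
    refine ⟨?_, ?_, hyr⟩
    · have hxO := Cfsg.Agent.H3.Tq.mem_iso_of_mem_omega _ hx
      have hgO := Cfsg.Agent.H3.Tq.mem_iso_of_mem_omega _ hg
      exact Subgroup.mul_mem _ (Subgroup.mul_mem _ (Subgroup.inv_mem _ hgO) hxO) hgO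
    · refine hAut F (Fin d ⊕ Fin d) 2 K hKO.fld Nat.prime_two (g⁻¹ * x * g) r 1 hN hr hr2 ?_
      rw [hyr, Units.val_one, one_smul]
  by_cases hrp : r = p
  · obtain ⟨x, hxΩ, hxp, hxns, hxrank⟩ := hSiegel F p d h2 hd
    have hxr : x ^ r = 1 := by rw [hrp]; exact hxp
    refine ⟨x, hxΩ, hxr, hxns, ?_⟩
    intro g hg hN
    obtain ⟨hyO, hycomm, hyr⟩ := key x g hxΩ hg hxr hN
    have hrk : (((g⁻¹ * x * g : GL (Fin d ⊕ Fin d) F) :
        Matrix (Fin d ⊕ Fin d) (Fin d ⊕ Fin d) F) - 1).rank ≤ 2 := by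
      rw [Cfsg.Agent.H3.Tq.rank_conj_sub_one, hxrank]
    have hy1 := hR2 F (Fin d ⊕ Fin d) (Cfsg.Agent.H49.QP d F) K hKO (g⁻¹ * x * g) r hyO hycomm
      hodd hyr hrk
    have hx1 := Cfsg.Agent.H3.Tq.eq_one_of_conj_eq_one x g hy1
    apply hxns 1
    rw [hx1, Units.val_one, one_smul]
  · obtain ⟨hio, hie, h4⟩ := hIdx F p d K (by omega) hKO r hr hr2 hrp hdvd
    have hrq : ¬ r ∣ Fintype.card F := by
      obtain ⟨n, hn⟩ := FiniteField.card F p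
      rw [hn.2]
      intro h
      exact hrp ((Nat.prime_dvd_prime_iff_eq hr hp).1 (hr.dvd_of_dvd_pow h))
    have hcc := hCC (Fintype.card F) r hr hr2 hrq h4
    obtain ⟨x, hxΩ, hxr, hxns, hxrank⟩ : ∃ x : GL (Fin d ⊕ Fin d) F,
        x ∈ Cfsg.Geo.omegaGL (Cfsg.quadFormPlus d F) ∧ x ^ r = 1 ∧
        (∀ z : F, (x : Matrix (Fin d ⊕ Fin d) (Fin d ⊕ Fin d) F) ≠
          z • (1 : Matrix (Fin d ⊕ Fin d) (Fin d ⊕ Fin d) F)) ∧
        ((x : Matrix (Fin d ⊕ Fin d) (Fin d ⊕ Fin d) F) - 1).rank =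
          Cfsg.Agent.H42.Spd.cc F r := by
      rcases Nat.even_or_odd (orderOf (Fintype.card F : ZMod r)) with he | ho
      · exact hMinE F p d h2 r hr hr2 hrp he (hie he)
      · exact hMinO F p d h2 r hr hr2 hrp ho (hio ho)
    refine ⟨x, hxΩ, hxr, hxns, ?_⟩
    intro g hg hN
    obtain ⟨hyO, hycomm, hyr⟩ := key x g hxΩ hg hxr hN
    have hy1 : g⁻¹ * x * g ≠ 1 := by
      intro h
      have hx1 := Cfsg.Agent.H3.Tq.eq_one_of_conj_eq_one x g h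
      apply hxns 1
      rw [hx1, Units.val_one, one_smul]
    have hkb := hKB F p (Fin d ⊕ Fin d) (Cfsg.Agent.H49.QP d F) K hKO (g⁻¹ * x * g) r hyO
      hycomm hr hr2 hrp hyr hy1
    rw [Cfsg.Agent.H3.Tq.rank_conj_sub_one, hxrank] at hkb
    unfold Cfsg.Agent.H42.Spd.cc at hkb
    omega

/-- S5977-TYPEB. -/
theorem typeBP (hCond : StBCondP.{u}) (hS : StStruct.{u}) (hDisc : StDiscP.{u})
    (hSemi : StSemiPl.{u}) (hRefl : StReflN.{u}) (hCos : StCosets.{u})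
    (hConj : StBConjO.{u}) : StTypeBP.{u} := by
  classical
  intro F _ _ d K hd hKO x hxΩ hx2
  have h2 : (2 : F) ≠ 0 := hKO.two
  have hnd := hKO.nondeg
  have hxO : x ∈ Cfsg.isometryGroup F ⇑(Cfsg.Agent.H49.QP d F) :=
    Cfsg.Agent.H3.Tq.mem_iso_of_mem_omega _ hxΩ
  have hsq : IsSquare ((-1 : F) ^ d) := hCond F d h2 x hxO hx2
  obtain ⟨n, L, _, _, _, ψ, φ, α, hKC, hns⟩ :=
    hS F (Fin d ⊕ Fin d) (Cfsg.Agent.H49.QP d F) K hKO
  have hnd' : n = d := by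
    have := hKC.dim
    simp [Fintype.card_sum] at this
    omega
  have hall : ∀ l, ¬ IsSquare (α l) := by
    intro l
    by_cases hl : (l : ℕ) + 1 < n
    · exact hns l hl
    · have hl' : (l : ℕ) + 1 = n := by have := l.2; omega
      intro hsql
      have := (hDisc F d K L n ψ φ α h2 hKC hns l hl').mp hsql
      rw [hnd'] at this
      exact this hsq
  obtain ⟨y, P, hyO, hyN, hy2, hPdim, hPnd, hPy, hPK⟩ :=
    hSemi F (Fin d ⊕ Fin d) (Cfsg.Agent.H49.QP d F) K L n ψ φ α hKO hKC (by omega) hall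
  obtain ⟨g₀, hg₀O, hg₀⟩ := hConj F (Fin d ⊕ Fin d) (Cfsg.Agent.H49.QP d F) h2 hnd x y hxO hyO
    hx2 hy2
  -- a nonsquare of `F`
  have hchar : ringChar F ≠ 2 := by
    intro h
    apply h2
    have h3 := ringChar.Nat.cast_ringChar (R := F)
    rw [h] at h3
    exact_mod_cast h3
  obtain ⟨ν, hν⟩ := FiniteField.exists_nonsquare hchar
  obtain ⟨u₁, hu₁P, hu₁⟩ := Cfsg.Agent.H49.exists_Q_eq_of_nondeg_sub (Cfsg.Agent.H49.QP d F) h2 P
    hPnd (by rw [hPdim]) 1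
  obtain ⟨u₂, hu₂P, hu₂⟩ := Cfsg.Agent.H49.exists_Q_eq_of_nondeg_sub (Cfsg.Agent.H49.QP d F) h2 P
    hPnd (by rw [hPdim]) ν
  have hν0 : ν ≠ 0 := by
    rintro rfl
    exact hν ⟨0, by simp⟩
  have hQ1 : (Cfsg.Agent.H49.QP d F) u₁ ≠ 0 := by rw [hu₁]; exact one_ne_zero
  have hQ2 : (Cfsg.Agent.H49.QP d F) u₂ ≠ 0 := by rw [hu₂]; exact hν0
  have hQ12 : ¬ IsSquare ((Cfsg.Agent.H49.QP d F) u₁ * (Cfsg.Agent.H49.QP d F) u₂) := by
    rw [hu₁, hu₂, one_mul]; exact hν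
  have hQ21 : ¬ IsSquare ((Cfsg.Agent.H49.QP d F) u₂ * (Cfsg.Agent.H49.QP d F) u₁) := by
    rw [mul_comm]; exact hQ12
  obtain ⟨hr1, hr12⟩ := hRefl F (Fin d ⊕ Fin d) (Cfsg.Agent.H49.QP d F) K hKO y P hyO hyN hy2
    hPdim hPy hPK u₁ hu₁P u₂ hu₂P hQ1 hQ2
  obtain ⟨hr2, -⟩ := hRefl F (Fin d ⊕ Fin d) (Cfsg.Agent.H49.QP d F) K hKO y P hyO hyN hy2
    hPdim hPy hPK u₂ hu₂P u₁ hu₁P hQ2 hQ1
  -- the conclusion from a coset representative `c`
  have fin : ∀ c : GL (Fin d ⊕ Fin d) F,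
      c * g₀ ∈ Cfsg.Geo.omegaGL (Cfsg.quadFormPlus d F) →
      c * y * c⁻¹ ∈ Cfsg.Geo.subalgebraNormalizer K →
      ∃ g ∈ Cfsg.Geo.omegaGL (Cfsg.quadFormPlus d F),
        g⁻¹ * x * g ∈ Cfsg.Geo.subalgebraNormalizer K := by
    intro c hc hcy
    refine ⟨(c * g₀)⁻¹, Subgroup.inv_mem _ hc, ?_⟩
    have e : ((c * g₀)⁻¹)⁻¹ * x * (c * g₀)⁻¹ = c * y * c⁻¹ := by
      rw [← hg₀]; group
    rw [e]
    exact hcy
  rcases hCos F (Fin d ⊕ Fin d) (Cfsg.Agent.H49.QP d F) h2 hnd u₁ u₂ hQ1 hQ2 hQ12 g₀ hg₀O with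
    h | h | h | h
  · refine fin 1 (by rw [one_mul]; exact h) ?_
    rw [one_mul, inv_one, mul_one]
    exact hyN
  · exact fin _ h hr1
  · exact fin _ h hr2
  · exact fin _ h hr12

/-- S5977 from its three main pieces. -/
theorem tqp_main (hFwd : StFwdP.{u}) (hA : StTypeA.{u}) (hB : StTypeBP.{u})
    {F : Type u} [Field F] [Fintype F] {p : ℕ} [Fact p.Prime] [CharP F p] {q : ℕ}
    (hq : Fintype.card F = q) (hodd : Odd q) (d : ℕ) (hd : 4 ≤ d)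
    (K : Subalgebra F (Matrix (Fin d ⊕ Fin d) (Fin d ⊕ Fin d) F))
    (hK : Cfsg.Geo.IsFieldSubalgebra 2 K)
    (hKf : Cfsg.Geo.IsSelfAdjointFor (QuadraticMap.polar (Cfsg.quadFormPlus d F)) K)
    (r : ℕ) [Fact r.Prime]
    (hΩ : r ∣ (Cfsg.Geo.subalgebraNormalizer K).relIndex
      (Cfsg.Geo.omegaGL (Cfsg.quadFormPlus d F))) :
    (∀ x ∈ Cfsg.Geo.omegaGL (Cfsg.quadFormPlus d F),
      (∃ z : F, ((x ^ r : GL (Fin d ⊕ Fin d) F) : Matrix (Fin d ⊕ Fin d) (Fin d ⊕ Fin d) F) =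
        z • (1 : Matrix (Fin d ⊕ Fin d) (Fin d ⊕ Fin d) F)) →
      (∀ z : F, (x : Matrix (Fin d ⊕ Fin d) (Fin d ⊕ Fin d) F) ≠
        z • (1 : Matrix (Fin d ⊕ Fin d) (Fin d ⊕ Fin d) F)) →
      ∃ g ∈ Cfsg.Geo.omegaGL (Cfsg.quadFormPlus d F),
        g⁻¹ * x * g ∈ Cfsg.Geo.subalgebraNormalizer K) ↔ r = 2 := by
  classical
  have hoddF : Odd (Fintype.card F) := by rw [hq]; exact hodd
  have hKO := ko_plus hoddF d K hK hKf
  constructor
  · intro h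
    by_contra hr2
    obtain ⟨x, hx, hxr, hns, hno⟩ := hFwd F p d K (by omega) hKO r Fact.out hr2 hΩ
    obtain ⟨g, hg, hgN⟩ := h x hx ⟨1, by rw [hxr, one_smul]; rfl⟩ hns
    exact hno g hg hgN
  · rintro rfl x hx ⟨z, hz⟩ hns
    have hxO : x ∈ Cfsg.isometryGroup F (Cfsg.quadFormPlus d F) := by
      obtain ⟨y, -, rfl⟩ := hx
      exact y.2
    have hz' : (x : Matrix (Fin d ⊕ Fin d) (Fin d ⊕ Fin d) F) *
        (x : Matrix (Fin d ⊕ Fin d) (Fin d ⊕ Fin d) F) = z • 1 := by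
      rw [← hz, pow_two, Units.val_mul]
    rcases sq_scalar_plus d (by omega) x hxO z hz' with rfl | rfl
    · refine hA F (Fin d ⊕ Fin d) (Cfsg.Agent.H49.QP d F) K hKO ?_ x hx ?_ hns
      · refine ⟨d, ?_⟩
        simp [Fintype.card_sum]
      · rw [hz', one_smul]
    · refine hB F d K (by omega) hKO x hx ?_
      rw [hz', neg_smul, one_smul]

end Cfsg.Agent.Lib.Helper96.TqP
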