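import Mathlib
import Cfsg.Agent.Lib.Helper96.TqPlusDefs
import Cfsg.Agent.H40.TqPlane
import Cfsg.Agent.H98.TqLin

/-!
# S5977-SEMIPL (helper96)

If all `α_l` are nonsquares of `L` and `0 < n`, some `K`-semilinear isometry `y` of `Q` has
square `-1` and leaves invariant a nondegenerate `F`-plane `P` that is a `K`-line.  The
construction of `y` is helper40's `Cfsg.Agent.H40.Tq.semi` (S5978-SEMI); `P` is the image of the
first coordinate line.
-/

set_option autoImplicit false
open scoped MatrixGroups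
open scoped Matrix

namespace Cfsg.Agent.Lib.Helper96.TqP

open Cfsg.Agent.H77.Tq Cfsg.Agent.H40.Tq Module

universe u

theorem semiPl : StSemiPl.{u} := by
  intro F _ _ ι _ _ Q K L _ _ _ n ψ φ α hKO hKC hn hns
  classical
  obtain ⟨q, hq⟩ : ∃ q, q = Fintype.card F := ⟨_, rfl⟩
  have h2F : (2 : F) ≠ 0 := hKO.two
  have h2 : finrank F L = 2 := plane_finrank F L hKC.card
  have hinj : Function.Injective (algebraMap F L) := FaithfulSMul.algebraMap_injective F L
  have h2L : (2 : L) ≠ 0 := by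
    intro h
    apply h2F
    apply hinj
    rw [map_ofNat, h, map_zero]
  have hcharL : ringChar L ≠ 2 := by
    intro h
    apply h2L
    have h3 := ringChar.Nat.cast_ringChar (R := L)
    rw [h] at h3
    exact_mod_cast h3
  have hcharF : ringChar F ≠ 2 := by
    intro h
    apply h2F
    have h3 := ringChar.Nat.cast_ringChar (R := F)
    rw [h] at h3
    exact_mod_cast h3
  have hqodd : Odd q := by
    rw [hq]
    exact Nat.odd_iff.mpr (FiniteField.odd_card_of_char_ne_two hcharF)
  obtain ⟨j, hj⟩ := hqodd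
  have hcardL : Fintype.card L = q ^ 2 := by rw [hq]; exact hKC.card
  -- the Frobenius
  obtain ⟨σ, hσ⟩ : ∃ σ : L →ₐ[F] L, ∀ x, σ x = x ^ q := by
    refine ⟨FiniteField.frobeniusAlgHom F L, fun x => ?_⟩
    rw [hq]
    rfl
  have hσσ : ∀ x : L, σ (σ x) = x := by
    intro x
    rw [hσ, hσ, ← pow_mul, ← pow_two, ← hcardL, FiniteField.pow_card]
  have htrσ : ∀ x : L, Algebra.trace F L (σ x) = Algebra.trace F L x := by
    intro x
    apply hinj
    rw [plane_tr F L h2, plane_tr F L h2, ← hq, ← hσ, ← hσ, hσσ, add_comm]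
  -- the twisting constants
  obtain ⟨μ, hμ⟩ : ∃ μ : Fin n → L, ∀ l, μ l = α l ^ ((q - 1) / 2) := ⟨_, fun _ => rfl⟩
  have hμ1 : ∀ l, α l * (μ l * μ l) = σ (α l) := by
    intro l
    rw [hμ, hσ, ← pow_add, ← pow_succ']
    congr 1
    omega
  have hμ2 : ∀ l, σ (μ l) * μ l = -1 := by
    intro l
    have hα0 : α l ≠ 0 := hKC.ne l
    have h3 : α l ^ (Fintype.card L / 2) = -1 := by
      rcases FiniteField.pow_dichotomy hcharL hα0 with h | h
      · exact absurd ((FiniteField.isSquare_iff hcharL hα0).mpr h) (hns l)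
      · exact h
    rw [hσ, hμ, ← pow_mul, ← pow_add, ← h3]
    congr 1
    rw [hcardL, hj]
    have e1 : (2 * j + 1 - 1) / 2 = j := by omega
    have e2 : (2 * j + 1) ^ 2 / 2 = 2 * j * j + 2 * j := by
      have : (2 * j + 1) ^ 2 = 2 * (2 * j * j + 2 * j) + 1 := by ring
      omega
    rw [e1, e2]
    ring
  -- the semilinear map
  let T : (Fin n → L) →ₗ[F] (Fin n → L) :=
    { toFun := fun w l => σ (w l) * μ l
      map_add' := fun w w' => by
        funext l
        simp [add_mul]
      map_smul' := fun c w => by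
        funext l
        simp }
  have hT : ∀ w l, T w l = σ (w l) * μ l := fun _ _ => rfl
  have hTT : ∀ w, T (T w) = -w := by
    intro w
    funext l
    rw [hT, hT, map_mul, hσσ, mul_assoc, hμ2]
    simp
  have hTs : ∀ (c : L) (w : Fin n → L), T (c • w) = σ c • T w := by
    intro c w
    funext l
    rw [hT, Pi.smul_apply, Pi.smul_apply, hT, smul_eq_mul, smul_eq_mul, map_mul, mul_assoc]
  let f : (ι → F) →ₗ[F] (ι → F) := φ.toLinearMap ∘ₗ T ∘ₗ φ.symm.toLinearMap
  have hf : ∀ w, f (φ w) = φ (T w) := by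
    intro w
    show φ (T (φ.symm (φ w))) = φ (T w)
    rw [LinearEquiv.symm_apply_apply]
  have hfv : ∀ v, f v = φ (T (φ.symm v)) := fun _ => rfl
  have hff : f ∘ₗ f = -LinearMap.id := by
    apply LinearMap.ext
    intro v
    show f (f v) = -v
    rw [hfv v, hf, hTT, map_neg, LinearEquiv.apply_symm_apply]
  obtain ⟨Ymat, hYmat⟩ : ∃ Ymat : Matrix ι ι F, Ymat = LinearMap.toMatrix' f := ⟨_, rfl⟩
  have hYv : ∀ v, Ymat *ᵥ v = f v := by
    intro v
    rw [hYmat, ← Matrix.toLin'_apply, Matrix.toLin'_toMatrix']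
  have hYY : Ymat * Ymat = -1 := by
    rw [hYmat, ← LinearMap.toMatrix'_comp, hff, map_neg, LinearMap.toMatrix'_id]
  -- isometry
  have hpol : ∀ w w', QuadraticMap.polar (⇑Q) (φ (T w)) (φ (T w')) =
      QuadraticMap.polar (⇑Q) (φ w) (φ w') := by
    intro w w'
    have e : (∑ l, α l * T w l * T w' l) = σ (∑ l, α l * w l * w' l) := by
      rw [map_sum]
      apply Finset.sum_congr rfl
      intro l _
      rw [hT, hT, map_mul, map_mul, ← hμ1 l]
      ring
    rw [hKC.form, hKC.form, e, htrσ]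
  have hQ : ∀ v, Q (Ymat *ᵥ v) = Q v := by
    intro v
    have h3 := hpol (φ.symm v) (φ.symm v)
    rw [← hfv, LinearEquiv.apply_symm_apply, QuadraticMap.polar_self, QuadraticMap.polar_self,
      two_smul, two_smul, ← two_mul, ← two_mul] at h3
    rw [hYv]
    exact mul_left_cancel₀ h2F h3
  -- normalizer
  have key : ∀ c : L, Ymat * ψ c = ψ (σ c) * Ymat := by
    intro c
    apply Matrix.mulVec_injective
    funext v
    obtain ⟨w, rfl⟩ := φ.surjective v
    rw [← Matrix.mulVec_mulVec, ← Matrix.mulVec_mulVec, ← hKC.smul, hYv, hYv, hf, hf, hTs,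
      hKC.smul]
  -- the plane
  let l₀ : Fin n := ⟨0, hn⟩
  let J : L →ₗ[F] (ι → F) :=
    φ.toLinearMap ∘ₗ (LinearMap.single F (fun _ : Fin n => L) l₀)
  have hJ : ∀ c : L, J c = φ (Pi.single l₀ c) := fun _ => rfl
  have hJinj : Function.Injective J := by
    intro c c' h
    rw [hJ, hJ] at h
    exact Pi.single_injective l₀ (φ.injective h)
  have hJpol : ∀ c c' : L, QuadraticMap.polar (⇑Q) (J c) (J c') =
      Algebra.trace F L (α l₀ * c * c') := by
    intro c c'
    rw [hJ, hJ, hKC.form, Finset.sum_eq_single l₀]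
    · rw [Pi.single_eq_same, Pi.single_eq_same]
    · intro l _ hl
      rw [Pi.single_eq_of_ne hl, mul_zero, zero_mul]
    · intro h
      exact absurd (Finset.mem_univ _) h
  refine ⟨⟨Ymat, -Ymat, by rw [mul_neg, hYY, neg_neg], by rw [neg_mul, hYY, neg_neg]⟩,
    LinearMap.range J, ?_, ?_, ?_, ?_, ?_, ?_, ?_⟩
  · intro u v
    exact hQ u
  · intro k
    show k ∈ K ↔ Ymat * k * (-Ymat) ∈ K
    constructor
    · intro hk
      obtain ⟨c, rfl⟩ := hKC.surj k hk
      have e : Ymat * ψ c * (-Ymat) = ψ (σ c) := by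
        rw [key, mul_assoc, mul_neg, hYY, neg_neg, mul_one]
      rw [e]
      exact hKC.mem _
    · intro hk
      obtain ⟨c, hc⟩ := hKC.surj _ hk
      have e : k = ψ (σ c) := by
        have e1 : (-Ymat) * (Ymat * k * (-Ymat)) * Ymat = k := by
          rw [← mul_assoc, ← mul_assoc, neg_mul, hYY, neg_neg, one_mul, mul_assoc, neg_mul, hYY,
            neg_neg, mul_one]
        rw [← e1, ← hc, neg_mul, key, neg_mul, mul_assoc, hYY, mul_neg, neg_neg, mul_one]
      rw [e]
      exact hKC.mem _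
  · exact hYY
  · rw [LinearMap.finrank_range_of_inj hJinj, h2]
  · rintro a ⟨c, rfl⟩ ha
    have h3 : α l₀ * c = 0 := by
      apply Cfsg.Agent.H98.Tq.eq_zero_of_trace_mul (F := F)
      intro c'
      have h4 := ha (J c') ⟨c', rfl⟩
      rw [hJpol] at h4
      rw [← h4]
      congr 1
      ring
    rcases mul_eq_zero.mp h3 with h | h
    · exact absurd h (hKC.ne l₀)
    · rw [h, map_zero]
  · rintro v ⟨c, rfl⟩
    refine ⟨σ c * μ l₀, ?_⟩
    show J (σ c * μ l₀) = Ymat *ᵥ J c
    rw [hYv, hJ, hJ, hf]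
    congr 1
    funext l
    rw [hT]
    by_cases hl : l = l₀
    · subst hl
      rw [Pi.single_eq_same, Pi.single_eq_same]
    · rw [Pi.single_eq_of_ne hl, Pi.single_eq_of_ne hl, map_zero, zero_mul]
  · rintro a ha v ⟨c, rfl⟩
    obtain ⟨c', rfl⟩ := hKC.surj a ha
    refine ⟨c' * c, ?_⟩
    rw [hJ, hJ, ← hKC.smul]
    congr 1
    funext l
    by_cases hl : l = l₀
    · subst hl
      rw [Pi.smul_apply, Pi.single_eq_same, Pi.single_eq_same, smul_eq_mul]
    · rw [Pi.smul_apply, Pi.single_eq_of_ne hl, Pi.single_eq_of_ne hl, smul_zero]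

example : StSemiPl.{u} := semiPl

end Cfsg.Agent.Lib.Helper96.TqP

#print axioms Cfsg.Agent.Lib.Helper96.TqP.semiPl
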